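import Cfsg.Agent.H17.FV0
import Cfsg.Agent.S3099
import Cfsg.Agent.S2119
import Cfsg.Agent.S0205
import Cfsg.Agent.H11.Small
import Cfsg.Agent.H1.Core

/-! S5720, chunk G1: the top section `SL₂(q)`, `q > 5`, or `A₇`. -/

set_option autoImplicit false
open Subgroup Cfsg
open scoped MatrixGroups

namespace H1.FV
universe u

theorem exP (H : Type*) [Group H] [Finite H] :
    ∃ n, ⁅derivedSeries H n, derivedSeries H n⁆ = derivedSeries H n := by
  by_contra h
  push Not at h
  have s : StrictAnti (derivedSeries H) := strictAnti_nat_of_succ_lt fun n =>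
    lt_of_le_of_ne (derivedSeries_antitone H (Nat.le_succ n)) (h n)
  exact not_injective_infinite_finite _ s.injective

theorem a5ns : ¬ Group.IsSolvable (alternatingGroup (Fin 5)) := fun h => by
  have := IsSimpleGroup.comm_iff_isSolvable.2 h
    ⟨Equiv.swap 0 1 * Equiv.swap 1 2, Equiv.Perm.mem_alternatingGroup.2 (by decide)⟩
    ⟨Equiv.swap 0 1 * Equiv.swap 1 3, Equiv.Perm.mem_alternatingGroup.2 (by decide)⟩
  exact absurd (congrArg (fun x : alternatingGroup (Fin 5) => (x : Equiv.Perm (Fin 5)) 0) this) (by decide)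

theorem five {H : Type*} [Group H] [Finite H] (n : ℕ) (L : Subgroup H) (hL : L = derivedSeries H n)
    (g : L →* alternatingGroup (Fin 5)) (hg : Function.Surjective g)
    (hk : Group.IsSolvable g.ker) : (solvableRadical H).index ≤ 120 := by
  have : L.Normal := hL ▸ derivedSeries_normal H n
  let R := solvableRadical H
  let π := QuotientGroup.mk' R
  have hπ : Function.Surjective π := QuotientGroup.mk'_surjective R
  have r0 : solvableRadical (alternatingGroup (Fin 5)) = ⊥ :=
    (IsSimpleGroup.eq_bot_or_eq_top_of_normal _ inferInstance).resolve_right fun e =>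
      a5ns (solvRad_eq_top_iff.1 e)
  have k1 : solvableRadical L ≤ g.ker := by
    rw [← Subgroup.map_eq_bot_iff, eq_bot_iff, ← r0]; exact map_solvRad_le hg
  have k2 : (π.subgroupMap L).ker = g.ker := by
    refine le_antisymm (fun x hx => k1 (solvRad_subgroupOf_le L ?_)) fun x hx => ?_
    · exact (QuotientGroup.eq_one_iff (N := R) (x : H)).1 (congrArg Subtype.val hx)
    · exact Subtype.ext ((QuotientGroup.eq_one_iff _).2 (le_solvRad (solvRadOf_normal L)
        (solvRadOf_isSolvable L) ⟨x, le_solvRad inferInstance hk hx, rfl⟩))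
  have hn : (L.map π).Normal := this.map π hπ
  have e : L.map π ≃* alternatingGroup (Fin 5) :=
    (QuotientGroup.quotientKerEquivOfSurjective _ (π.subgroupMap_surjective L)).symm.trans
      ((QuotientGroup.quotientMulEquivOfEq k2).trans (QuotientGroup.quotientKerEquivOfSurjective g hg))
  have : IsSimpleGroup (L.map π) := e.isSimpleGroup
  let φ : (H ⧸ R) →* MulAut (L.map π) := MulAut.conjNormal
  have c0 : φ.ker ⊓ L.map π = ⊥ := by
    have hz : center (L.map π) = ⊥ :=
      (IsSimpleGroup.eq_bot_or_eq_top_of_normal _ inferInstance).resolve_right fun t =>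
        a5ns (Group.isSolvable_of_comm fun a b => e.symm.injective (by
          rw [map_mul, map_mul]; exact mem_center_iff.1 (t ▸ mem_top _) _))
    refine eq_bot_iff.2 fun x hx => ?_
    have : (⟨x, hx.2⟩ : L.map π) ∈ center (L.map π) := mem_center_iff.2 fun y => Subtype.ext (by
      have := congrArg (fun a : MulAut (L.map π) => ((a y : L.map π) : H ⧸ R)) (MonoidHom.mem_ker.1 hx.1)
      simp only [φ, MulAut.conjNormal_apply, MulAut.one_apply] at this
      exact (mul_inv_eq_iff_eq_mul.1 this).symm)
    rw [hz] at this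
    exact congrArg Subtype.val (mem_bot.1 this)
  have c1 : Group.IsSolvable φ.ker := ⟨n, by
    rw [← map_eq_bot_iff_of_injective _ φ.ker.subtype_injective, eq_bot_iff, ← c0]
    exact le_inf (map_subtype_le _) ((map_derivedSeries_le_derivedSeries _ n).trans
      (hL ▸ (map_derivedSeries_eq hπ n).ge))⟩
  have c2 : φ.ker = ⊥ := eq_bot_iff.2 ((le_solvRad inferInstance c1).trans solvRad_quotient_solvRad.le)
  have := Nat.card_le_card_of_injective φ ((MonoidHom.ker_eq_bot_iff φ).1 c2)
  rw [Nat.card_congr (MulAut.congr e).toEquiv,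
    ← Nat.card_eq_of_bijective _ (Agent.S2119.result 5 (by decide) (by decide))] at this
  rw [Nat.card_perm, Nat.card_eq_fintype_card (α := Fin 5), Fintype.card_fin] at this
  exact this

theorem g1 : H17.FV.G1.{u} := fun H _ _ hR ui => by
  obtain ⟨n, hn⟩ := exP H
  refine ⟨derivedSeries H n, ?_⟩
  set L := derivedSeries H n with hL
  have hP : Group.IsPerfect L := isPerfect_iff.2 hn
  have h0 : L ≠ ⊥ := fun e => by
    rw [solvRad_eq_top_iff.2 ⟨n, e⟩, index_top] at hR; omega
  have : Nontrivial L := (nontrivial_iff_ne_bot L).2 h0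
  have ev : Even (Nat.card L) := Nat.not_odd_iff_even.1 fun o =>
    Group.IsPerfect.not_isSolvable (G := L) (Agent.S0205.result o)
  have u : H17.FV.UI L := ui.inj L.subtype_injective
  have rk : PRankLE 2 1 L := fun A _ hA => by
    by_contra c
    have : Fintype A := Fintype.ofFinite A
    obtain ⟨a, b, d, h1, h2, h3⟩ := Fintype.two_lt_card_iff.1
      (show 2 < Fintype.card A by rw [← Nat.card_eq_fintype_card]; omega)
    have k : ∀ x y : A, x ≠ 1 → y ≠ 1 → x = y := fun x y hx hy =>
      Subtype.ext (u _ _ (by rw [← sq]; exact hA _ x.2) (by rw [← sq]; exact hA _ y.2)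
        (fun e => hx (Subtype.ext e)) fun e => hy (Subtype.ext e))
    by_cases ha : a = 1
    · exact h3 (k _ _ (fun e => h1 (ha.trans e.symm)) fun e => h2 (ha.trans e.symm))
    · by_cases hb : b = 1
      · exact h2 (k _ _ ha fun e => h3 (hb.trans e.symm))
      · exact h1 (k _ _ ha hb)
  have sO := QuotientGroup.mk'_surjective (oddCore L)
  obtain ⟨F, _, _, o, h3, ⟨e⟩⟩ | ⟨-, ⟨e⟩, -⟩ := Agent.S3099.result hP rk ev
  · let f : L →* SL(2, F) := e.toMonoidHom.comp (QuotientGroup.mk' _)
    have hf : Function.Surjective f := e.surjective.comp sO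
    have kf : f.ker = oddCore L := by
      ext x; simp [f]
    refine .inl ⟨F, _, _, o, ?_, f, hf, kf ▸ odd_card_oddCore⟩
    by_contra c
    obtain ⟨e5⟩ := H11.nonempty_psl2_five_equiv (F := F) (by obtain ⟨k, hk⟩ := o; omega)
    let g : L →* alternatingGroup (Fin 5) := e5.toMonoidHom.comp ((QuotientGroup.mk' (center SL(2, F))).comp f)
    have kg : g.ker = (center SL(2, F)).comap f := by
      ext x; simp [g, MonoidHom.mem_ker]
    refine absurd (five n L rfl g (e5.surjective.comp ((QuotientGroup.mk'_surjective _).comp hf)) ?_) (by omega)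
    have s1 : Group.IsSolvable f.ker := Agent.S0205.result (kf ▸ odd_card_oddCore)
    have s2 : Group.IsSolvable (center SL(2, F)) := Group.isSolvable_of_comm fun a b => Subtype.ext (mem_center_iff.1 b.2 a)
    have l : f.ker ≤ g.ker := fun x hx => by
      rw [kg, mem_comap, MonoidHom.mem_ker.1 hx]; exact one_mem _
    refine Group.isSolvable_of_ker_le_range (inclusion l)
      ((f.comp g.ker.subtype).codRestrict (center SL(2, F)) fun x => kg.le x.2) fun x hx => ?_
    exact ⟨⟨x, congrArg Subtype.val hx⟩, rfl⟩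
  · exact .inr ⟨e.toMonoidHom.comp ((QuotientGroup.mk' _).comp (QuotientGroup.mk' _)),
      e.surjective.comp ((QuotientGroup.mk'_surjective _).comp sO)⟩

end H1.FV
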