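/-
Huppert's supersolvability criterion.
-/
import Cfsg.Agent.H1.SF10
import Cfsg.Agent.H2.Super
import Cfsg.Agent.H24.OrbTwo

set_option autoImplicit false
set_option linter.unusedSectionVars false
set_option linter.style.haveILetI false
set_option linter.unusedVariables false

open Cfsg Subgroup
open scoped Pointwise commutatorElement
namespace H1
open H19

universe u

variable {G : Type u} [Group G] [Finite G] {p : ℕ} {A N P : Subgroup G}

/-- the common kernel of the homomorphisms to `(ZMod p)ˣ` -/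
def Dp (p : ℕ) (G : Type u) [Group G] : Subgroup G := ⨅ f : G →* (ZMod p)ˣ, f.ker

theorem mem_Dp {g : G} : g ∈ Dp p G ↔ ∀ f : G →* (ZMod p)ˣ, f g = 1 := by simp [Dp, mem_iInf]

instance : (Dp p G).Normal := ⟨fun n hn g => mem_Dp.2 fun f => by simp [mem_Dp.1 hn f]⟩

theorem Dp_cents {z : G} (hz : orderOf z = p) [(zpowers z).Normal] : Dp p G ≤ C(zpowers z) := by
  intro g hg
  have e := IsCyclic.mulAutMulEquiv (zpowers z)
  rw [Nat.card_zpowers, hz] at e
  have := mem_Dp.1 hg (e.toMonoidHom.comp MulAut.conjNormal)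
  simp only [MonoidHom.comp_apply, MulEquiv.coe_toMonoidHom, EmbeddingLike.map_eq_one_iff] at this
  refine mem_cent.2 fun y hy => ?_
  have := congrArg Subtype.val (DFunLike.congr_fun this ⟨y, hy⟩)
  simp only [MulAut.conjNormal_apply, MulAut.one_apply] at this
  exact (mul_inv_eq_iff_eq_mul.1 this).symm

theorem cents_of_super (hp : p.Prime) (G : Type u) [Group G] [Finite G] : IsSupersolvable G →
    ∀ R A : Subgroup G, R.Normal → PG p R → PiG {p}ᶜ A → A ≤ Dp p G → A ≤ C(R) := by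
  refine induction_subgroup_quotient (P := fun G _ _ => IsSupersolvable G →
    ∀ R A : Subgroup G, R.Normal → PG p R → PiG {p}ᶜ A → A ≤ Dp p G → A ≤ C(R)) ?_ G
  intro G _ _ _ ih h R A hR h1 h2 h3
  by_cases h0 : R = ⊥
  · rw [h0, cent_bot]; exact le_top
  obtain ⟨z, z1, z2, z3⟩ := H2.exists_prime_mem_of_isSupersolvable h R h0
  have e : orderOf z = p := (h1.elt z1).eq_of_dvd z2 dvd_rfl
  let f := QuotientGroup.mk' (zpowers z)
  have := ih (zpowers z) (by rw [Ne, zpowers_eq_bot]; rintro rfl; simp [Nat.not_prime_one] at z2)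
    (H2.isSupersolvable_quotient h _) (R.map f) (A.map f) (hR.map f (QuotientGroup.mk'_surjective _))
    (h1.dvd (card_map_dvd _ f)) (h2.dvd (card_map_dvd _ f)) (by rintro _ ⟨a, ha, rfl⟩; exact mem_Dp.2 fun φ => mem_Dp.1 (h3 ha) (φ.comp f))
  refine cents_of_stable (K := R) ((h1.of_le (zpowers_le.2 z1)).coprime h2) (h3.trans (Dp_cents e)) ?_
  rw [← QuotientGroup.ker_mk' (zpowers z), ← Subgroup.map_eq_bot_iff, map_commutator]
  exact commg_eq_bot.2 (cents_symm this)

theorem exists_normal_zp [hp : Fact p.Prime] [hn : N.Normal] (hN : Abelem p N) (h0 : N ≠ ⊥)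
    (hmin : ∀ K : Subgroup G, K.Normal → K ≤ N → K = ⊥ ∨ K = N) (h : Dp p G ≤ C(N)) :
    ∃ x : G, x ≠ 1 ∧ (zpowers x).Normal := by
  obtain ⟨y, hy, y1⟩ := exists_ne_one h0
  refine ⟨y, y1, H28.normal_iff_top_le.2 fun g _ => ?_⟩
  have hT : (⊤ : Subgroup G) ≤ N(N) := le_normalizer_of_normal
  haveI : Nontrivial (H9.EA hN) := ⟨⟨H9.EA.mk hN y hy, 0, fun e => y1 (H9.EA.val_eq_one.2 e)⟩⟩
  obtain ⟨a, v, hv, e⟩ := H24.exists_eigen_of_pow_eq (δ := H9.EA.rep hN hT ⟨g, trivial⟩) (by
    have : H9.EA.rep hN hT (⟨g, trivial⟩ ^ (p - 1)) = 1 := (H9.EA.rep_eq_one_iff _ _ _).2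
      (h (mem_Dp.2 fun f => by simp [ZMod.units_pow_card_sub_one_eq_one]))
    rw [map_pow] at this
    exact (congrArg _ (Nat.sub_add_cancel hp.out.one_le).symm).trans (by rw [pow_succ, this, one_mul]))
  have e := congrArg H9.EA.val e
  rw [H9.EA.val_rep, ← ZMod.natCast_zmod_val a, Nat.cast_smul_eq_nsmul, H9.EA.val_nsmul] at e
  let K : Subgroup G :=
    { carrier := {x | x ∈ N ∧ g * x * g⁻¹ = x ^ a.val}
      one_mem' := ⟨N.one_mem, by simp⟩
      mul_mem' := fun {x y} hx hy => ⟨N.mul_mem hx.1 hy.1, by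
        rw [(show Commute x y from mul_comm_of_comm hN.1 hx.1 hy.1).mul_pow, ← hx.2, ← hy.2]; group⟩
      inv_mem' := fun {x} hx => ⟨N.inv_mem hx.1, by rw [inv_pow, ← hx.2]; group⟩ }
  have hK : K.Normal := ⟨fun x hx k => ⟨hn.conj_mem x hx.1 k, by
    have := mem_cent.1 (h (mem_Dp.2 fun f => by simp [mul_comm (f k)⁻¹] :
      g⁻¹ * k⁻¹ * g * k ∈ Dp p G)) x hx.1
    rw [conj_pow, ← hx.2]
    calc g * (k * x * k⁻¹) * g⁻¹ = k * g * (g⁻¹ * k⁻¹ * g * k * x) * k⁻¹ * g⁻¹ := by group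
      _ = _ := by rw [← this]; group⟩⟩
  rcases hmin K hK (fun x hx => hx.1) with h1 | h1
  · exact absurd (H9.EA.val_eq_one.1 (mem_bot.1 (h1.le ⟨v.val_mem, e⟩))) hv
  refine mem_norm_of_cj_le ?_
  rw [cj_zpowers, zpowers_le, (h1.ge hy).2]
  exact pow_mem (mem_zpowers _) _

/-- all maximal subgroups have prime index -/
def PIdx (G : Type u) [Group G] : Prop := ∀ M : Subgroup G, IsCoatom M → M.index.Prime

theorem PIdx.quot (h : PIdx G) (N : Subgroup G) [N.Normal] : PIdx (G ⧸ N) := fun M hM => by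
  rw [← M.index_comap_of_surjective (QuotientGroup.mk'_surjective N)]
  exact h _ (isCoatom_comap_of_surjective (QuotientGroup.mk'_surjective N) hM)

theorem PIdx.exists_sylow (h : PIdx G) [Nontrivial G] :
    ∃ p P, p.Prime ∧ Syl p P (⊤ : Subgroup G) ∧ P.Normal ∧ P ≠ ⊥ := by
  have h1 : 1 < Nat.card G := Finite.one_lt_card
  obtain ⟨p, p1, p2⟩ := (Nat.card G).primeFactors.exists_max_image id (Nat.nonempty_primeFactors.2 h1)
  have hp := Nat.prime_of_mem_primeFactors p1
  haveI := Fact.mk hp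
  obtain ⟨P⟩ : Nonempty (Sylow p G) := inferInstance
  have hP := syl_sylow_top P
  refine ⟨p, P, hp, hP, by_contra fun hn => ?_,
    hP.sne_bot hp (by rw [card_top]; exact Nat.dvd_of_mem_primeFactors p1)⟩
  obtain ⟨M, hM, hle⟩ := (eq_top_or_exists_le_coatom N((P : Subgroup G))).resolve_left
    fun e => hn (H28.normal_iff_top_le.2 e.ge)
  have hq := h M hM
  have le : (P : Subgroup G) ≤ M := le_normalizer.trans hle
  have e1 := card_sylow_modEq_one p G
  have e2 := card_sylow_modEq_one p M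
  rw [Sylow.card_eq_index_normalizer P] at e1
  rw [Sylow.card_eq_index_normalizer (P.subtype le)] at e2
  change (normalizer ((P : Subgroup G).subgroupOf M : Set M)).index ≡ 1 [MOD p] at e2
  rw [← subgroupOf_normalizer_eq le] at e2
  change N((P : Subgroup G)).index ≡ 1 [MOD p] at e1
  rw [← relIndex_mul_index hle] at e1
  have e3 : M.index ≡ 1 [MOD p] := by
    have := (e2.mul_right M.index).symm.trans e1
    rwa [one_mul] at this
  have := p2 M.index (Nat.mem_primeFactors.2 ⟨hq, M.index_dvd_card, by omega⟩)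
  have := Nat.le_of_dvd (by have := hq.one_lt; omega) ((Nat.modEq_iff_dvd' hq.one_le).1 e3.symm)
  have := hq.one_lt
  simp only [id] at *; omega

theorem PIdx.sol (G : Type u) [Group G] [Finite G] : PIdx G → Group.IsSolvable G := by
  refine induction_subgroup_quotient (P := fun G _ _ => PIdx G → Group.IsSolvable G) ?_ G
  intro G _ _ _ ih h
  rcases subsingleton_or_nontrivial G with h0 | h0
  · infer_instance
  obtain ⟨p, P, hp, h1, h2, h3⟩ := h.exists_sylow
  have := ih P h3 (h.quot P)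
  have : Group.IsSolvable P := sol_of_nil h1.pi.nil
  exact Group.isSolvable_of_ker_le_range P.subtype (QuotientGroup.mk' P) (by simp)

theorem PIdx.super (G : Type u) [Group G] [Finite G] : PIdx G → IsSupersolvable G := by
  refine induction_subgroup_quotient (P := fun G _ _ => PIdx G → IsSupersolvable G) ?_ G
  intro G _ _ _ ih h
  rcases subsingleton_or_nontrivial G with h0 | h0
  · exact H2.isSupersolvable_of_subsingleton
  suffices ∃ x : G, x ≠ 1 ∧ (zpowers x).Normal by
    obtain ⟨x, x1, hx⟩ := this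
    exact H2.isSupersolvable_of_cyclic_normal (zpowers x) (ih _ (by simpa using x1) (h.quot _))
  obtain ⟨p, P, hp, h1, h2, h3⟩ := h.exists_sylow
  haveI := Fact.mk hp
  have nP : ⊤ ≤ N(P) := le_normalizer_of_normal
  haveI : (Ohm1 p Z(P)).Normal := H28.normal_iff_top_le.2 (nP.trans (norm_le_norm_Ohm1_center p P))
  obtain ⟨N, n1, n2, n3, n4⟩ := exists_minimal_normal_le _ (h1.pi.Ohm1_center_ne_bot h3)
  have hN := abelem_mono (abelem_Ohm1_center p P) n1
  have nZ := n1.trans (Ohm1_le p _)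
  by_cases hF : N ≤ frattini G
  swap
  · obtain ⟨M, hM, hle⟩ := exists_coatom_not_le hF
    have := (isComplement'_of_minimal_normal_of_coatom hN.1 n4 hM hle).index_eq_card
    haveI := Fact.mk (this ▸ h M hM)
    obtain ⟨x, hx⟩ := (isCyclic_iff_exists_zpowers_eq_top).1 (isCyclic_of_prime_card (α := N) rfl)
    have e : zpowers (x : G) = N := by
      have := congrArg (map N.subtype) hx
      rwa [MonoidHom.map_zpowers, ← MonoidHom.range_eq_map, N.range_subtype] at this
    exact ⟨x, fun e' => n3 (by rw [← e, e', zpowers_one_eq_bot]), by rw [e]; exact n2⟩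
  refine exists_normal_zp hN n3 n4 ?_
  obtain ⟨H, hH⟩ := h1.exists_compl nP
  have hH' := (hH.hall_right h1).pi
  have PD : P ≤ Dp p G := fun x hx => mem_Dp.2 fun f => by
    obtain ⟨k, hk⟩ := h1.pi.isPGroup ⟨x, hx⟩
    replace hk : x ^ p ^ k = 1 := congrArg Subtype.val hk
    exact H3.eq_one_of_coprime_of_pow (n := p) (k := k) (Nat.Coprime.coprime_dvd_left
      (orderOf_dvd_of_pow_eq_one (ZMod.units_pow_card_sub_one_eq_one p _))
      ((Nat.coprime_self_sub_left hp.one_le).2 (Nat.coprime_one_left p))) (by rw [← map_pow, hk, map_one])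
  set D := H ⊓ Dp p G
  have sd := hH.modl PD
  rw [top_inf_eq] at sd
  let f := QuotientGroup.mk' N
  have c := cents_of_super hp _ (ih N n3 (h.quot N)) (P.map f) (D.map f)
    (h2.map f (QuotientGroup.mk'_surjective _)) (h1.pi.dvd (card_map_dvd _ f))
    ((hH'.infl _).dvd (card_map_dvd _ f))
    (by rintro _ ⟨a, ha, rfl⟩; exact mem_Dp.2 fun φ => mem_Dp.1 ha.2 (φ.comp f))
  have c' : ⁅D, P⁆ ≤ N := by
    rw [← QuotientGroup.ker_mk' N, ← Subgroup.map_eq_bot_iff, map_commutator]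
    exact commg_eq_bot.2 c
  have nN : ∀ K : Subgroup G, K ≤ N(N) := fun _ => le_normalizer_of_normal
  have n5 : ⊤ ≤ N(N ⊔ D) := by
    rw [← hH.sup]
    refine sup_le (norms_of_commg_le (commg_sup_left_le ((commg_le_left (nN _)).trans le_sup_left)
      (c'.trans le_sup_left) (le_sup_left.trans le_normalizer) (le_sup_right.trans le_normalizer)))
      (norms_sup (nN _) (norms_inf le_normalizer le_normalizer_of_normal))
  have hs := PIdx.sol G h
  have pN := abelem_pg hp hN
  have sd' := sdprod_sup (nN D) (pN.inf_eq_bot (hH'.infl _))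
  have := (sd'.hall_right (sd'.hall_of_pi pN (hH'.infl _))).hfrattini inferInstance ⟨le_top, n5⟩
  rw [top_inf_eq, sup_assoc, sup_eq_right.2 le_normalizer, sup_comm] at this
  have := eq_top_of_sup_of_le_frattini hF this
  rw [← sd.sup]
  exact sup_le (cents_symm (nZ.trans inf_le_right))
    (cents_symm (pN.cents_of_norms (hH'.infl _) (nN _) (le_top.trans this.ge)))

theorem super_syl {π : Set ℕ} {H : Subgroup G} (hp : p.Prime) (h : Hall π H ⊤) (hm : p ∈ π)
    (hs : IsSupersolvable H) (hmax : ∀ q : ℕ, q.Prime → q ∣ #H → q ≤ p) :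
    ∃ P, Syl p P ⊤ ∧ P ⊴ H := by
  haveI := Fact.mk hp
  obtain ⟨P⟩ : Nonempty (Sylow p H) := inferInstance
  have := H2.sylow_normal_of_isSupersolvable hs hmax P
  refine ⟨_, h.sub_syl hm (syl_sylow P), map_subtype_le _, ?_⟩
  intro x hx
  exact mem_norm_of_cj_le fun y hy => by
    obtain ⟨_, ⟨z, hz, rfl⟩, rfl⟩ := mem_cj'.1 hy
    exact ⟨_, this.conj_mem z hz ⟨x, hx⟩, rfl⟩

theorem super_hall_conj (π : Set ℕ) (G : Type u) [Group G] [Finite G] : ∀ H K : Subgroup G,
    Hall π H ⊤ → Hall π K ⊤ → IsSupersolvable H → IsSupersolvable K → ∃ g, cj g H = K := by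
  refine induction_card (P := fun G _ _ => ∀ H K : Subgroup G, Hall π H ⊤ → Hall π K ⊤ →
    IsSupersolvable H → IsSupersolvable K → ∃ g, cj g H = K) ?_ G
  intro G _ _ ih H K hH hK sH sK
  have e := hH.card_eq hK
  by_cases h0 : H = ⊥
  · exact ⟨1, by rw [cj_one, h0, eq_comm, ← card_eq_one, ← e, h0, card_bot]⟩
  have h1 : 1 < #H := (one_lt_card_iff_ne_bot H).2 h0
  obtain ⟨p, p1, p2⟩ := (#H).primeFactors.exists_max_image id (Nat.nonempty_primeFactors.2 h1)
  have hp := Nat.prime_of_mem_primeFactors p1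
  have hd := Nat.dvd_of_mem_primeFactors p1
  have hm : ∀ q : ℕ, q.Prime → q ∣ #H → q ≤ p := fun q a b =>
    p2 q (Nat.mem_primeFactors.2 ⟨a, b, by omega⟩)
  obtain ⟨P, a1, a2⟩ := super_syl hp hH (hH.pi.mem hp hd) sH hm
  obtain ⟨Q, b1, b2⟩ := super_syl hp hK (hH.pi.mem hp hd) sK (e ▸ hm)
  obtain ⟨g, -, rfl⟩ := a1.sconj b1
  set Q := cj g P
  have c2 : Q ⊴ cj g H := a2.J g
  have q0 : Q ≠ ⊥ := b1.sne_bot hp (hd.trans (H19.card_dvd le_top))
  have k : ∀ L : Subgroup G, Hall π L ⊤ → Q ⊴ L → Hall π (quo Q L) ⊤ := fun L l1 l2 => by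
    have := (l1.of_le l2.norm le_top).quo (K := Q) le_rfl
    rwa [show quo Q N(Q) = ⊤ from eq_top_iff.2 fun x _ => by
      obtain ⟨y, rfl⟩ := qmk_surj Q x; exact mem_im_of y.2] at this
  obtain ⟨x, hx⟩ := ih (Quo Q) (by
      have := card_eq_card_quotient_mul_card_subgroup (Q.subgroupOf N(Q))
      rw [card_subgroupOf' le_normalizer] at this
      have h2 := (one_lt_card_iff_ne_bot Q).2 q0
      have h3 : #N(Q) ≤ Nat.card G := card_le_card_group _
      have h4 : 0 < Nat.card (Quo Q) := Nat.card_pos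
      nlinarith) _ _ (k _ (hH.Jtop g) c2) (k _ hK b2)
    (H2.IsSupersolvable.of_surjective' (H2.isSupersolvable_map sH _) _ (imHom_surj _ c2.norm))
    (H2.IsSupersolvable.of_surjective' sK _ (imHom_surj _ b2.norm))
  obtain ⟨⟨y, hy⟩, rfl⟩ := qmk_surj Q x
  rw [← quo_cj] at hx
  refine ⟨y * g, ?_⟩
  rw [cj_mul]
  exact quo_inj (cj_le_of_mem hy c2.norm) b2.norm
    ((mem_norm_iff_cj.1 hy).ge.trans (cj_mono _ c2.le)) b2.le hx

end H1
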