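/-
The extended 2-layer and core balance.
-/
import Cfsg.Agent.H1.LB2
import Cfsg.Agent.H18.G1b

set_option autoImplicit false
set_option linter.unusedSectionVars false

open Cfsg Subgroup
open scoped Pointwise commutatorElement
namespace H1
open H19

/-- `L*_{2'}(H)` -/
def Ls {G : Type*} [Group G] (H : Subgroup G) : Subgroup G := (extendedTwoLayer H).map H.subtype

variable {G : Type*} [Group G] [Finite G]
  {A B H J K L M R S T U W X Y : Subgroup G} {g x y : G}

set_option quotPrecheck false in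
local notation:max "O'" H:max => Oc ({2} : Set ℕ)ᶜ H
local notation "F*" => generalizedFittingSubgroup

theorem hasNPC_cent_syl (hO : pPrimeCore 2 G = ⊥) (hS : Syl 2 S (F* G)) :
    HasNormalPComplement 2 C(S) := by
  have h0 : C(F* G) ≤ S := hS.le_of_norm' centralizer_gf_le
    (PiN.of_isPGroup Nat.prime_two (pCore_isPGroup.to_le
      (centralizer_gf_le_fitting.trans (fitting_le_pPrimePCore.trans
        (pPrimePCore_eq_pCore hO).le)))) le_normalizer_of_normal
  obtain ⟨P, rfl⟩ := hS.exists_sylow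
  have hO' : pPrimeCore 2 (F* G) = ⊥ :=
    pPrimeCore_eq_bot_of_subnormal (Normal.isSubnormal inferInstance) hO
  let D : Subgroup (MulAut (F* G)) :=
    { carrier := {φ | ∀ s, s ∈ P → φ s = s}
      mul_mem' := fun {a b} ha hb s hs => by rw [MulAut.mul_apply, hb s hs, ha s hs]
      one_mem' := fun _ _ => rfl
      inv_mem' := fun {a} ha s hs => by rw [MulAut.inv_def, MulEquiv.symm_apply_eq, ha s hs] }
  have h1 := (Cfsg.Agent.S0227.result (fun N hN hodd => le_bot_iff.1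
    (hO' ▸ le_pPrimeCore hN (coprime_two_iff_odd.2 hodd))) P D (fun _ => Iff.rfl)).1
  obtain ⟨Q⟩ : Nonempty (Sylow 2 D) := inferInstance
  have h2 := (H3.hasNPC_iff_exists Q).2 (h1 Q).2
  refine H3.hasNPC_of_ker_le_center (((MulAut.conjNormal (H := F* G)).comp
    (Subgroup.subtype _)).codRestrict D fun k s hs => ?_) (fun k hk => ?_) h2
  · apply Subtype.ext
    rw [MonoidHom.comp_apply, MulAut.conjNormal_apply, coe_subtype,
      ← mem_cent.1 k.2 s ⟨s, hs, rfl⟩, mul_inv_cancel_right]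
  · have h3 : MulAut.conjNormal (H := F* G) (k : G) = 1 := congrArg Subtype.val hk
    have h5 : (k : G) ∈ C(F* G) := mem_cent.2 fun z hz => by
      have h4 := congrArg Subtype.val (DFunLike.congr_fun h3 ⟨z, hz⟩)
      rw [MulAut.conjNormal_apply] at h4
      exact (mul_inv_eq_iff_eq_mul.1 h4).symm
    exact mem_center_iff.2 fun z => Subtype.ext (mem_cent.1 z.2 k (h0 h5)).symm

theorem hasNPC_cent_syl' (hS : Syl 2 S (pLayer 2 G ⊔ pPrimePCore 2 G)) :
    HasNormalPComplement 2 C(S) := by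
  have hk := coprime_card_ker_mk' (N := pPrimeCore 2 G) pPrimeCore_coprime
  have h1 := hS.map (QuotientGroup.mk' (pPrimeCore 2 G))
  rw [← comap_gf_mk', map_comap_eq_self_of_surjective (QuotientGroup.mk'_surjective _)] at h1
  have h2 := hasNPC_cent_syl pPrimeCore_quotient_pPrimeCore h1
  rw [← map_centralizer_of_coprime (QuotientGroup.mk'_surjective _) hS.pi.isPGroup hk] at h2
  refine H3.hasNPC_of_surjective_of_coprime_ker
    ((QuotientGroup.mk' (pPrimeCore 2 G)).subgroupMap C(S)) (coprime_card_ker_subgroupMap hk _) ?_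
  exact H3.hasNPC_subgroup h2 _

theorem ext_eq : extendedTwoLayer G = pLayer 2 G ⊔ pPrimeCore 2 G ⊔
    ⨆ T : Sylow 2 ↥(pLayer 2 G ⊔ pPrimePCore 2 G),
      O' C((T : Subgroup ↥(pLayer 2 G ⊔ pPrimePCore 2 G)).map (Subgroup.subtype _)) := by
  simp only [extendedTwoLayer, Oc_map]

theorem sup_syl_eq (hT : Syl 2 T (pLayer 2 G ⊔ pPrimePCore 2 G)) :
    pLayer 2 G ⊔ pPrimeCore 2 G ⊔ T = pLayer 2 G ⊔ pPrimePCore 2 G := by
  refine le_antisymm (sup_le (sup_le_sup_left pPrimeCore_le_pPrimePCore _) hT.le)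
    (sup_le (le_sup_left.trans le_sup_left) ?_)
  obtain ⟨P, hP⟩ := (hT.inf_normal (right_normal_sup le_normalizer_of_normal)).exists_sylow
  rw [← sylow_sup_pPrimeCore P, hP]
  exact sup_le (inf_le_left.trans le_sup_right) (le_sup_right.trans le_sup_left)

theorem ext_eq_of_syl (hT : Syl 2 T (pLayer 2 G ⊔ pPrimePCore 2 G)) :
    extendedTwoLayer G = pLayer 2 G ⊔ pPrimeCore 2 G ⊔ O' C(T) := by
  rw [ext_eq]
  obtain ⟨P, rfl⟩ := hT.exists_sylow
  refine le_antisymm (sup_le le_sup_left (iSup_le fun Q => ?_)) (sup_le_sup_left (le_iSup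
    (fun T : Sylow 2 ↥(pLayer 2 G ⊔ pPrimePCore 2 G) =>
      O' C((T : Subgroup ↥(pLayer 2 G ⊔ pPrimePCore 2 G)).map (Subgroup.subtype _))) P) _)
  obtain ⟨g, hg, e⟩ := hT.sconj (syl_sylow Q)
  rw [← sup_syl_eq hT] at hg
  obtain ⟨a, ha, t, ht, rfl⟩ := (mem_sup_of_norm le_normalizer_of_normal).1 hg
  rw [← e, cj_mul, cj_of_mem ht, ← cj_cent, ← cj_Oc]
  exact cj_le_of_mem (mem_sup_left ha) le_sup_right

theorem ext_normal : (extendedTwoLayer G).Normal := by
  obtain ⟨T, hT⟩ := exists_syl 2 (pLayer 2 G ⊔ pPrimePCore 2 G)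
  refine NormalIn.normal ⟨le_top, ?_⟩
  rw [← hT.frattini normalIn_top, ← sup_syl_eq hT, ext_eq_of_syl hT]
  have h1 : N(T) ≤ N(pLayer 2 G ⊔ pPrimeCore 2 G ⊔ O' C(T)) :=
    norms_sup le_normalizer_of_normal (norms_Oc _ (norm_le_norm_cent T))
  exact sup_le (sup_le (norms_of_le le_sup_left) (le_normalizer.trans h1)) (inf_le_right.trans h1)

theorem odd_le_of_le_sup (hW : PiG {2}ᶜ W) (hR : PG 2 R)
    (h : W ≤ pLayer 2 G ⊔ pPrimePCore 2 G ⊔ R) : W ≤ pLayer 2 G ⊔ pPrimeCore 2 G := by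
  obtain ⟨S, hS, hRS⟩ := hR.exists_syl (le_sup_right : R ≤ pLayer 2 G ⊔ pPrimePCore 2 G ⊔ R)
  have h1 := sup_syl_eq (hS.inf_normal (left_normal_sup le_normalizer_of_normal))
  have h2 : W ≤ pLayer 2 G ⊔ pPrimeCore 2 G ⊔ S :=
    h.trans (sup_le (h1.ge.trans (sup_le_sup_left inf_le_left _)) (hRS.trans le_sup_right))
  refine le_of_pi_of_relIndex le_normalizer_of_normal le_sup_left h2 hW ?_
  rw [relIndex_sup_of_norm le_normalizer_of_normal]
  exact (hS.pi.relIndex _).compl_compl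

/-- core balance -/
theorem core_balance (hR : PG 2 R) : O' C(R) ≤ extendedTwoLayer G := by
  by_contra hne
  obtain ⟨R, -, ⟨hR, hne⟩, hmax⟩ := exists_maximal_ge
    (P := fun R => PG 2 R ∧ ¬ O' C(R) ≤ extendedTwoLayer G) ⟨hR, hne⟩
  obtain ⟨U, hU, hRU⟩ := hR.exists_syl
    (le_inf le_sup_right le_normalizer : R ≤ (pLayer 2 G ⊔ pPrimePCore 2 G ⊔ R) ⊓ N(R))
  by_cases e : U = R
  · subst e
    have hT := (syl_of_subnorm hU).inf_normal (left_normal_sup le_normalizer_of_normal)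
    refine hne (((H18.hall_of_hasNPC Nat.prime_two (hasNPC_cent_syl' hT)).le_Oc
      ((Oc_le _ _).trans (cent_mono inf_le_left)) (Oc_pi _ _)).trans ?_)
    rw [ext_eq_of_syl hT]; exact le_sup_right
  have h1 : O' C(U) ≤ extendedTwoLayer G := by
    by_contra h1; exact e (hmax U ⟨hU.pi, h1⟩ hRU)
  have hn : U ≤ N(O' C(R)) := norms_Oc _ (norms_cent (hU.le.trans inf_le_right))
  apply hne
  rw [← commg_sup_cent hn ((Oc_pi _ _).coprime' hU.pi) (Or.inl hU.pi.sol)]
  refine sup_le ((odd_le_of_le_sup ((Oc_pi _ _).of_le (commg_le_left hn)) hR ?_).trans ?_)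
    ((Oc_inf_le (cent_mono hRU)).trans h1)
  · exact (commutator_mono le_rfl (hU.le.trans inf_le_left)).trans (commg_le_right
      (norms_sup le_normalizer_of_normal ((Oc_le _ _).trans (cent_le_norm R))))
  · rw [ext_eq]; exact le_sup_left

theorem core_balance' (hR : PG 2 R) (h : R ≤ H) : O' (H ⊓ C(R)) ≤ Ls H := by
  have h1 := core_balance (G := H) (R := R.subgroupOf H)
    (PiN.of_isPGroup Nat.prime_two hR.isPGroup.comap_subtype)
  rw [centralizer_subgroupOf h, ← inf_subgroupOf_left, Oc_subgroupOf inf_le_left] at h1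
  rw [Ls, le_map_subtype_iff]
  exact ⟨(Oc_le _ _).trans inf_le_left, h1⟩

theorem Ls_normal (H : Subgroup G) : Ls H ⊴ H :=
  haveI := ext_normal (G := H); normalIn_map_subtype _

theorem Lp_le_Ls (H : Subgroup G) : Lp 2 H ≤ Ls H :=
  map_mono (by rw [ext_eq]; exact le_sup_left.trans le_sup_left)

theorem exists_Ls_eq (H : Subgroup G) : ∃ T ≤ H, PG 2 T ∧ Ls H = Lp 2 H ⊔ O' H ⊔ O' (H ⊓ C(T)) := by
  obtain ⟨T, hT⟩ := exists_syl 2 (pLayer 2 H ⊔ pPrimePCore 2 H)
  refine ⟨T.map H.subtype, map_subtype_le _, PiN.of_isPGroup Nat.prime_two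
    (hT.pi.isPGroup.map _), ?_⟩
  rw [Ls, ext_eq_of_syl hT, Subgroup.map_sup, Subgroup.map_sup, Oc_map, ← Oc_map C(T),
    pPrimeCoreOf_map_subtype, Oc_map, map_subtype_centralizer]
  rfl

end H1
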