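import Cfsg.Agent.H0.ES4
import Mathlib.LinearAlgebra.FiniteDimensional.Lemmas

/-! Weight projectors and equivariant maps over a field of odd characteristic. -/

set_option autoImplicit false
set_option linter.unusedSectionVars false

namespace H1.RC
open H19 H0 Finset Module LinearMap
open Subgroup hiding mem_top
open scoped Classical commutatorElement

variable {G F A : Type*} [Group G] [Fintype G] [Field F] [NeZero (2 : F)] [Ring A] [Algebra F A] {ρ ρ' : G → A}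
  {X Q S T H : Subgroup G} {z s u w x y g k b : G} {p q φ : A} {ψ χ : G → F}

def Rp (X : Subgroup G) (ρ : G → A) : Prop := ∀ x ∈ X, ∀ y ∈ X, ρ (x * y) = ρ x * ρ y
noncomputable def pj (ρ : G → A) (S : Subgroup G) (ψ : G → F) : A := (#S : F)⁻¹ • ∑ x with x ∈ S, ψ x • ρ x
structure Mu (X S : Subgroup G) (ψ : G → F) : Prop where
  le : S ≤ X
  nz : (#S : F) ≠ 0
  mul : ∀ x ∈ S, ∀ y ∈ S, ψ (x * y) = ψ x * ψ y
  sq : ∀ x ∈ S, ψ x * ψ x = 1

theorem card_fil (S : Subgroup G) : (univ.filter (· ∈ S)).card = #S := by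
  rw [Nat.card_eq_fintype_card, Fintype.card_subtype]
theorem half (F : Type*) [Field F] [NeZero (2 : F)] {M : Type*} [AddCommGroup M] [Module F M] {p : M} (h : p + p = 0) :
    p = 0 := by
  rw [← two_smul F] at h; exact (smul_eq_zero.1 h).resolve_left two_ne_zero

theorem Rp.ap (h : Rp X ρ) (hx : x ∈ X) (hy : y ∈ X) (p : A) : ρ x * (ρ y * p) = ρ (x * y) * p := by
  rw [h x hx y hy, mul_assoc]
theorem Rp.inv (h : Rp X ρ) (hx : x ∈ X) (e : ρ 1 * p = p) : ρ x⁻¹ * (ρ x * p) = p := by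
  rw [h.ap (inv_mem hx) hx, inv_mul_cancel, e]
theorem Rp.inv' (h : Rp X ρ) (hx : x ∈ X) (e : ρ 1 * p = p) : ρ x * (ρ x⁻¹ * p) = p := by
  rw [h.ap hx (inv_mem hx), mul_inv_cancel, e]
theorem Rp.rinv (h : Rp X ρ) (hx : x ∈ X) (e : p * ρ 1 = p) : p * ρ x * ρ x⁻¹ = p := by
  rw [mul_assoc, ← h x hx _ (inv_mem hx), mul_inv_cancel, e]
theorem Rp.o (h : Rp X ρ) (hx : x ∈ X) : ρ 1 * ρ x = ρ x := by rw [← h 1 (one_mem X) x hx, one_mul]
theorem Rp.o' (h : Rp X ρ) (hx : x ∈ X) : ρ x * ρ 1 = ρ x := by rw [← h x hx 1 (one_mem X), mul_one]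
theorem Rp.nz (h : Rp X ρ) (hx : x ∈ X) (e : ρ 1 * p = p) (n : p ≠ 0) : ρ x * p ≠ 0 := fun c =>
  n (by rw [← h.inv hx e, c, mul_zero])
theorem Rp.nz' (h : Rp X ρ) (hx : x ∈ X) (e : p * ρ 1 = p) (n : p ≠ 0) : p * ρ x ≠ 0 := fun c =>
  n (by rw [← h.rinv hx e, c, zero_mul])

theorem Mu.l (m : Mu X S ψ) (h : Rp X ρ) (hy : y ∈ S) : ρ y * pj ρ S ψ = ψ y • pj ρ S ψ := by
  rw [pj, mul_smul_comm, smul_comm (ψ y), mul_sum, smul_sum (r := ψ y)]
  refine congrArg _ (sum_equiv (Equiv.mulLeft y) (fun x => by simp [mul_mem_cancel_left hy]) fun x hx => ?_)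
  have hx := (mem_filter.1 hx).2
  rw [Equiv.coe_mulLeft, m.mul y hy x hx, smul_smul, ← mul_assoc, m.sq y hy, one_mul, mul_smul_comm,
    h y (m.le hy) x (m.le hx)]

theorem Mu.r (m : Mu X S ψ) (h : Rp X ρ) (hy : y ∈ S) : pj ρ S ψ * ρ y = ψ y • pj ρ S ψ := by
  rw [pj, smul_mul_assoc, smul_comm (ψ y), sum_mul, smul_sum (r := ψ y)]
  refine congrArg _ (sum_equiv (Equiv.mulRight y) (fun x => by simp [mul_mem_cancel_right hy]) fun x hx => ?_)
  have hx := (mem_filter.1 hx).2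
  rw [Equiv.coe_mulRight, m.mul x hx y hy, smul_smul, mul_left_comm, m.sq y hy, mul_one, smul_mul_assoc,
    h x (m.le hx) y (m.le hy)]

theorem Mu.one (m : Mu X S ψ) : ψ 1 = 1 := by
  have := m.mul 1 (one_mem S) 1 (one_mem S); rwa [mul_one, m.sq 1 (one_mem S)] at this
theorem Mu.o (m : Mu X S ψ) (h : Rp X ρ) : ρ 1 * pj ρ S ψ = pj ρ S ψ := by rw [m.l h (one_mem S), m.one, one_smul]
theorem Mu.o' (m : Mu X S ψ) (h : Rp X ρ) : pj ρ S ψ * ρ 1 = pj ρ S ψ := by rw [m.r h (one_mem S), m.one, one_smul]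

theorem Mu.pl (m : Mu X S ψ) (h : ∀ y ∈ S, ρ y * p = ψ y • p) : pj ρ S ψ * p = p := by
  rw [pj, smul_mul_assoc, sum_mul, sum_congr rfl (g := fun _ => p) fun x hx => by
    rw [smul_mul_assoc, h x (mem_filter.1 hx).2, smul_smul, m.sq x (mem_filter.1 hx).2, one_smul], sum_const, card_fil,
    ← Nat.cast_smul_eq_nsmul F, smul_smul, inv_mul_cancel₀ m.nz, one_smul]

theorem pj_eqv (h : ∀ y ∈ S, ρ' y * φ = φ * ρ y) : pj ρ' S ψ * φ = φ * pj ρ S ψ := by
  rw [pj, pj, smul_mul_assoc, mul_smul_comm, sum_mul, mul_sum]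
  exact congrArg _ (sum_congr rfl fun x hx => by rw [smul_mul_assoc, mul_smul_comm, h x (mem_filter.1 hx).2])

theorem Mu.idem (m : Mu X S ψ) (h : Rp X ρ) : pj ρ S ψ * pj ρ S ψ = pj ρ S ψ := m.pl fun _ => m.l h
theorem Mu.idem' (m : Mu X S ψ) (h : Rp X ρ) (p : A) : pj ρ S ψ * (pj ρ S ψ * p) = pj ρ S ψ * p := by
  rw [← mul_assoc, m.idem h]
theorem Mu.l' (m : Mu X S ψ) (h : Rp X ρ) (hy : y ∈ S) (e : pj ρ S ψ * p = p) : ρ y * p = ψ y • p := by
  rw [← e, ← mul_assoc, m.l h hy, smul_mul_assoc]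
theorem Mu.sub (m : Mu X S ψ) (m' : Mu X T χ) (h : Rp X ρ) (le : S ≤ T) (e : ∀ y ∈ S, χ y = ψ y) :
    pj ρ S ψ * pj ρ T χ = pj ρ T χ := m.pl fun y hy => e y hy ▸ m'.l h (le hy)

theorem Mu.kill (m : Mu X S ψ) (h : Rp X ρ) (hy : y ∈ S) (e : ρ y * p = -ψ y • p) : pj ρ S ψ * p = 0 := by
  have := congrArg (fun x => ψ y • (x * p)) (m.r h hy)
  simp only [mul_assoc, e, mul_smul_comm, smul_mul_assoc, smul_neg, smul_smul, mul_neg, m.sq y hy, neg_smul, one_smul] at this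
  exact half F (neg_eq_iff_add_eq_zero.1 this)

theorem pj_cj (h : Rp X ρ) (hg : g ∈ X) (hS : S ≤ X) (e : cj g S = T) (e' : ∀ x ∈ S, χ (g * x * g⁻¹) = ψ x) :
    ρ g * pj ρ S ψ = pj ρ T χ * ρ g := by
  rw [pj, pj, mul_smul_comm, smul_mul_assoc, mul_sum, sum_mul, ← e, card_cj]
  refine congrArg _ (sum_equiv (MulAut.conj g).toEquiv (fun x => by simp [conj_mem_cj]) fun x hx => ?_)
  have hx := (mem_filter.1 hx).2
  change _ = χ (g * x * g⁻¹) • ρ (g * x * g⁻¹) * _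
  rw [e' x hx, mul_smul_comm, smul_mul_assoc, ← h _ (mul_mem (mul_mem hg (hS hx)) (inv_mem hg)) _ hg, inv_mul_cancel_right,
    h g hg x (hS hx)]

theorem pj_congr (h : ∀ y ∈ S, ψ y = χ y) : pj ρ S ψ = pj ρ S χ :=
  congrArg (HSMul.hSMul _) (sum_congr rfl fun x hx => by rw [h x (mem_filter.1 hx).2])

/-! Characters given by commutators. -/

variable (F) in
noncomputable def lm (u x : G) : F := if x * u = u * x then 1 else -1
theorem lm_sq (u x : G) : lm F u x * lm F u x = 1 := by unfold lm; split_ifs <;> simp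
theorem lm_comm (u x : G) : lm F u x = lm F x u := by simp only [lm, eq_comm]
theorem lm_pos (h : x * u = u * x) : lm F u x = 1 := if_pos h
theorem lm_neg (h : x * u ≠ u * x) : lm F u x = -1 := if_neg h
theorem lm_one : lm F 1 x = 1 := lm_pos (by simp)
theorem lm_cj (g u x : G) : lm F (g * u * g⁻¹) (g * x * g⁻¹) = lm F u x := by
  simp only [lm, conj_mul, mul_left_inj, mul_right_inj]

theorem lm_mul (E : ES Q z) (hx : x ∈ Q) (hy : y ∈ Q) (hu : u ∈ Q) : lm F u (x * y) = lm F u x * lm F u y := by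
  simp only [lm, ← comm_eq_one, E.comm_mul hx hy hu]
  rcases E.comm x hx u hu with a | a <;> rcases E.comm y hy u hu with b | b <;> simp [a, b, E.z1, E.zz]
theorem lm_mul' (E : ES Q z) (hx : x ∈ Q) (hy : y ∈ Q) (hu : u ∈ Q) : lm F (x * y) u = lm F x u * lm F y u := by
  rw [lm_comm, lm_mul E hx hy hu, lm_comm u, lm_comm u]

theorem nz_of (E : ES Q z) (hS : S ≤ Q) : (#S : F) ≠ 0 := by
  obtain ⟨n, -, e⟩ := E.exists_width
  obtain ⟨k, -, e'⟩ := (Nat.dvd_prime_pow Nat.prime_two).1 (e ▸ card_dvd_of_le hS)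
  rw [e']; simp [two_ne_zero]

theorem mu_of (E : ES Q z) (hS : S ≤ Q) (hX : S ≤ X) (hu : u ∈ Q) : Mu X S (lm F u) :=
  ⟨hX, nz_of E hS, fun _ a _ b => lm_mul E (hS a) (hS b) hu, fun _ _ => lm_sq _ _⟩

theorem lm_cjn (h : Rp X ρ) (hg : g ∈ X) (hS : S ≤ X) (e : g ∈ N(S)) (u : G) :
    ρ g * pj ρ S (lm F u) = pj ρ S (lm F (g * u * g⁻¹)) * ρ g := pj_cj h hg hS (cj_of_mem_norm e) fun _ _ => lm_cj _ _ _

theorem pj_mul (h : w ∈ C(S)) : pj ρ S (lm F (u * w)) = pj ρ S (lm F u) :=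
  pj_congr fun y hy => by simp only [lm, mul_assoc u, ← mem_cent.1 h y hy]; simp only [← mul_assoc, mul_left_inj]

theorem lm_ne (E : ES Q z) (hS : S ≤ Q) (hu : u ∈ Q) (hw : w ∈ Q) (h : u * w ∉ C(S)) : ∃ y ∈ S, lm F w y = -lm F u y := by
  obtain ⟨y, hy, n⟩ : ∃ y ∈ S, y * (u * w) ≠ u * w * y := by simpa [mem_cent] using h
  have := lm_neg (F := F) n
  rw [lm_mul' E hu hw (hS hy)] at this
  exact ⟨y, hy, by linear_combination lm F u y * this - lm F w y * lm_sq (F := F) u y⟩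

theorem pj_eq (E : ES Q z) (hS : S ≤ Q) (hu : u ∈ Q) (hw : w ∈ Q) (h : u * w ∈ C(S)) :
    pj ρ S (lm F u) = pj ρ S (lm F w) := pj_congr fun y hy => by
  have := lm_pos (F := F) (mem_cent.1 h y hy)
  rw [lm_mul' E hu hw (hS hy)] at this
  linear_combination lm F w y * this - lm F u y * lm_sq (F := F) w y

theorem pj_orth (h : Rp X ρ) (E : ES Q z) (hS : S ≤ Q) (hX : S ≤ X) (hu : u ∈ Q) (hw : w ∈ Q) (n : u * w ∉ C(S)) :
    pj ρ S (lm F u) * pj ρ S (lm F w) = 0 :=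
  let ⟨_, hy, e⟩ := lm_ne (F := F) E hS hu hw n
  (mu_of E hS hX hu).kill h hy (e ▸ (mu_of E hS hX hw).l h hy)

theorem sum_lm (E : ES Q z) (hx : x ∈ Q) : ∑ u with u ∈ Q, lm F u x = if x = 1 ∨ x = z then (#Q : F) else 0 := by
  split_ifs with h
  · rw [sum_congr rfl (g := fun _ => 1) fun u hu => lm_pos (E.zp_comm (E.mem_zp.2 h) (mem_filter.1 hu).2).symm]
    simp [card_fil]
  · obtain ⟨y, hy, n⟩ := E.exists_not_comm hx (mt E.mem_zp.1 h)
    have : ∑ u with u ∈ Q, -lm F u x = ∑ u with u ∈ Q, lm F u x :=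
      sum_equiv (Equiv.mulLeft y) (fun x => by simp [mul_mem_cancel_left hy]) fun u hu => by
        rw [Equiv.coe_mulLeft, lm_mul' E hy (mem_filter.1 hu).2 hx, lm_neg n, neg_one_mul]
    rw [sum_neg_distrib] at this
    exact half F (neg_eq_iff_add_eq_zero.1 this)

theorem sum_pj (E : ES Q z) (hS : S ≤ Q) (hz : z ∈ S) :
    ∑ u with u ∈ Q, pj ρ S (lm F u) = ((#S : F)⁻¹ * #Q) • (ρ 1 + ρ z) := by
  simp only [pj]
  rw [← smul_sum, sum_comm, mul_smul, ← sum_pair (f := ρ) E.z1.symm, smul_sum (s := {1, z})]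
  refine congrArg _ (Eq.symm (sum_subset_zero_on_sdiff (fun x hx => ?_) (fun x hx => ?_) fun x hx => ?_))
  · simp only [Finset.mem_insert, Finset.mem_singleton] at hx
    rcases hx with rfl | rfl <;> simp [hz]
  · simp only [mem_sdiff, mem_filter, Finset.mem_insert, Finset.mem_singleton] at hx
    rw [← sum_smul, sum_lm E (hS hx.1.2), if_neg hx.2, zero_smul]
  · simp only [Finset.mem_insert, Finset.mem_singleton] at hx
    rw [← sum_smul, sum_lm E (E.zp_le (E.mem_zp.2 hx)), if_pos hx]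

theorem pj_all (E : ES Q z) (hS : S ≤ Q) (hz : z ∈ S) (h : (ρ 1 + ρ z) * p = p + p)
    (H : ∀ u ∈ Q, q * (pj ρ S (lm F u) * p) = 0) : q * p = 0 := by
  have := congrArg (fun x => q * (x * p)) (sum_pj (ρ := ρ) (F := F) E hS hz)
  simp only [sum_mul, mul_sum, smul_mul_assoc, h, mul_smul_comm, mul_add] at this
  rw [sum_eq_zero fun u hu => H u (mem_filter.1 hu).2] at this
  exact half F ((smul_eq_zero.1 this.symm).resolve_left (mul_ne_zero (inv_ne_zero (nz_of E hS)) (nz_of E le_rfl)))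

theorem pj_split (E : ES Q z) (hS : S ≤ Q) (hs : s ∈ Q) (hc : 2 * #(S ⊓ C[s]) = #S) (hu : u ∈ Q) :
    pj ρ (S ⊓ C[s]) (lm F u) = pj ρ S (lm F u) + pj ρ S (lm F (u * s)) := by
  rw [pj, pj, pj, ← smul_add, ← sum_add_distrib, ← hc, Nat.cast_mul, mul_inv, mul_comm, mul_smul,
    smul_sum (r := ((2 : ℕ) : F)⁻¹)]
  refine congrArg _ (sum_subset_zero_on_sdiff (fun x => by simp +contextual) (fun x hx => ?_) fun x hx => ?_)
  · simp only [mem_sdiff, mem_filter, mem_univ, true_and, Subgroup.mem_inf, mem_cent1] at hx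
    rw [lm_mul' E hu hs (hS hx.1), lm_neg (u := s) fun e => hx.2 ⟨hx.1, e⟩]; simp
  · have := (mem_filter.1 hx).2
    rw [lm_mul' E hu hs (hS this.1), lm_pos (mem_cent1.1 this.2), mul_one, ← two_smul F, smul_smul]; simp [inv_mul_cancel₀ (two_ne_zero (α := F))]

/-! Equivariance. -/

def EqS (h : Rp X ρ) (h' : Rp X ρ') (e : φ * ρ 1 = φ) (e' : ρ' 1 * φ = φ) : Subgroup G where
  carrier := {g | g ∈ X ∧ ρ' g * φ = φ * ρ g}
  one_mem' := ⟨one_mem X, e'.trans e.symm⟩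
  mul_mem' := fun a b => ⟨mul_mem a.1 b.1, by rw [← h'.ap a.1 b.1, b.2, ← mul_assoc, a.2, h _ a.1 _ b.1, mul_assoc]⟩
  inv_mem' := fun a => ⟨inv_mem a.1, by
    rw [← h.rinv a.1 (show (ρ' _ * φ) * ρ 1 = _ by rw [mul_assoc, e]), mul_assoc _ φ, ← a.2, h'.inv a.1 e']⟩

variable (h : Rp X ρ) (h' : Rp X ρ')
include h h'

theorem chr (e : φ * ρ 1 = φ) (e' : ρ' 1 * φ = φ) (hH : H ≤ X) (c : ∀ g ∈ H, ∃ α : F, ρ' g * φ = α • (φ * ρ g)) :
    ⁅H, H⁆ ≤ EqS h h' e e' := commutator_le.2 fun x hx y hy => by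
  have m := mul_mem (hH hy) (hH hx)
  refine ⟨hH (der_le H (commutator_mem_commutator hx hy)), ?_⟩
  obtain ⟨α, e1⟩ := c x hx
  obtain ⟨β, e2⟩ := c y hy
  obtain ⟨γ, e3⟩ := c _ (inv_mem (mul_mem hy hx))
  have k : ∀ {a b}, a ∈ H → b ∈ H → ∀ {α β : F}, ρ' a * φ = α • (φ * ρ a) → ρ' b * φ = β • (φ * ρ b) →
      ρ' (a * b) * φ = (β * α) • (φ * ρ (a * b)) := fun a b _ _ e1 e2 => by
    rw [← h'.ap (hH a) (hH b), e2, mul_smul_comm, ← mul_assoc, e1, smul_mul_assoc, smul_smul, mul_assoc,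
      ← h _ (hH a) _ (hH b)]
  have := k (mul_mem hy hx) (inv_mem (mul_mem hy hx)) (k hy hx e2 e1) e3
  rw [mul_inv_cancel, e, e'] at this
  rw [show ⁅x, y⁆ = x * y * (y * x)⁻¹ by group, k (mul_mem hx hy) (inv_mem (mul_mem hy hx)) (k hx hy e1 e2) e3,
    mul_comm β, ← smul_mul_assoc, ← this]

theorem kk (hk : k ∈ X) (hg : g ∈ X) (e : ρ' (k * g * k⁻¹) * φ = φ * ρ (k * g * k⁻¹)) :
    ρ' g * (ρ' k⁻¹ * φ * ρ k) = ρ' k⁻¹ * φ * ρ k * ρ g := by
  have m := mul_mem (mul_mem hk hg) (inv_mem hk)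
  rw [mul_assoc, mul_assoc, mul_assoc, ← h k hk g hg, ← inv_mul_cancel_right (k * g) k, h _ m k hk, ← mul_assoc φ, ← e,
    mul_assoc, h'.ap hg (inv_mem hk), h'.ap (inv_mem hk) m]
  congr 2; group

variable (hk : k ∈ X) (hb : b ∈ X) (eb : ρ' b * φ = φ * ρ b)
  (ex : ρ' (k * b * k * b⁻¹ * k⁻¹) * φ = φ * ρ (k * b * k * b⁻¹ * k⁻¹)) (pb : p * (ρ b * p) = ρ b * p)
include hk hb eb ex pb

theorem typ3 (e : φ * (ρ k * p) = ρ' k * (φ * p)) : φ * (ρ k * (ρ b * (ρ k * p))) = ρ' k * (φ * (ρ b * (ρ k * p))) := by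
  have m := mul_mem (mul_mem (mul_mem (mul_mem hk hb) hk) (inv_mem hb)) (inv_mem hk)
  have : k * (b * k) = k * b * k * b⁻¹ * k⁻¹ * (k * b) := by group
  generalize k * b * k * b⁻¹ * k⁻¹ = x at *
  rw [← mul_assoc φ (ρ b), ← eb, mul_assoc, e, h.ap hb hk, h.ap hk (mul_mem hb hk), h'.ap hb hk, h'.ap hk (mul_mem hb hk),
    this, ← h.ap m (mul_mem hk hb), ← mul_assoc φ, ← ex, ← h'.ap m (mul_mem hk hb), mul_assoc, ← h.ap hk hb, ← pb,
    ← mul_assoc (ρ k), ← mul_assoc φ, e, mul_assoc, mul_assoc φ, pb, ← mul_assoc φ, ← eb, mul_assoc, h'.ap hk hb]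

theorem typ1 (pk : p * (ρ k * p) = ρ k * p) (e' : ρ' 1 * φ = φ) (n : φ * p ≠ 0) {c : F}
    (e : ρ' k⁻¹ * φ * ρ k * p = c • (φ * p)) (c0 : c ≠ 0) : φ * (ρ k * p) = ρ' k * (φ * p) := by
  have m := mul_mem (mul_mem (mul_mem (mul_mem hk hb) hk) (inv_mem hb)) (inv_mem hk)
  have : k * (b * k) = k * b * k * b⁻¹ * k⁻¹ * (k * b) := by group
  generalize k * b * k * b⁻¹ * k⁻¹ = x at *
  replace e : φ * (ρ k * p) = c • (ρ' k * (φ * p)) := by
    rw [← mul_smul_comm, ← e, mul_assoc, mul_assoc, h'.inv' hk (by rw [← mul_assoc, e'])]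
  have a : ∀ q, p * q = q → φ * (ρ k * q) = c • (ρ' k * (φ * q)) := fun q k => by
    rw [← k, ← mul_assoc (ρ _), ← mul_assoc φ, e, smul_mul_assoc, mul_assoc, mul_assoc]
  have b1 := a (ρ b * (ρ k * p)) (by rw [← pk, ← mul_assoc (ρ b), ← mul_assoc p, pb])
  rw [← mul_assoc φ (ρ b), ← eb, mul_assoc, e, h.ap hb hk, h.ap hk (mul_mem hb hk), this, ← h.ap m (mul_mem hk hb),
    ← mul_assoc φ, ← ex, mul_assoc, ← h.ap hk hb, a _ pb, ← mul_assoc φ, ← eb, mul_assoc] at b1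
  simp only [mul_smul_comm, h'.ap hk hb, h'.ap m (mul_mem hk hb), h'.ap (mul_mem hk hb) hk, smul_smul, ← this,
    ← mul_assoc k, ← sub_eq_zero (b := (c * c) • _), ← sub_smul] at b1
  have := (smul_eq_zero.1 b1).resolve_right (h'.nz (mul_mem (mul_mem hk hb) hk) (by rw [← mul_assoc, e']) n)
  rw [e, mul_left_cancel₀ c0 (show c * c = c * 1 by linear_combination -this), one_smul]

omit hk hb eb ex pb in
theorem orb (hH : H ≤ X) (e : φ * ρ 1 = φ) (e' : ρ' 1 * φ = φ) (e0 : φ * p = φ)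
    (c : ∀ d ∈ H, p * (ρ d * p) = 0 ∨ ρ' d * φ = φ * ρ d) :
    ∃ Φ, (∀ d ∈ H, ρ' d * Φ = Φ * ρ d) ∧ Φ * p = φ ∧ ρ' 1 * Φ = Φ := by
  let I := (univ.filter (· ∈ H)).image fun d => ρ' d * φ * ρ d⁻¹
  have mI : ∀ {x}, x ∈ I ↔ ∃ d ∈ H, ρ' d * φ * ρ d⁻¹ = x := by simp [I]
  have cI : ∀ g ∈ H, ∀ d ∈ H, ρ' g * (ρ' d * φ * ρ d⁻¹) * ρ g⁻¹ = ρ' (g * d) * φ * ρ (g * d)⁻¹ := fun g hg d hd => by
    rw [mul_inv_rev, h _ (inv_mem (hH hd)) _ (inv_mem (hH hg)), h' _ (hH hg) _ (hH hd)]; simp only [mul_assoc]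
  refine ⟨∑ x ∈ I, x, fun g hg => ?_, ?_, ?_⟩
  · rw [mul_sum, sum_mul]
    refine sum_nbij' (fun x => ρ' g * x * ρ g⁻¹) (fun x => ρ' g⁻¹ * x * ρ g⁻¹⁻¹) ?_ ?_ ?_ ?_ ?_ <;> intro x hx <;>
      obtain ⟨d, hd, rfl⟩ := mI.1 hx
    · exact mI.2 ⟨_, mul_mem hg hd, (cI g hg d hd).symm⟩
    · exact mI.2 ⟨_, mul_mem (inv_mem hg) hd, (cI _ (inv_mem hg) d hd).symm⟩
    · rw [cI g hg d hd, cI _ (inv_mem hg) _ (mul_mem hg hd), inv_mul_cancel_left]
    · rw [cI _ (inv_mem hg) d hd, cI g hg _ (mul_mem (inv_mem hg) hd), mul_inv_cancel_left]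
    · simp only [mul_assoc, ← h _ (inv_mem (hH hg)) _ (hH hg), inv_mul_cancel, h.o' (inv_mem (hH hd))]
  · rw [sum_mul, sum_eq_single_of_mem φ (mI.2 ⟨1, one_mem H, by rw [inv_one, e', e]⟩) fun x hx n => ?_, e0]
    obtain ⟨d, hd, rfl⟩ := mI.1 hx
    rcases c _ (inv_mem hd) with c | c
    · rw [← e0]; simp only [mul_assoc, c, mul_zero]
    · exact absurd (by rw [mul_assoc, ← c, h'.inv' (hH hd) e']) n
  · rw [mul_sum]
    refine sum_congr rfl fun x hx => ?_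
    obtain ⟨d, hd, rfl⟩ := mI.1 hx
    rw [← mul_assoc, ← mul_assoc, h'.o (hH hd)]

/-! Ranks. -/

omit h h' hk hb eb ex pb
variable {V : Type*} [AddCommGroup V] [Module F V] [FiniteDimensional F V] {a c e f : End F V} {π : G → End F V}

noncomputable def rk (e : End F V) : ℕ := finrank F (range e)
theorem rk_zero (h : rk e = 0) : e = 0 := range_eq_bot.1 (Submodule.finrank_eq_zero.1 h)
theorem rk0 : rk (0 : End F V) = 0 := by rw [rk, LinearMap.range_zero, finrank_bot]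
theorem rk1 : rk (1 : End F V) = finrank F V := by rw [rk, End.one_eq_id, range_id, finrank_top]
theorem rk_nz (h : rk e = 1) : e ≠ 0 := fun c => by rw [c, rk0] at h; omega
theorem rk_l : rk (a * e) ≤ rk e := by rw [rk, End.mul_eq_comp, range_comp]; exact Submodule.finrank_map_le _ _
theorem rk_r : rk (e * a) ≤ rk e := Submodule.finrank_mono (range_comp_le_range _ _)
theorem rk_le (h : e * a = a) : rk a ≤ rk e := h ▸ rk_r

theorem rk_add (i : a * a = a) (o : a * c = 0) (h1 : e * a = a) (h2 : e * c = c) : rk a + rk c ≤ rk e := by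
  have := Submodule.finrank_sup_add_finrank_inf_eq (range a) (range c)
  rw [show range a ⊓ range c = ⊥ from eq_bot_iff.2 fun v ⟨⟨x, p⟩, y, q⟩ => by
    rw [Submodule.mem_bot, ← p, ← i, End.mul_apply, p, ← q, ← End.mul_apply, o]; rfl, finrank_bot] at this
  exact this.ge.trans (Submodule.finrank_mono (sup_le (h1 ▸ range_comp_le_range _ _) (h2 ▸ range_comp_le_range _ _)))

theorem rk_sum {ι : Type*} (s : Finset ι) {f : ι → End F V} (i : ∀ j ∈ s, f j * f j = f j)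
    (o : ∀ j ∈ s, ∀ k ∈ s, j ≠ k → f j * f k = 0) (h : ∀ j ∈ s, e * f j = f j) : ∑ j ∈ s, rk (f j) ≤ rk e := by
  induction s using Finset.cons_induction generalizing e with
  | empty => simp
  | cons j s n ih =>
    simp only [forall_mem_cons] at i h
    have o1 := fun k m => o j (mem_cons_self _ _) k (mem_cons_of_mem m) fun e => n (e ▸ m)
    have o2 := fun k m l m' => o k (mem_cons_of_mem m) l (mem_cons_of_mem m')
    rw [sum_cons]
    refine (Nat.add_le_add_left (ih (e := ∑ k ∈ s, f k) i.2 o2 fun k m => ?_) _).trans (rk_add i.1 ?_ h.1 ?_)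
    · rw [sum_mul, sum_eq_single_of_mem k m fun l m' n => o2 l m' k m n, i.2 k m]
    · rw [mul_sum, sum_eq_zero o1]
    · rw [mul_sum, sum_congr rfl h.2]

theorem two_kill {p d : End F V} (r : rk e ≤ 2) (h1 : e * a = a) (h2 : e * c = c) (na : a ≠ 0) (nc : c ≠ 0) (k1 : p * a = a)
    (k2 : p * c = 0) (d1 : d * a = 0) (d2 : d * c = 0) : d * e = 0 := by
  have := Submodule.finrank_sup_add_finrank_inf_eq (range a) (range c)
  rw [show range a ⊓ range c = ⊥ from eq_bot_iff.2 fun v ⟨⟨x, p⟩, y, q⟩ => by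
    rw [Submodule.mem_bot, ← p, ← k1, End.mul_apply, p, ← q, ← End.mul_apply, k2]; rfl, finrank_bot] at this
  have e1 := mt rk_zero na
  have e2 := mt rk_zero nc
  have := Submodule.eq_of_le_of_finrank_le (show range a ⊔ range c ≤ range e from
    sup_le (h1 ▸ range_comp_le_range _ _) (h2 ▸ range_comp_le_range _ _)) (by unfold rk at *; omega)
  exact range_le_ker_iff.1 (this ▸ sup_le (range_le_ker_iff.2 d1) (range_le_ker_iff.2 d2))

theorem rk_add_le : rk (a + c) ≤ rk a + rk c :=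
  (Submodule.finrank_mono (range_add_le _ _)).trans (Submodule.finrank_add_le_finrank_add_finrank _ _)

theorem r1_form (h : rk e = 1) : ∃ v, ∃ l : V →ₗ[F] F, v ≠ 0 ∧ e = l.smulRight v := by
  obtain ⟨⟨v, m⟩, n, H⟩ := finrank_eq_one_iff'.1 h
  have n : v ≠ 0 := fun e => n (Subtype.ext e)
  refine ⟨v, (LinearEquiv.toSpanNonzeroSingleton F V v n).symm.toLinearMap ∘ₗ e.codRestrict _ fun x => ?_, n,
    LinearMap.ext fun x => ?_⟩
  · obtain ⟨α, k⟩ := H ⟨_, x, rfl⟩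
    exact Submodule.mem_span_singleton.2 ⟨α, congrArg Subtype.val k⟩
  · exact (congrArg Subtype.val ((LinearEquiv.toSpanNonzeroSingleton F V v n).apply_symm_apply ⟨e x, _⟩)).symm

theorem nz_mul (h : rk e = 1) (n : a * e ≠ 0) (n' : e * c ≠ 0) : a * (e * c) ≠ 0 := fun k => by
  obtain ⟨v, l, -, rfl⟩ := r1_form h
  refine n' (LinearMap.ext fun x => by_contra fun m => n (LinearMap.ext fun y => ?_))
  have := congrArg (· x) k
  simp only [End.mul_apply, smulRight_apply, map_smul, LinearMap.zero_apply, smul_eq_zero, not_or] at this m ⊢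
  exact .inr (this.resolve_left m.1)

theorem prop1 (h : rk e = 1) (h' : rk f = 1) (a1 : f * a = a) (a2 : a * e = a) (c1 : f * c = c) (c2 : c * e = c)
    (n : c ≠ 0) : ∃ α : F, a = α • c := by
  obtain ⟨v, l, -, rfl⟩ := r1_form h
  obtain ⟨w, m, -, rfl⟩ := r1_form h'
  have k : ∀ {a : End F V}, m.smulRight w * a = a → a * l.smulRight v = a → a = m (a v) • l.smulRight w := fun a1 a2 => by
    conv_lhs => rw [← a2, ← a1]
    ext x; simp [smul_smul, mul_comm]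
  have n' : m (c v) ≠ 0 := fun e => n (by rw [k c1 c2, e, zero_smul])
  refine ⟨m (a v) / m (c v), (k a1 a2).trans (Eq.trans ?_ (congrArg _ (k c1 c2).symm))⟩
  rw [smul_smul, div_mul_cancel₀ _ n']

theorem ex1 (h : rk e = 1) (h' : rk f = 1) (i : e * e = e) (i' : f * f = f) : ∃ a, a ≠ 0 ∧ f * a = a ∧ a * e = a := by
  have n := rk_nz h
  have n' := rk_nz h'
  obtain ⟨v, l, hv, e1⟩ := r1_form h
  obtain ⟨w, m, hw, e2⟩ := r1_form h'
  have k : ∀ {e : End F V} {l : V →ₗ[F] F} {v}, v ≠ 0 → e ≠ 0 → e * e = e → e = l.smulRight v → l v = 1 := fun {e l v} hv n i q => by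
    by_contra c
    refine n (LinearMap.ext fun x => ?_)
    have := congrArg (· x) i
    simp only [q, End.mul_apply, smulRight_apply, map_smul, smul_smul] at this
    have := smul_left_injective F hv this
    simp [q, (mul_eq_left₀ · |>.1 this |> c : l x ≠ 0 → False) |> not_not.1]
  refine ⟨l.smulRight w, fun c => hw (by simpa [k hv n i e1] using congrArg (· v) c), ?_, ?_⟩ <;> ext x
  · simp [e2, k hw n' i' e2]
  · simp [e1, k hv n i e1]

theorem rk_cj (h : Rp X π) (hg : g ∈ X) (o : π 1 * a = a) (k : π g * a = c * π g) : rk a ≤ rk c := by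
  rw [← h.inv hg o, k]; exact rk_l.trans rk_r

theorem rk_pj (h : Rp X π) (E : ES Q z) (hS : S ≤ Q) (hX : S ≤ X) (U : Finset G) (hU : ∀ u ∈ U, u ∈ Q)
    (i : ∀ u ∈ U, e * pj π S (lm F u) = pj π S (lm F u)) : ∑ u ∈ U, rk (pj π S (lm F u)) ≤ #(Q ⊓ C(S)) * rk e := by
  rw [← sum_fiberwise_of_maps_to (g := fun u => pj π S (lm F u)) fun u => mem_image_of_mem _]
  refine le_trans (sum_le_sum fun x hx => ?_) ((mul_sum _ _ _).ge.trans (Nat.mul_le_mul_left _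
    (rk_sum (f := fun x => x) (U.image fun u => pj π S (lm F u)) ?_ ?_ ?_)))
  · obtain ⟨u, hu, rfl⟩ := mem_image.1 hx
    rw [sum_congr rfl fun w m => congrArg rk (mem_filter.1 m).2, sum_const, smul_eq_mul]
    by_cases n : pj π S (lm F u) = 0
    · simp [n, rk0]
    rw [← card_fil]
    refine Nat.mul_le_mul_right _ (card_le_card_of_injOn (u * ·) (fun w m => ?_) fun _ _ _ _ => mul_left_cancel)
    obtain ⟨m, e⟩ := mem_filter.1 m
    refine mem_filter.2 ⟨mem_univ _, mul_mem (hU u hu) (hU w m), by_contra fun c => n ?_⟩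
    rw [← (mu_of E hS hX (hU u hu)).idem h, ← pj_orth (F := F) h E hS hX (hU u hu) (hU w m) c, e]
  · simp only [forall_mem_image]; exact fun u m => (mu_of E hS hX (hU u m)).idem h
  · simp only [forall_mem_image]
    exact fun u m w m' n => pj_orth h E hS hX (hU u m) (hU w m') fun c => n (pj_eq E hS (hU u m) (hU w m') c)
  · simp only [forall_mem_image]; exact i

end H1.RC
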