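import Cfsg.Agent.H1.RC9

/-! Two small representations of the centraliser of a `2A`-involution are intertwined. -/

set_option autoImplicit false
set_option linter.unusedSectionVars false

namespace H1.RC
open Cfsg H15 H19 H0 H0.Mo H0.Mo.MT H0.Y H1.RB MulAction Finset Module
open Subgroup hiding mem_top
open scoped Classical commutatorElement

variable {G F V : Type*} [Group G] [Fintype G] [Field F] [NeZero (2 : F)] [AddCommGroup V] [Module F V]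
  [FiniteDimensional F V] {ρ ρ' : G → End F V} {Q Q' K H : Subgroup G} {z s t u w x y h a b k : G} {f : C[z] →* Spor.Co1}
  {f' : C[s] →* Spor.Co1} {R R' : G → Lam → Prop} {v v' : Lam} {p q D φ ψ : End F V} {ε η : F} {i j l : GolayPt} {g : Co0}

theorem hs_abs' (e : p * ρ x = p) : p * hs ρ 1 x = p := by
  rw [← hs_eqv (ρ' := fun _ => 1) (x := x) (by rw [one_mul, e]), hs_abs (by simp) (by simp)]
theorem Mu.pr {χ : G → F} (m : Mu H K χ) (e : ∀ y ∈ K, p * ρ y = χ y • p) : p * pj ρ K χ = p := by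
  rw [← pj_eqv (ρ' := fun y => χ y • 1) fun y k => by simp [e y k], m.pl fun y _ => by simp]
noncomputable abbrev WW (ρ : G → End F V) (Q Q' : Subgroup G) (z s : G) := ee ρ z s 1 1 - pl ρ (Q ⊓ Q') 1

namespace St
variable (S : St Q Q' z s t f R) (S' : St Q' Q s z t f' R') (r : Rr t ρ) (r' : Rr t ρ') (m : Sm ρ Q Q' z s t)
  (m' : Sm ρ Q' Q s z t) (n : Sm ρ' Q Q' z s t) (n' : Sm ρ' Q' Q s z t) (hn : finrank F V ≤ 4371)
include S r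

theorem pi1 : S.pi ρ 1 = pl ρ (Q ⊓ C[t]) 1 := by rw [S.pi_eq r (one_mem _) (.one (one_mem _)) (one_mem _), r.o]
theorem kW (e : ∀ y ∈ Q ⊓ Q', p * ρ y = p) : p * WW ρ Q Q' z s = 0 := by
  rw [mul_sub, ee, ← mul_assoc, hs_abs' (e z S.zE), hs_abs' (e s S.sE), (S.mE (one_mem Q)).pr fun y m => by
    rw [e y m, lm_one, one_smul], sub_self]
theorem zWW : ρ z * WW ρ Q Q' z s = WW ρ Q Q' z s ∧ ρ s * WW ρ Q Q' z s = WW ρ Q Q' z s := by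
  simp only [mul_sub, S.ez r (mul_one 1), S.es r (mul_one 1), (S.mE (one_mem Q)).l r.rp S.zE, (S.mE (one_mem Q)).l r.rp S.sE,
    lm_one, one_smul, and_self]
theorem iW : WW ρ Q Q' z s * WW ρ Q Q' z s = WW ρ Q Q' z s := by
  nth_rw 1 [WW]
  rw [sub_mul, S.kW r (p := pl ρ _ 1) fun y m => by rw [(S.mE (one_mem Q)).r r.rp m, lm_one, one_smul], sub_zero,
    ee_abs (mul_one 1) (mul_one 1) (by rw [(S.zWW r).1, one_smul]) (by rw [(S.zWW r).2, one_smul])]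
theorem aW (ha : a ∈ Q ⊓ C[t]) (c : a ∉ C[s]) : ρ a * WW ρ Q Q' z s = WW ρ Q Q' z s * ρ a := by
  rw [mul_sub, sub_mul, S.ea r ha c (mul_one 1), lm_cjn r.rp ha.2 S.Et (S.E.norms_of_le S.zE inf_le_left ha.1), mul_one, mul_one,
    mul_inv_cancel]
theorem cW : WW ρ Q' Q s z = WW ρ Q Q' z s := by rw [WW, WW, S.ecm r, inf_comm]
theorem RW (hu : u ∈ Q ⊓ Q') : pl ρ (Q ⊓ C[t] ⊓ C[s]) u * WW ρ Q Q' z s = 0 :=
  S.kW r fun y m => by rw [(S.mR hu.1).r r.rp (S.E1 m), lm_pos (S.Ec m hu), one_smul]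

include S'
theorem ka (hk : k ∈ Q' ⊓ C[t]) (c : k ∉ C[z]) : ρ k * ee ρ z s 1 (-1) = ee ρ z s (-1) (-1) * ρ k := by
  rw [S.ecm r, S'.ea r hk c (by simp), mul_one, ← S.ecm r]

include m m' in
theorem Ta (hk : k ∈ Q' ⊓ C[t]) (c : k ∉ C[z]) : pl ρ (Q ⊓ C[t]) 1 * (ρ k * S.T ρ pa) = ρ k * S.T ρ pa ∧
    S.T ρ pa * (ρ k * S.T ρ pa) = ρ k * S.T ρ pa := by
  obtain ⟨e1, e2⟩ := S.mvT S' r m m' hk c pa
  rw [← one_mul (S.uu pa), pl, pj_mul S.uaW.1, ← pl, S.g1 r m] at e1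
  generalize ρ k * S.T ρ pa = x at *
  exact ⟨e1, by rw [T, mul_assoc, e1, e2]⟩

include r' m n in
theorem Tev (e : Ev ρ ρ' (C[z] ⊓ C[t] ⊓ C[s]) ψ) : S.T ρ' j * (ψ * p) = ψ * (S.T ρ j * p) := by
  rw [T, T, mul_assoc, ← S.g1 r' n, e.pl S.R1N, e.pl S.R2N, S.g1 r m, mul_assoc]

include r' m m' n n' hn
variable (hk : k ∈ Q' ⊓ C[t]) (c : k ∉ C[z]) (ha : a ∈ Q ⊓ C[t]) (a2 : a ∉ C[s]) (ga : Gd z t a) (e : Ev ρ ρ' (C[z] ⊓ C[t]) φ)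
  (e0 : φ * pl ρ (Q ⊓ C[t]) a ≠ 0)
include hk c ha ga e e0

theorem f3 (e1 : φ * pl ρ (Q ⊓ C[t]) 1 = 0) : ∃ Φ, Ev ρ ρ' (C[z] ⊓ C[t]) Φ ∧ Φ * pl ρ (Q ⊓ C[t]) 1 = Φ ∧ Φ * S.T ρ pa ≠ 0 ∧
    ∀ j, j ≠ pa → j ≠ pb → Φ * S.T ρ j = ρ' k⁻¹ * φ * ρ k * S.T ρ j := by
  have e2 := S.kN r r' hk e
  have e3 := e2.mr fun g m => S.c23 r m.1
  have e4 : pl ρ' (Q ⊓ C[t]) 1 * (ρ' k⁻¹ * φ * ρ k * pl ρ (Q ⊓ C[t]) 1) = ρ' k⁻¹ * φ * ρ k * pl ρ (Q ⊓ C[t]) 1 := by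
    rw [← S.g1 r' n, e2.pl S.R1N, S.g1 r m, S.i23 r]
  obtain ⟨Φ, f1, f2, f3, f4⟩ := co2u (S.c2 S' r m m' hn) (S.c2 S' r' n n' hn) (φ := ρ' k⁻¹ * φ * ρ k * pl ρ (Q ⊓ C[t]) 1)
    (by rw [S.pi1 r, mul_assoc, S.i23 r]) (by rw [S.pi1 r', e4]) (fun g mg => by
      obtain ⟨h, hh, hs, b⟩ := S.liftH mg
      rw [S.pi_eq r hh b mg.1, S.pi_eq r' hh b mg.1, mul_assoc, e4, e3 h ⟨hh, hs⟩, S.c23 r hh, mul_assoc _ (pl _ _ _),
        mul_assoc _ (pl _ _ _), ← mul_assoc (pl _ _ _), S.i23 r])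
    (by rw [mul_assoc, S.T23 r, mul_assoc, ← (S.Ta S' r m m' hk c).1, mul_assoc, ← mul_assoc φ, e1, zero_mul, mul_zero])
    fun j a b => by
      rw [mul_assoc, S.T23 r, mul_assoc, mul_assoc]
      have x0 := r.rp.nz hk.2 (r.o _) (S.Tnz S' r m m' a b)
      have x1 := (S.mvT S' r m m' hk c j).1
      have x2 := (S.unc a b).1
      rw [S.split (S.uE j).1, add_mul] at x1
      refine r'.rp.nz (C[t].inv_mem hk.2) (r'.o _) ?_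
      by_cases d : pl ρ (Q ⊓ C[t]) (S.uu j) * (ρ k * S.T ρ j) = 0
      · exact S.inj r r' m e ha.1 ga e0 (mul_mem (S.uE j).1 S.L.tQ) (fun d => x2 ((Subgroup.mul_mem_cancel_right _ S.sW.1).1
          (S.ztW d).1)) (by rw [d, zero_add] at x1; rwa [x1])
      · exact S.inj r r' m e ha.1 ga e0 (S.uE j).1 (fun d => x2 (S.ztW d).1) d
  have f5 := f2 1 (one_mem _)
  rw [f1, S.pi1 r'] at f5
  rw [S.pi1 r] at f1
  refine ⟨Φ, fun h hh => ?_, f1, f3, fun j a b => by rw [f4 j a b, mul_assoc, S.T23 r]⟩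
  obtain ⟨g, mg, b⟩ := S.tot hh
  have := f2 g mg
  rwa [S.pi_eq r hh b mg, S.pi_eq r' hh b mg, mul_assoc, f5, S.c23 r hh, ← mul_assoc, f1] at this

include a2 in
theorem fin (k2 : k * k = 1) (h1 : φ * (ρ k * ee ρ z s 1 (-1)) = ρ' k * (φ * ee ρ z s 1 (-1)))
    (h2 : ∀ j, j ≠ pa → j ≠ pb → φ * (ρ k * S.T ρ j) = ρ' k * (φ * S.T ρ j)) (h3 : φ * S.T ρ pa ≠ 0) : ρ' k * φ = φ * ρ k := by
  obtain ⟨k1, kt⟩ := Subgroup.mem_inf.1 hk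
  obtain ⟨a1, aT⟩ := Subgroup.mem_inf.1 ha
  have dd : ∀ p, (φ * ρ k - ρ' k * φ) * p = 0 ↔ φ * (ρ k * p) = ρ' k * (φ * p) := fun p => by
    rw [sub_mul, sub_eq_zero, mul_assoc, mul_assoc]
  have e1 := S.kN r r' hk e
  generalize hD : φ * ρ k - ρ' k * φ = D at dd
  have sq : ∀ {p}, D * p = 0 → D * (ρ k * p) = 0 := fun d => by
    rw [dd, (dd _).1 d, r.rp.ap kt kt, r'.rp.ap kt kt, k2, r.o, r'.o]
  have ex := e (k * a * k * a⁻¹ * k⁻¹) (Subgroup.mem_inf.2 ⟨mem_cent1.2 (by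
    have p4 : k * s * k⁻¹ = s := by rw [S.E'.cent k k1, mul_inv_cancel_right]
    calc _ = k * (a * (k * (a⁻¹ * (k⁻¹ * z * k⁻¹⁻¹) * a⁻¹⁻¹) * k⁻¹) * a⁻¹) * k⁻¹ * (k * a * k * a⁻¹ * k⁻¹) := by group
      _ = _ := by
        rw [S.E'.conj_eq (inv_mem k1) S.L.zQ fun e => c (inv_mem_iff.1 (mem_cent1.2 e)), ← conj_mul (b := a⁻¹), S.E.cent _ (inv_mem a1),
          mul_inv_cancel_right, S.E.conj_eq (inv_mem a1) S.L.tQ fun e => a2 (inv_mem_iff.1 (mem_cent1.2 e)), ← S.L.comm,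
          ← mul_assoc z, S.E.zz, one_mul, p4, S.E.conj_eq a1 S.L.tQ (mt mem_cent1.2 a2), ← conj_mul (b := k), p4,
          S.E'.conj_eq k1 S.L.zQ (mt mem_cent1.2 c), S.L.comm, ← mul_assoc s, S.E'.zz, one_mul])
    , mul_mem (mul_mem (mul_mem (mul_mem kt aT) kt) (inv_mem aT)) (inv_mem kt)⟩)
  have eb := e a (S.PC ha)
  have t3 : ∀ {p}, p * (ρ a * p) = ρ a * p → D * p = 0 → D * (ρ a * (ρ k * p)) = 0 := fun pb d =>
    (dd _).2 (typ3 r.rp r'.rp kt aT eb ex pb ((dd _).1 d))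
  have c0 : ∀ {p} {c : F}, ρ' k⁻¹ * φ * ρ k * p = c • (φ * p) → φ * (ρ k * p) ≠ 0 → c ≠ 0 := fun e n c =>
    r'.rp.nz (inv_mem kt) (r'.o _) n (by rw [← mul_assoc, ← mul_assoc, e, c, zero_smul])
  have eN := e.mono (inf_le_left (b := C[s]))
  have C := S.c2 S' r m m' hn
  have aT' : ∀ j, S.T ρ j * (ρ a * S.T ρ j) = ρ a * S.T ρ j := fun j => by
    rw [← S.T23 r, ← mul_assoc (ρ a), S.q23 r ha, S.T23 r, S.Ti S' r]
  have d1 := (dd _).2 h1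
  have d2 := r.mv kt (S.ka S' r hk c) (sq d1)
  have d3 := t3 (by rw [S.ea r ha a2 (mul_one 1), one_mul, ← mul_assoc, S.eid r (by simp) (by simp)]) d1
  rw [← mul_assoc] at d3
  have d3 := r.mv aT (S.ea r ha a2 (ε := -1) (η := -1) (by simp)) (mul_assoc D _ _ ▸ r.mv kt (S.ka S' r hk c) d3)
  have dT : D * S.T ρ pa = 0 := by
    obtain ⟨α, q⟩ := prop1 C.r0' (S.c2 S' r' n n' hn).r0' (a := ρ' k⁻¹ * φ * ρ k * S.T ρ pa)
      (by rw [S.Tev S' r r' m n e1, S.Ti S' r]) (by rw [mul_assoc, S.Ti S' r]) (by rw [S.Tev S' r r' m n eN, S.Ti S' r])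
      (by rw [mul_assoc, S.Ti S' r]) h3
    have b := (S.Ta S' r m m' hk c).2
    exact (dd _).2 (typ1 r.rp r'.rp kt aT eb ex (aT' pa) b (r'.o φ) h3 q (c0 q (b ▸ nz_mul C.r0' h3
      (b.symm ▸ r.rp.nz kt (r.o _) (rk_nz C.r0')))))
  have d4 : D * ee ρ z s 1 1 = 0 := by
    refine S.kill0 S' r m (by rw [S.ez r (by simp), one_smul]) (by rw [S.es r (by simp), one_smul]) (fun u hu => ?_)
      fun u hu g nu => ?_
    · rw [← mul_assoc]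
      by_cases q : pl ρ (Q ⊓ C[t] ⊓ C[s]) u = 0
      · rw [q, mul_zero, zero_mul]
      obtain ⟨l, lb, q⟩ := S.cl1 S' m hu q
      rw [q]
      by_cases la : l = pa
      · rw [la, ← one_mul (S.uu pa), pl, pj_mul S.uaW.1, ← pl, S.g1 r m, ← S.pi1 r, C.sum, mul_sum, sum_eq_zero fun j mj => ?_,
          zero_mul]
        by_cases ja : j = pa
        exacts [ja ▸ dT, (dd _).2 (h2 j ja (mem_erase.1 mj).1)]
      · have d := (dd _).2 (h2 l la lb)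
        rw [S.kill2 S' r m m' hk c ha a2 la lb (sq d) (t3 (aT' l) d), zero_mul]
    have M := S.mP (F := F) hu.1
    have n0 := rk_nz (m.g1 u hu.1 g)
    have fW := S.fW r hu nu
    have n1 : φ * pl ρ (Q ⊓ C[t]) u ≠ 0 := S.inj r r' m e ha.1 ga e0 hu.1 (fun c => nu (S.ztE c).2) (by rwa [M.idem r.rp])
    have pe : ∀ {ψ}, Ev ρ ρ' (C[z] ⊓ C[t] ⊓ C[s]) ψ → pl ρ' (Q ⊓ C[t]) u * (ψ * pl ρ (Q ⊓ C[t]) u) = ψ * pl ρ (Q ⊓ C[t]) u :=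
      fun e => by rw [← S.r1 r' n hu.1 g nu, e.pl S.R1N, S.r1 r m hu.1 g nu, M.idem r.rp]
    obtain ⟨α, q⟩ := prop1 (m.g1 u hu.1 g) (n.g1 u hu.1 g) (pe e1) (by rw [mul_assoc, M.idem r.rp]) (pe eN)
      (by rw [mul_assoc, M.idem r.rp]) n1
    have kW := S'.aW r hk c
    rw [S.cW r] at kW
    have x1 : WW ρ Q Q' z s * (ρ k * pl ρ (Q ⊓ C[t]) u) = ρ k * pl ρ (Q ⊓ C[t]) u := by rw [← mul_assoc, ← kW, mul_assoc, fW]
    obtain ⟨w, hw, nw⟩ : ∃ w ∈ Q, 1 * (pl ρ (Q ⊓ C[t]) w * (ρ k * pl ρ (Q ⊓ C[t]) u)) ≠ 0 := by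
      by_contra! H
      exact r.rp.nz kt (r.o _) n0 ((one_mul _).symm.trans (pj_all S.E inf_le_left (S.E1 S.zE).1 (by
        rw [add_mul, r.o, ← x1, ← mul_assoc (ρ z), (S.zWW r).1]) H))
    rw [one_mul] at nw
    have α0 := c0 q (S.inj r r' m e ha.1 ga e0 hw (fun c => nw (by
      rw [← x1, ← mul_assoc, S.kW r fun y k => by rw [(S.mP hw).r r.rp (S.E1 k).1, lm_pos (S.Ec k (S.ztE c)), one_smul],
        zero_mul])) nw)
    have e2 := e1.sub eN α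
    have e3 := S.kill0 S' r m (D := ρ' k⁻¹ * φ * ρ k - α • φ) (S.zWW r).1 (S.zWW r).2 (fun u hu => by rw [S.RW r hu, mul_zero])
      fun w hw g' nw => by
        obtain ⟨h, hh, hs, q'⟩ := S.tr8 hu hw g g' nu nw
        exact S.plz (ρ := ρ) q' (S.PC.trans inf_le_left) ▸ r.mv hh.2 (S.cjP r hh u) (e2.zr ⟨hh, hs⟩ (by
          rw [sub_mul, q, smul_mul_assoc, sub_self]))
    rw [sub_mul, sub_eq_zero, smul_mul_assoc] at e3
    rw [← fW, ← mul_assoc, (dd _).2 (typ1 r.rp r'.rp kt aT eb ex (by rw [S.aW r ha a2, ← mul_assoc, S.iW r])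
      (by rw [kW, ← mul_assoc, S.iW r]) (r'.o φ) (fun d => n1 (by rw [← fW, ← mul_assoc, d, zero_mul])) e3 α0), zero_mul]
  rw [neg_mul_neg, one_mul] at d3
  rw [eq_comm, ← sub_eq_zero, hD, ← mul_one D, ← hs_add (ρ := ρ) (x := z), ← ee_add (s := s), ← ee_add (s := s), mul_add, mul_add, mul_add, d1, d2, d3, d4]
  simp

omit hk c ha ga e e0 S' m m' n n' in
theorem uq (hz : ρ z ≠ 1) (hz' : ρ' z ≠ 1) (hs : ρ s ≠ 1) (hs' : ρ' s ≠ 1)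
    (gen : (C[t] ⊓ C[z]) ⊔ (C[t] ⊓ C[s]) = C[t]) : ∃ φ ≠ 0, Ev ρ ρ' C[t] φ := by
  obtain ⟨f', R', S'⟩ := S.symm
  have m := S.sm r hz hn
  have m' := S'.sm r hs hn
  have n := S.sm r' hz' hn
  have n' := S'.sm r' hs' hn
  obtain ⟨a, ra, ha, a2, ga⟩ := S.p0
  obtain ⟨k, -, hk, c, gk⟩ := S'.p0
  obtain ⟨φ1, b1, b2, b3⟩ := S.fm S' r r' m' n'
  obtain ⟨φ2, c1, c2, c3, c4, c5⟩ := S.f2 S' r r' m n hk c ra ha a2 ga b1 b2 b3
  obtain ⟨φ3, d1, d2, d3, d4⟩ := S.f3 S' r r' m m' n n' hn hk c ha ga c1 c5 c3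
  have M := S.mP (F := F) (one_mem Q)
  have A0 : ∀ {p}, ρ z * p = p → φ1 * p = 0 := fun e => by
    rw [← b2, mul_assoc, hs_kill (by simp) (by rw [e, neg_neg, one_smul]), mul_zero]
  have A1 : ∀ {p}, ρ z * p = (-1 : F) • p → (φ1 + φ2 + φ3) * p = φ1 * p := fun e => by
    rw [add_mul, add_mul, ← d2, mul_assoc, M.kill r.rp (S.E1 S.zE).1 (by rw [e, lm_one]), mul_zero, add_zero,
      ← hs_abs (by simp) e, ← mul_assoc φ2, c2, zero_mul, add_zero]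
  have A2 : ∀ {p}, ρ z * p = p → pl ρ (Q ⊓ C[t]) 1 * p = 0 → (φ1 + φ2 + φ3) * p = φ2 * p := fun e e' => by
    rw [add_mul, add_mul, A0 e, ← d2, mul_assoc, e', mul_zero, add_zero, zero_add]
  have A3 : ∀ j, (φ1 + φ2 + φ3) * S.T ρ j = φ3 * S.T ρ j := fun j => by
    rw [add_mul, add_mul, A0 (by rw [← S.T23 r, ← mul_assoc, S.zP' r (one_mem Q)]), ← S.T23 r, ← mul_assoc φ2, c3, zero_mul,
      add_zero, zero_add]
  have e := (b1.add c1).add d1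
  have e1 := S.fin S' r r' m m' n n' hn hk c ha a2 ga e (by
    rwa [A2 (S.zP' r ha.1) (pj_orth r.rp S.E inf_le_left inf_le_right (one_mem Q) ha.1 fun c =>
      a2 (S.E1 (S.ztE (S.cP.le ⟨ha.1, one_mul a ▸ c⟩))).2)]) gk.1.1 (by
    rw [A2 (p := ee ρ z s 1 (-1)) (by rw [S.ez r (by simp), one_smul]) (M.kill r.rp (S.E1 S.sE).1 (by rw [S.es r (by simp), lm_one])), c4,
      mul_assoc, mul_assoc, r'.rp.inv' hk.2 (r'.o _), A1 (by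
        rw [S.ka S' r hk c, ← mul_assoc, S.ez r (by simp), smul_mul_assoc])]) (fun j a b => by
    rw [A3, d4 j a b, mul_assoc, mul_assoc, r'.rp.inv' hk.2 (r'.o _), A2 (by
      rw [(S.mR (S.uE j).1).l' r.rp (S.E1 S.zE) (S.mvT S' r m m' hk c j).1, lm_pos (S.Ec S.zE (S.uE j)), one_smul])
      (S.T0mv S' r m m' hk c a b)]) (by rwa [A3])
  refine ⟨φ1 + φ2 + φ3, fun c => d3 (by rw [← A3, c, zero_mul]), fun g mg => ?_⟩
  generalize φ1 + φ2 + φ3 = φ at *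
  let J := EqS r.rp r'.rp (r.o' φ) (r'.o φ)
  have j1 : ∀ h ∈ C[t] ⊓ C[z], h ∈ J := fun h m => ⟨m.1, e h m.symm⟩
  have j2 : k * a ∈ J := J.mul_mem ⟨hk.2, e1⟩ (j1 a (S.PC ha).symm)
  refine ((gen.ge.trans (sup_le j1 fun h m => ?_) : _ ≤ J) mg).2
  have q : k * a * s * (k * a)⁻¹ = z := by
    rw [mul_inv_rev, ← mul_assoc, mul_assoc k, mul_assoc k, S.E.conj_eq ha.1 S.L.tQ (mt mem_cent1.2 a2), ← conj_mul,
      S.E'.conj_eq hk.1 S.L.zQ (mt mem_cent1.2 c), S.E'.cent k hk.1, mul_inv_cancel_right, S.L.comm, ← mul_assoc, S.E'.zz, one_mul]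
  have := j1 (k * a * h * (k * a)⁻¹) (Subgroup.mem_inf.2 ⟨mul_mem (mul_mem j2.1 m.1) (inv_mem j2.1),
    mem_cent1.2 (by rw [← q, conj_mul, conj_mul, mem_cent1.1 m.2])⟩)
  simpa [mul_assoc] using J.mul_mem (J.mul_mem (J.inv_mem j2) this) j2

end St
end H1.RC
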