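import Cfsg.Agent.H1.RC10
import Mathlib.RepresentationTheory.Basic

/-! Faithful representations of degree 4371 of the quotient `C(t)/⟨t⟩`. -/

set_option autoImplicit false
set_option linter.unusedSectionVars false

namespace H1.RC
open Cfsg H15 H19 H0 H0.Mo H0.Mo.MT H0.Y H1.RB MulAction Finset Module Function
open Subgroup hiding mem_top
open scoped Classical commutatorElement

variable {G F V Γ : Type*} [Group G] [Fintype G] [Field F] [NeZero (2 : F)] [AddCommGroup V] [Module F V]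
  [FiniteDimensional F V] {Q Q' : Subgroup G} {z s t x : G} {f : C[z] →* Spor.Co1} {R : G → Lam → Prop} [Group Γ]
  {π : C[t] →* Γ} {σ σ' : Γ →* End F V}

noncomputable def up (π : C[t] →* Γ) (σ : Γ →* End F V) (x : G) : End F V := if h : x ∈ C[t] then σ (π ⟨x, h⟩) else 0
theorem up_eq (h : x ∈ C[t]) : up π σ x = σ (π ⟨x, h⟩) := dif_pos h
theorem up_rr (k : ∀ x, π x = 1 ↔ x.1 = 1 ∨ x.1 = t) : Rr t (up π σ) :=
  ⟨fun x a y b => by rw [up_eq a, up_eq b, up_eq (mul_mem a b), ← map_mul, ← map_mul]; rfl,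
    by rw [up_eq (one_mem _), (k _).2 (.inl rfl), map_one], by rw [up_eq (mem_cent1_self t), (k _).2 (.inr rfl), map_one]⟩

namespace St
variable (S : St Q Q' z s t f R) (k : ∀ x, π x = 1 ↔ x.1 = 1 ∨ x.1 = t)
include S k

theorem upz (i : ∀ g, σ g = 1 → g = 1) : up π σ z ≠ 1 := fun e => by
  rw [up_eq S.zt] at e
  exact ((k _).1 (i _ e)).elim S.E.z1 fun e => S.tE.2.2.2 (e ▸ .refl _)

theorem triv [IsSimpleGroup Γ] (hn : finrank F V < 4371) (g : Γ) : σ g = 1 := by
  rcases Normal.eq_bot_or_eq_top (inferInstance : σ.ker.Normal) with e | e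
  · obtain ⟨f', R', S'⟩ := S.symm
    have i : ∀ g, σ g = 1 → g = 1 := fun g m => e.le m
    exact absurd (S.low S' (up_rr k) (S.sm (up_rr k) (S.upz k i) hn.le) (S'.sm (up_rr k) (S'.upz k i) hn.le) hn.le) hn.not_ge
  · exact e.ge trivial

theorem irr [IsSimpleGroup Γ] (hn : finrank F V = 4371) (i : ∀ g, σ g = 1 → g = 1) (W : Submodule F V)
    (h : ∀ g, W ≤ W.comap (σ g)) : W = ⊥ ∨ W = ⊤ := by
  by_contra! c
  have d := W.finrank_quotient_add_finrank
  have d1 := W.finrank_lt c.2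
  have d2 := Submodule.finrank_eq_zero.not.2 c.1
  have a := S.triv k (σ := Representation.subrepresentation σ W h) (by omega) (π ⟨z, S.zt⟩)
  have b := S.triv k (σ := Representation.quotient σ W h) (by omega) (π ⟨z, S.zt⟩)
  have q : σ (π ⟨z, S.zt⟩) * σ (π ⟨z, S.zt⟩) = 1 := by
    rw [← map_mul, ← map_mul, (k _).2 (.inl S.E.zz), map_one]
  refine S.upz k i ((up_eq S.zt).trans (LinearMap.ext fun v => ?_))
  have b1 : σ (π ⟨z, S.zt⟩) v - v ∈ W := (Submodule.Quotient.eq W).1 (LinearMap.congr_fun b (Submodule.Quotient.mk v))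
  have a1 : σ (π ⟨z, S.zt⟩) (σ (π ⟨z, S.zt⟩) v - v) = σ (π ⟨z, S.zt⟩) v - v := congrArg Subtype.val (LinearMap.congr_fun a ⟨_, b1⟩)
  rw [map_sub, ← End.mul_apply, q, ← neg_sub, neg_eq_iff_add_eq_zero] at a1
  exact sub_eq_zero.1 (half F a1)

theorem cnj [IsSimpleGroup Γ] (sj : Surjective π) (gen : (C[t] ⊓ C[z]) ⊔ (C[t] ⊓ C[s]) = C[t]) (hn : finrank F V = 4371)
    (i : ∀ g, σ g = 1 → g = 1) (i' : ∀ g, σ' g = 1 → g = 1) : ∃ φ, IsUnit φ ∧ ∀ g, σ' g * φ = φ * σ g := by
  obtain ⟨f', R', S'⟩ := S.symm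
  obtain ⟨φ, n, e⟩ := S.uq (up_rr k) (up_rr k) hn.le (S.upz k i) (S.upz k i') (S'.upz k i) (S'.upz k i') gen
  have e' : ∀ g, σ' g * φ = φ * σ g := fun g => by
    obtain ⟨x, rfl⟩ := sj g
    simpa only [up_eq x.2] using e x x.2
  refine ⟨φ, (LinearMap.isUnit_iff_ker_eq_bot φ).2 ((S.irr k hn i _ fun g v m => ?_).resolve_right (mt LinearMap.ker_eq_top.1 n)), e'⟩
  rw [Submodule.mem_comap, LinearMap.mem_ker, ← End.mul_apply, ← e', End.mul_apply, LinearMap.mem_ker.1 m, map_zero]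

theorem all [IsSimpleGroup Γ] {n : ℕ} (hn : n = 4371) (sj : Surjective π) (gen : (C[t] ⊓ C[z]) ⊔ (C[t] ⊓ C[s]) = C[t]) (ρ : Γ →* GL (Fin n) F)
    (i : Injective ρ) : (∀ W : Submodule F (Fin n → F), (∀ g, ∀ v ∈ W, (ρ g : Matrix (Fin n) (Fin n) F).mulVec v ∈ W) →
      W = ⊥ ∨ W = ⊤) ∧ ∀ ρ' : Γ →* GL (Fin n) F, Injective ρ' → ∃ P : GL (Fin n) F, ∀ g, ρ' g = P * ρ g * P⁻¹ := by
  let e : Matrix (Fin n) (Fin n) F ≃ₐ[F] End F (Fin n → F) := Matrix.toLinAlgEquiv'
  let T := fun ρ : Γ →* GL (Fin n) F => e.toMulEquiv.toMonoidHom.comp ((Units.coeHom _).comp ρ)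
  have j : ∀ {ρ : Γ →* GL (Fin n) F}, Injective ρ → ∀ g, T ρ g = 1 → g = 1 := fun i g c =>
    i (Units.ext (e.injective (c.trans (by simp))))
  refine ⟨fun W h => S.irr k (σ := T ρ) (by simp [hn]) (j i) W fun g v m => h g v m, fun ρ' i' => ?_⟩
  obtain ⟨φ, u, c⟩ := S.cnj k sj gen (by simp [hn]) (j i) (j i')
  obtain ⟨P, p⟩ := u.map e.symm
  refine ⟨P, fun g => eq_mul_inv_of_mul_eq (Units.ext (e.injective ?_))⟩
  rw [Units.val_mul, Units.val_mul, map_mul, map_mul, p, e.apply_symm_apply]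
  exact c g

end St

theorem n28 (a : ((1 : ℤ) : F) = (28 : ℤ)) (b : ((-28 : ℤ) : F) = (28 : ℤ)) : False :=
  two_ne_zero (show (2 : F) = 0 by push_cast at a b; linear_combination 2 * a - b)

theorem kerc {B : Type*} [Group B] {w y : G} {p : C[w] →* B} {φ : C[t] ≃* C[w]} {ψ : Γ →* B} (e : Bijective ψ) (a : Surjective p)
    (b : ∀ x, p x = 1 ↔ x.1 = 1 ∨ x.1 = w) (c : y * t * y⁻¹ = w) (d : ∀ a, (φ a).1 = y * a * y⁻¹) :
    ∃ π : C[t] →* Γ, Surjective π ∧ ∀ x, π x = 1 ↔ x.1 = 1 ∨ x.1 = t :=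
  let e := MulEquiv.ofBijective ψ e
  ⟨e.symm.toMonoidHom.comp (p.comp φ.toMonoidHom), e.symm.surjective.comp (a.comp φ.surjective), fun x =>
    (map_eq_one_iff _ e.symm.injective).trans ((b (φ x)).trans (by rw [d, ← c, conj_eq_one_iff, mul_left_inj, mul_right_inj]))⟩

theorem modF (F : Type*) [Field F] {X : Type*} [MulAction Γ X] [Finite X] (b : X → X → ℤ) (hs : ∀ x y, b x y = b y x)
    (hi : ∀ (g : Γ) x y, b (g • x) (g • y) = b x y) {n : ℕ}
    (hd : ∀ m (v : Fin m → X), (Matrix.of fun i j => b (v i) (v j)).det ≠ 0 → m ≤ n) :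
    ∃ σ : Γ →* GL (Fin n) F, (∀ g, (∀ x : X, g • x = x) → σ g = 1) ∧ ∀ g, σ g = 1 → ∀ x y, (b (g • x) y : F) = b x y := by
  let φ : X → X → F := fun x y => b x y
  let M := Submodule.span F (Set.range φ)
  let a : Γ → End F (X → F) := fun g => LinearMap.funLeft _ _ fun x => g⁻¹ • x
  have aφ : ∀ g x, a g (φ x) = φ (g • x) := fun g x => funext fun y => by
    change (b x (g⁻¹ • y) : F) = b (g • x) y
    rw [← hi g, smul_inv_smul]
  have aM : ∀ g, ∀ v ∈ M, a g v ∈ M := fun g v h => Submodule.span_induction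
    (by rintro _ ⟨x, rfl⟩; exact aφ g x ▸ Submodule.subset_span ⟨_, rfl⟩) (by simp)
    (fun _ _ _ _ p q => by rw [map_add]; exact add_mem p q) (fun c _ _ p => by rw [map_smul]; exact M.smul_mem c p) h
  have dm : finrank F M ≤ n := by
    obtain ⟨f, f1, f2, f3⟩ := Submodule.exists_fun_fin_finrank_span_eq F (Set.range φ)
    choose v hv using f1
    let A : Matrix _ _ ℤ := Matrix.of fun i j => b (v i) (v j)
    have nz : (A.map (Int.castRingHom F)).det ≠ 0 := fun c => by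
      obtain ⟨w, w0, w1⟩ := Matrix.exists_vecMul_eq_zero_iff.2 c
      refine w0 (funext (Fintype.linearIndependent_iff.1 f3 w (funext fun y => ?_)))
      have : φ y ∈ Submodule.span F (Set.range f) := by rw [f2]; exact Submodule.subset_span ⟨_, rfl⟩
      obtain ⟨d, hd⟩ := (Submodule.mem_span_range_iff_exists_fun _).1 this
      have k : ∀ i, f i y = ∑ j, d j * (b (v i) (v j) : F) := fun i => by
        rw [← hv i]
        change (b (v i) y : F) = _
        rw [hs]
        change φ y (v i) = _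
        rw [← hd, Finset.sum_apply]
        exact sum_congr rfl fun j _ => by rw [← hv j, hs (v i)]; rfl
      simp only [Finset.sum_apply, Pi.smul_apply, smul_eq_mul, k, mul_sum, Pi.zero_apply]
      rw [sum_comm]
      refine sum_eq_zero fun j _ => ?_
      have := congrFun w1 j
      simp only [Matrix.vecMul, dotProduct, Matrix.map_apply, A, Matrix.of_apply, Pi.zero_apply, eq_intCast] at this
      rw [← mul_zero (d j), ← this, mul_sum]
      exact sum_congr rfl fun i _ => by ring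
    exact hd _ v fun c => nz (by rw [← RingHom.mapMatrix_apply, ← RingHom.map_det, c, map_zero])
  let W := M × (Fin (n - finrank F M) → F)
  have dW : finrank F W = n := by rw [finrank_prod, finrank_fin_fun]; omega
  let ρ : Γ →* End F W :=
    { toFun g := ((a g).restrict (aM g)).prodMap LinearMap.id
      map_one' := LinearMap.ext fun w => Prod.ext (Subtype.ext (funext fun x => by simp [a])) rfl
      map_mul' g h := LinearMap.ext fun w => Prod.ext (Subtype.ext (funext fun x => by simp [a, mul_smul])) rfl }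
  let e := LinearMap.toMatrixAlgEquiv (finBasisOfFinrankEq F W dW)
  refine ⟨(e.toMulEquiv.toMonoidHom.comp ρ).toHomUnits, fun g h => Units.ext ?_, fun g h x y => ?_⟩
  · change e (ρ g) = 1
    rw [show ρ g = 1 from LinearMap.ext fun w => Prod.ext (Subtype.ext (funext fun x => by
      change w.1.1 (g⁻¹ • x) = w.1.1 x
      rw [inv_smul_eq_iff.2 (h x).symm])) rfl, map_one]
  · have : ρ g = 1 := e.injective ((congrArg Units.val h).trans (map_one e).symm)
    have := congrArg (fun w : W => w.1.1 y) (LinearMap.congr_fun this (⟨φ x, Submodule.subset_span ⟨_, rfl⟩⟩, 0))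
    exact (congrFun (aφ g x) y).symm.trans this

end H1.RC
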