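import Cfsg.Agent.H1.RC11
import Cfsg.Agent.H14.Md2

/-! A faithful representation of degree 4371 of the Baby Monster in odd characteristic. -/

set_option autoImplicit false

namespace H1.RC
open Cfsg H14.Mn H14.Mj H19 H0

attribute [local irreducible] Fintype.piFinset

theorem b16_smul {g : Mon} (h : g • a0 = a0) (x y : V) : b16 (g • x) (g • y) = b16 x y :=
  congrArg (fun r : ℝ => ⌊16 * r⌋) (by rw [← Bf_smul g (pv a0 x), pv_smul, pv_smul, h])

set_option maxHeartbeats 1600000 in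
theorem exB (F : Type*) [Field F] [NeZero (2 : F)] {n : ℕ} (hn : 4371 = n) : ∃ ρ : Bm →* GL (Fin n) F, Function.Injective ρ := by
  have : Finite XD := (Xa_fin.subset fun _ h => Dn.hx h).to_subtype
  obtain ⟨σ, s1, s2⟩ := modF F (Γ := C[tt a0]) (X := XD) (fun x y => b16 x y) (fun x y => by simp only [b16, amb.symm (pv a0 x)])
    (fun g x y => b16_smul (mem_St.2 g.2) x y) (n := n) fun m v h => (gram_le Bf _ (fun i => pv a0 (v i))
      (fun i => Module.End.mem_eigenspace_iff.2 (Dn.eig (v i).2)) h fun i j => b16_eq (v i).2 (v j).2).trans (dim4.trans hn).le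
  let ψ : Bm →* GL (Fin n) F := QuotientGroup.lift _ σ fun g h => by
    rcases πB_one.1 ((QuotientGroup.eq_one_iff g).2 h) with e | e
    · rw [show g = 1 from Subtype.ext e]; exact one_mem _
    · exact s1 g fun x => Subtype.ext (by change g.1 • x.1 = x.1; rw [e]; exact (Dn.symm x.2).fix)
  refine ⟨ψ, (MonoidHom.ker_eq_bot_iff ψ).1 ((Subgroup.Normal.eq_bot_or_eq_top inferInstance).resolve_right
    fun c => ?_)⟩
  have hx := D_s0 (ε := 0)
  have q : ∀ {y} (k : Dn a0 y), (b16 (tt y • av 0 s0) (av 0 s0) : F) = b16 (av 0 s0) (av 0 s0) := fun k =>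
    s2 ⟨_, mem_St.1 k.fix⟩ (show ψ (tB k) = 1 from (MonoidHom.mem_ker (f := ψ)).1 (by rw [c]; trivial)) ⟨_, hx⟩ ⟨_, hx⟩
  obtain ⟨y, k, e⟩ := exists_nb ((Nat.succ_pos _).trans_eq (solB hx).2.2.symm)
  obtain ⟨y', k', e'⟩ := exists_nb ((Nat.succ_pos _).trans_eq (solB hx).2.1.symm)
  have e1 : Bf (av 0 s0) (tt y • av 0 s0) = 13 / 256 := by
    rcases cat hx k with rfl | rfl | ⟨a, b⟩ | ⟨a, b⟩ | ⟨a, b, -⟩ | ⟨a, b, -⟩ | ⟨-, -, a, -⟩ | ⟨a, b, -⟩
    · rw [Xa_norm hx.hx] at e; norm_num at e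
    · rw [hx.sg'.c] at e; norm_num at e
    all_goals first | exact a | (rw [a] at e; norm_num at e)
  have q1 := q k
  have q2 := q k'
  rw [b16_self hx, b16_of (n := 1) (by rw [amb.symm, hx.pp (hx.act k), e1, (lp hx (hx.act k)).1 e1]; norm_num)] at q1
  rw [b16_self hx, (lp hx k').2.2.1 e', b16_of (n := -28) (by
    rw [amb.symm, hx.pp hx.sg, hx.ss, Xa_norm hx.hx, hx.sg'.c]; norm_num)] at q2
  exact n28 q1 q2

end H1.RC
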