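import Cfsg.Agent.H1.RC2

/-! Subgroups of the stabiliser of a minimal vector. -/

set_option autoImplicit false
set_option maxRecDepth 100000

namespace H1.RC
open Cfsg H15 H19 H0 H0.Mo H1.RB Finset MulAction
open Subgroup hiding mem_top
open scoped Pointwise commutatorElement

variable {i j k l : GolayPt} {c : Finset GolayPt} {v w : Lam} {g : Co0}

theorem perfect {G : Type*} [Group G] {K : Subgroup G} (h : IsSimpleGroup K) (n : ¬ (#K).Prime) : K ≤ ⁅K, K⁆ := by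
  rw [← map_subtype_commutator, (Normal.eq_bot_or_eq_top (inferInstance : (commutator K).Normal)).resolve_left
    fun e => ?_, ← MonoidHom.range_eq_map, range_subtype]
  let _ := Group.commGroupOfCenterEqTop ((commutator_eq_bot_iff_center_eq_top _).1 e)
  exact n (IsSimpleGroup.prime_card (α := K))

def Hb : Subgroup Co0 where
  carrier := {g | g • lU = lU ∧ (g • lU' = lU' ∨ g • lU' = -lU')}
  one_mem' := ⟨one_smul _ _, .inl (one_smul _ _)⟩
  mul_mem' := fun a b => ⟨by rw [mul_smul, b.1, a.1], by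
    rcases a.2 with a | a <;> rcases b.2 with b | b <;> simp [mul_smul, a, b, co_neg]⟩
  inv_mem' := fun a => ⟨inv_smul_eq_iff.2 a.1.symm, a.2.imp (fun a => inv_smul_eq_iff.2 a.symm) fun a =>
    inv_smul_eq_iff.2 (by rw [co_neg, a, neg_neg])⟩
theorem Hb_le : Hb ≤ sCo2 := fun _ h => h.1
theorem H0_le : H0 ≤ Hb := fun _ h => ⟨h.1, .inl h.2⟩
theorem Hb_e8 (h : g ∈ Hb) : g • e8 pa 1 = e8 pa 1 ∧ g • e8 pb 1 = e8 pb 1 ∨ g • e8 pa 1 = e8 pb 1 ∧ g • e8 pb 1 = e8 pa 1 := by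
  rw [← U_add, ← U_sub, co_add, co_sub, h.1]
  exact h.2.imp (fun e => by simp [e]) fun e => by simp [e, sub_eq_add_neg]
theorem Hb_NN (h : g ∈ Hb) : g ∈ NN :=
  mem_NN_of_e8 (i := pa) (mem_stdCross.2 ((Hb_e8 h).elim (fun e => ⟨_, 1, .inl rfl, e.1⟩) fun e => ⟨_, 1, .inl rfl, e.1⟩))
theorem prm_Hb {σ : M24} (h : σ.1 pa = pa ∧ σ.1 pb = pb ∨ σ.1 pa = pb ∧ σ.1 pb = pa) : prmH σ ∈ Hb := by
  refine ⟨?_, ?_⟩
  · rw [U_vv, prm_vv]; rcases h with h | h <;> rw [h.1, h.2]; exact vv_comm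
  · rw [U'_vw, prm_vw]
    exact h.imp (fun h => by rw [h.1, h.2]) fun h => by rw [h.1, h.2]; decide +kernel
theorem sgn_H0 (hc : c ∈ cw) (a : pa ∉ c) (b : pb ∉ c) : sgn hc ∈ H0 := (mono_H0 _ _).2 ⟨⟨rfl, a⟩, rfl, b⟩

theorem Hb_gen {K : Subgroup Co0} {σ : M24} (e : σ.1 pa = pb ∧ σ.1 pb = pa) (h1 : prmH σ ∈ K) (h2 : ⁅Hb, Hb⁆ ≤ K)
    (h3 : ∀ c, ∀ hc : c ∈ cw, pa ∉ c → pb ∉ c → sgn hc ∈ K) : Hb ≤ K := by
  have k : H0 ≤ K := fun g m => by
    obtain ⟨τ, hτ, c, hc, rfl⟩ := exists_mono (Hb_NN (H0_le m))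
    rw [mono_H0] at m
    let φ : Spor.M22 →* Co0 := prmH.comp (inclusion M22_le)
    have p : φ.range ≤ Hb := by rintro _ ⟨x, rfl⟩; exact prm_Hb (.inl ⟨(mem_M22.1 x.2).1.2, (mem_M22.1 x.2).2⟩)
    have : (⊤ : Subgroup Spor.M22) ≤ ⁅⊤, ⊤⁆ := have := simple_M22
      perfect topEquiv.isSimpleGroup (by rw [card_top, card_M22]; norm_num)
    rw [mono_eq ⟨τ, hτ⟩]
    refine mul_mem (h3 c hc m.1.2 m.2.2) (h2 (commutator_mono p p ?_))
    rw [φ.range_eq_map, ← map_commutator]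
    exact ⟨⟨τ, mem_M22.2 ⟨⟨hτ, m.1.1⟩, m.2.1⟩⟩, this trivial, rfl⟩
  intro g m
  rcases m.2 with h | h
  · exact k ⟨m.1, h⟩
  have := prm_Hb (.inr e)
  refine (mul_mem_cancel_left h1).1 (k ⟨mul_mem (Hb_le this) m.1, ?_⟩)
  change (_ * _) • lU' = lU'
  rw [mul_smul, h, co_neg, U'_vw, prm_vw, e.1, e.2]; decide +kernel

theorem dot_vv : dotInt (cf (vv i j)) (cf v) = 4 * (cf v i + cf v j) := by
  change dotInt (pr i j 4 4) _ = _
  rw [pr, dotInt_add_left, dotInt_single_left, dotInt_single_left, mul_add]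
theorem dot_vw : dotInt (cf (vw i j)) (cf v) = 4 * (cf v i - cf v j) := by
  change dotInt (pr i j 4 (-4)) _ = _
  rw [pr, dotInt_add_left, dotInt_single_left, dotInt_single_left]; ring
theorem dot_U : dotInt (cf lU) (cf v) = 4 * (cf v pa + cf v pb) := U_vv ▸ dot_vv
theorem dot_U' : dotInt (cf lU') (cf v) = 4 * (cf v pa - cf v pb) := U'_vw ▸ dot_vw

theorem gen2 {K : Subgroup Co0} {c d : GolayPt} {k : Co0} (n : [pa, pb, c, d].Nodup) (h : K4 pa pb c d k) (h1 : Hb ≤ K)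
    (h2 : k ∈ K) : sCo2 ≤ K := by
  obtain ⟨a1, a2, a3, -⟩ := h
  rw [← U_vv] at a1
  rw [← U'_vw] at a2 a3
  obtain ⟨j, -, hj⟩ := exists_mem_notMem_of_card_lt_card (s := [pa, pb, c, d].toFinset) (t := univ)
    ((List.toFinset_card_le _).trans_lt (by rw [card_univ, card_pt]; simp))
  simp only [List.nodup_cons, List.mem_cons, List.mem_toFinset, not_or, List.not_mem_nil] at n hj
  obtain ⟨σ, m, e1, e2, e3, e4⟩ := m24_trans4 n.1.1 n.1.2.1 n.1.2.2.1 n.2.1.1 n.2.1.2.1 n.2.2.1.1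
    n.1.1 n.1.2.1 (Ne.symm hj.1) n.2.1.1 (Ne.symm hj.2.1) (Ne.symm hj.2.2.1)
  obtain ⟨τ, m', f⟩ := m24_trans2 n.1.1 (Ne.symm n.1.1)
  have mσ := prm_Hb (σ := ⟨σ, m⟩) (.inl ⟨e1, e2⟩)
  have mτ := prm_Hb (σ := ⟨τ, m'⟩) (.inr f)
  let K' := K ⊓ sCo2
  have b : Sh2 lU lU' 0 16 ⊆ {y | ∃ h ∈ K', h • lU' = y} := fun y hy => by
    have q : (k * prmH ⟨σ, m⟩ * k) • lU' ∈ Sh2 lU lU' 0 16 := by
      rw [mul_smul, mul_smul, a2, co_neg, prm_vv, e3, e4]
      refine ⟨by rw [co_norm]; exact (sqNorm_neg _).trans (vv_norm (Ne.symm hj.2.2.1)), ?_, ?_⟩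
      · rw [co_dot_fix a1, dot_U]; simp [cf_neg, cf_vv, n, hj, eq_comm (b := j)]
      · rw [← neg_neg lU', ← a3, ← co_neg, co_dot, dotInt_comm]
        erw [H15.dotInt_neg_left, H15.dotInt_neg_right]
        simp [dot_vv, cf_vv, n, hj]
    have t : ∀ {v}, v ∈ Sh2 lU lU' 0 16 → cf v pa = 2 ∧ cf v pb = -2 := fun h => by
      have a := h.2.1; have b := h.2.2; rw [dot_U] at a; rw [dot_U'] at b; omega
    obtain ⟨g, mg, e⟩ := t8 q.1 hy.1 (by rw [(t q).1, (t hy).1]) (by rw [(t q).2, (t hy).2]) (by simp [t q])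
    exact ⟨_, ⟨mul_mem (h1 (H0_le mg)) (mul_mem (mul_mem h2 (h1 mσ)) h2),
      mul_mem mg.1 (mul_mem (mul_mem a1 (Hb_le mσ)) a1)⟩, (mul_smul _ _ _).trans e⟩
  have b' : Sh2 lU lU' 0 (-16) ⊆ {y | ∃ h ∈ K', h • lU' = y} := fun y hy => by
    obtain ⟨h, mh, e⟩ := b (show -y ∈ _ from ⟨(sqNorm_neg _).trans hy.1, (dotInt_neg_right _ _).trans (by rw [hy.2.1]; rfl),
      (dotInt_neg_right _ _).trans (by rw [hy.2.2]; rfl)⟩)
    refine ⟨_, mul_mem mh (show _ ∈ K' from ⟨h1 mτ, mτ.1⟩), ?_⟩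
    rw [mul_smul, U'_vw, prm_vw, f.1, f.2, show vw pb pa = -lU' by decide +kernel, co_neg, e, neg_neg]
  have c1 := card_eq_of_orbit K' lU' {y | ∃ h ∈ K', h • lU' = y} (fun h hh => (⟨h, hh, rfl⟩ : ∃ g ∈ K', g • lU' = _)) fun y hy => hy
  have c2 := Set.ncard_le_ncard (Set.union_subset b b') ((finite_lat 32).subset (by
    rintro _ ⟨h, -, rfl⟩; exact (co_norm _ _).trans norm_U'))
  have cen : ∀ b : ℕ, (Sh2 lU lU' 0 (8 * b - 32)).ncard = cnt fun x y _ => x == 4 && y == b := fun b =>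
    census _ _ (fun _ h => h.1) fun v x y z h e e' _ => by simp only [Sh2, Set.mem_ofPred_eq, h, e, e']; simp; omega
  rw [Set.ncard_union_eq (Set.disjoint_left.2 fun _ a b => absurd (a.2.2.symm.trans b.2.2) (by decide)) (Sh2_fin _ _ _ _)
    (Sh2_fin _ _ _ _), show (Sh2 lU lU' 0 16).ncard = 2464 from (cen 6).trans (by decide +kernel),
    show (Sh2 lU lU' 0 (-16)).ncard = 2464 from (cen 2).trans (by decide +kernel)] at c2
  have c3 := card_le_of_le (show H0 ≤ K' ⊓ stabilizer Co0 lU' from fun g m => ⟨⟨h1 (H0_le m), m.1⟩, m.2⟩)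
  rw [card_stab_UU'] at c3
  have c4 := (K.subgroupOf sCo2).index_mul_card
  rw [card_sCo2, ← inf_subgroupOf_right, Nat.card_congr (subgroupOfEquivOfLe inf_le_right).toEquiv, inf_subgroupOf_right] at c4
  have c5 := Nat.mul_le_mul_left (K.subgroupOf sCo2).index (c1.ge.trans' (Nat.mul_le_mul c2 c3))
  erw [c4] at c5
  have := simple_sCo2
  rcases (K.subgroupOf sCo2).normalCore_normal.eq_bot_or_eq_top with e | e
  · rw [normalCore_eq_ker] at e
    have := card_dvd_of_injective _ ((MonoidHom.ker_eq_bot_iff _).1 e)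
    rw [card_sCo2, Nat.card_perm, ← index_eq_card] at this
    have := (Nat.Prime.dvd_factorial (p := 23) (by norm_num)).1 (dvd_trans (by norm_num) this)
    omega
  · exact subgroupOf_eq_top.1 (top_le_iff.1 (e.ge.trans (normalCore_le _)))

end H1.RC
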