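import Cfsg.Agent.H1.RC3

/-! Vectors fixed by an element of order eleven. -/

set_option autoImplicit false
set_option maxRecDepth 100000

namespace H1.RC
open Cfsg H15 H19 H0 H0.Mo H1.RB Finset MulAction
open Subgroup hiding mem_top
open scoped Pointwise commutatorElement

variable {i j k l : GolayPt} {c : Finset GolayPt} {v w : Lam} {g : Co0}

abbrev D2 := S 340831
theorem hD : D2 ∈ cw := S_mem_cw (by decide +kernel)
def fv (α β γ δ : ℤ) (p : GolayPt) : ℤ := if p = pa then α else if p = pb then β else if p ∈ D2 then δ else γ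
theorem fv_dot (α β γ δ α' β' γ' δ' : ℤ) :
    dotInt (fv α β γ δ) (fv α' β' γ' δ') = α * α' + β * β' + 11 * (γ * γ') + 11 * (δ * δ') := by
  rw [dotInt, sum_congr rfl (g := fun p => α * α' * fv 1 0 0 0 p + β * β' * fv 0 1 0 0 p + γ * γ' * fv 0 0 1 0 p +
    δ * δ' * fv 0 0 0 1 p) fun p _ => by unfold fv; split_ifs <;> simp]
  simp only [sum_add_distrib, ← mul_sum, show ∑ p, fv 1 0 0 0 p = 1 ∧ ∑ p, fv 0 1 0 0 p = 1 ∧ ∑ p, fv 0 0 1 0 p = 11 ∧
    ∑ p, fv 0 0 0 1 p = 11 by decide +kernel]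
  ring
theorem fv_mem {α β γ δ : ℤ} (h : α % 4 = γ % 4 ∧ β % 4 = δ % 4 ∧ α % 2 = β % 2 ∧
    (α + β + 11 * γ + 11 * δ) % 8 = 4 * (α % 2)) : fv α β γ δ ∈ leechLattice := by
  refine LC.mem (m := α % 2) (c := symmDiff (if 2 ≤ α % 4 then D2ᶜ else ∅) (if 2 ≤ β % 4 then D2 else ∅))
    ⟨by omega, cw_symmDiff (by split_ifs; exacts [cw_compl hD, cw_empty]) (by split_ifs; exacts [hD, cw_empty]),
      fun p => ?_, ?_⟩
  · have : pa ∉ D2 ∧ pb ∈ D2 := by decide +kernel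
    unfold fv
    generalize D2 = D at *
    have q : p ∈ symmDiff (if 2 ≤ α % 4 then Dᶜ else ∅) (if 2 ≤ β % 4 then D else ∅) ↔
        if p ∈ D then 2 ≤ β % 4 else 2 ≤ α % 4 := by
      clear h; by_cases a : 2 ≤ α % 4 <;> by_cases b : 2 ≤ β % 4 <;> by_cases c : p ∈ D <;>
        simp only [a, b, c, if_true, if_false, Finset.mem_symmDiff, mem_compl, notMem_empty] <;> simp
    simp only [q]
    by_cases a : p = pa
    · simp only [a, this, if_true, if_false]; split_ifs <;> omega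
    by_cases b : p = pb
    · simp only [b, this, if_true, if_neg (b ▸ a)]; split_ifs <;> omega
    simp only [a, b, if_false]; split_ifs <;> omega
  · have := fv_dot α β γ δ 1 1 1 1
    rw [dotInt, sum_congr rfl (g := fv α β γ δ) fun p _ => by simp [fv]] at this
    rw [this]; omega
def v0 : Lam := ⟨fv (-3) (-1) 1 (-1), fv_mem (by decide)⟩
theorem v0_mem : v0 ∈ Sh lU (-16) := by constructor <;> decide +kernel
theorem v0_odd : ¬ 16 ∣ dotInt (cf v0) (cf lE) := by decide +kernel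
def c11 : ℕ := 0xbd6717b56939461b52507314831040
noncomputable def β : M24 := ⟨P c11, isM_mem (by decide +kernel)⟩
theorem rβ : Rep β.1 c11 := isM_rep (by decide +kernel)
theorem β11 : prmH β ^ 11 = 1 := by
  rw [← map_pow, show β ^ 11 = 1 from Subtype.ext (rβ.pow_eq_one (by decide +kernel)), map_one]
theorem prm_eq {σ : M24} {c : ℕ} (r : Rep σ.1 c) (h : ∀ i < 24, cf w (pt (ap c i)) = cf v (pt i)) : prmH σ • v = w :=
  lam_ext fun p => by
    obtain ⟨p, rfl⟩ := σ.1.surjective p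
    obtain ⟨i, hi, rfl⟩ := exists_pt p
    exact (cf_prm σ.2 v _).trans (by rw [r.app hi, h i hi])
theorem β_v0 : prmH β • v0 = v0 := prm_eq rβ (by decide +kernel)
theorem β_Hb : prmH β ∈ Hb := prm_Hb (.inl ⟨rβ.app (by decide), rβ.app (by decide)⟩)
noncomputable def γ : M24 := ⟨projInv, gamma_mem⟩
theorem γ_v0 : prmH γ • v0 = -lU - v0 := prm_eq rep_gamma (by decide +kernel)
theorem γ_Hb : prmH γ ∈ Hb := prm_Hb (.inr ⟨rep_gamma.app (by decide), rep_gamma.app (by decide)⟩)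

attribute [irreducible] β γ

theorem fx_fv (m : w ∈ Mo.Fx (prmH β * prmH β)) : ∃ a b c d, cf w = fv a b c d := by
  have k : ∀ n : ℕ, ∀ i, cf w ((β.1 ^ (2 * n)) i) = cf w i := fun n i => by
    rw [← SubmonoidClass.coe_pow, ← cf_prm (β ^ (2 * n)).2 w i, show prm (β ^ (2 * n)).2 = (prmH β * prmH β) ^ n by
      rw [← sq, ← pow_mul, ← map_pow]; rfl, pow_fix m]
  refine ⟨cf w pa, cf w pb, cf w (pt 5), cf w (pt 1), funext fun p => ?_⟩
  obtain ⟨i, hi, rfl⟩ := exists_pt p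
  obtain ⟨n, -, q⟩ : ∃ n < 11, pt i = pt (ap (ppow c11 (2 * n))
    (if pt i = pa then 23 else if pt i = pb then 0 else if pt i ∈ D2 then 1 else 5)) := by revert i; decide +kernel
  rw [← (rβ.pow _).app (by split_ifs <;> decide)] at q
  refine (congrArg (cf w) q).trans ((k n _).trans ?_)
  unfold fv; split_ifs <;> rfl

theorem fv_cg {x : Lam} {a b c d α β γ δ : ℤ} (e : cf w = fv (2 * a + α) (2 * b + β) (2 * c + γ) (2 * d + δ))
    (q : cf x = fv α β γ δ) (m : a % 4 = c % 4 ∧ b % 4 = d % 4 ∧ a % 2 = b % 2 ∧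
    (a + b + 11 * c + 11 * d) % 8 = 4 * (a % 2)) : Cg w x := ⟨⟨_, fv_mem m⟩, lam_ext fun p => by
  rw [cf_sub, e, q, two_nsmul, cf_add]; simp only [cf, fv]; split_ifs <;> ring⟩

def Lc (a b c d : ℤ) : Prop := a % 4 = c % 4 ∧ b % 4 = d % 4 ∧ a % 2 = b % 2 ∧ (a + b + 11 * c + 11 * d) % 8 = 4 * (a % 2)
theorem ar {x y a b c d : ℤ} (h1 : ¬ 16 ∣ x) (h2 : 16 ∣ y) (d1 : 16 ∣ x - (a * 8 + b * 0 + 11 * (c * 0) + 11 * (d * 0)))
    (d2 : 16 ∣ y - (a * 4 + b * 4 + 11 * (c * 0) + 11 * (d * 0))) (d3 : 8 ∣ a * -3 + b * -1 + 11 * (c * 1) + 11 * (d * -1))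
    (d4 : 8 ∣ a * 2 + b * 0 + 11 * (c * 2) + 11 * (d * 0)) (d5 : 8 ∣ a * 0 + b * 2 + 11 * (c * 0) + 11 * (d * 2)) :
    ∃ a' b' c' d', a = 2 * a' + 1 ∧ b = 2 * b' + 1 ∧ c = 2 * c' + 1 ∧ d = 2 * d' + 1 ∧ (Lc (a' + 2) (b' + 1) c' (d' + 1) ∨
      Lc a' (b' - 1) c' (d' + 1) ∨ Lc (a' - 2) (b' + 1) c' (d' + 1) ∨ Lc (a' - 4) (b' - 1) c' (d' + 1)) := by
  replace d1 : a % 2 = 1 := by clear d2 d3 d4 d5 h2; omega
  replace d2 : (a + b) % 4 = 0 := by clear d1 d3 d4 d5 h1; omega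
  clear h1 h2
  replace d4 : (a - c) % 4 = 0 := by clear d1 d2 d3 d5; omega
  replace d5 : (b - d) % 4 = 0 := by clear d1 d2 d3 d4; omega
  replace d3 : (5 * a - b + 3 * c - 3 * d) % 8 = 0 := by clear d1 d2 d4 d5; omega
  obtain ⟨a, rfl⟩ : ∃ x, a = 2 * x + 1 := ⟨a / 2, by clear d2 d3 d4 d5; omega⟩
  obtain ⟨b, rfl⟩ : ∃ x, b = 2 * x + 1 := ⟨b / 2, by clear d3 d4 d5; omega⟩
  obtain ⟨c, rfl⟩ : ∃ x, c = 2 * x + 1 := ⟨c / 2, by clear d2 d3 d5; omega⟩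
  obtain ⟨d, rfl⟩ : ∃ x, d = 2 * x + 1 := ⟨d / 2, by clear d2 d3 d4; omega⟩
  have f : a % 2 = c % 2 ∧ b % 2 = d % 2 ∧ (a + b) % 2 = 1 ∧ (a - b - c + d) % 4 = 2 :=
    ⟨by clear d2 d3 d5; omega, by clear d2 d3 d4; omega, by clear d3 d4 d5; omega, by omega⟩
  clear d1 d2 d3 d4 d5
  have key : ∀ S S' m m' : ℤ, S % 4 = 0 → m' % 2 = m % 2 → S' = S - 4 → ¬ S % 8 = 4 * (m % 2) → S' % 8 = 4 * (m' % 2) := by
    intros; omega
  refine ⟨a, b, c, d, rfl, rfl, rfl, rfl, ?_⟩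
  by_cases q : (a - c) % 4 = 2
  · obtain ⟨k, rfl⟩ : ∃ k, a = c + 2 + 4 * k := ⟨(a - c) / 4, by omega⟩
    obtain ⟨l, rfl⟩ : ∃ k, b = d + 4 * k := ⟨(b - d) / 4, by omega⟩
    by_cases q' : (c + 2 + 4 * k + 2 + (d + 4 * l + 1) + 11 * c + 11 * (d + 1)) % 8 = 4 * ((c + 2 + 4 * k + 2) % 2)
    · exact .inl ⟨by omega, by omega, by omega, q'⟩
    · exact .inr (.inr (.inl ⟨by omega, by omega, by omega, key _ _ _ _ (by omega) (by omega) (by ring) q'⟩))
  · obtain ⟨k, rfl⟩ : ∃ k, a = c + 4 * k := ⟨(a - c) / 4, by omega⟩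
    obtain ⟨l, rfl⟩ : ∃ k, b = d + 2 + 4 * k := ⟨(b - d) / 4, by omega⟩
    by_cases q' : (c + 4 * k + (d + 2 + 4 * l - 1) + 11 * c + 11 * (d + 1)) % 8 = 4 * ((c + 4 * k) % 2)
    · exact .inr (.inl ⟨by omega, by omega, by omega, q'⟩)
    · exact .inr (.inr (.inr ⟨by omega, by omega, by omega, key _ _ _ _ (by omega) (by omega) (by ring) q'⟩))

theorem fix11 (h : Cg (prmH β • v) v ∨ Cg (prmH β • v) (v + lU)) (h1 : ¬ 16 ∣ dotInt (cf v) (cf lE))
    (h2 : 16 ∣ dotInt (cf v) (cf lU)) : Cg v v0 ∨ Cg v (v0 + lU) ∨ Cg v (v0 + lE) ∨ Cg v (v0 + lE + lU) := by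
  obtain ⟨w, m, c⟩ := cg_avg (b := prmH β * prmH β) (p := 11) (by decide) (by rw [← sq, ← pow_mul, mul_comm, pow_mul, β11, one_pow])
    (v := v) (by
      rw [mul_smul]
      refine h.elim (fun h => (h.smul _).trans h) fun h => (h.smul _).trans ?_
      rw [co_add, β_Hb.1]; exact (h.add (.refl _)).trans ⟨lU, by rw [two_nsmul]; abel⟩)
  obtain ⟨a, b, c', d, e⟩ := fx_fv m
  have dv : ∀ x, (16 : ℤ) ∣ dotInt (cf v) (cf x) - dotInt (cf w) (cf x) := fun x => by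
    obtain ⟨u, q⟩ := c
    obtain ⟨y, e⟩ : (8 : ℤ) ∣ dotInt (cf u) (cf x) := leech_dot u.2 x.2
    rw [← dotInt_sub_left, show cf v - cf w = cf u + cf u from congrArg cf (q.trans (two_nsmul u)), dotInt_add_left, e]
    omega
  have d1 := dv lE
  have d2 := dv lU
  have k : ∀ {α β γ δ}, fv α β γ δ ∈ leechLattice → 8 ∣ a * α + b * β + 11 * (c' * γ) + 11 * (d * δ) := fun m =>
    fv_dot _ _ _ _ _ _ _ _ ▸ e ▸ leech_dot w.2 m
  have d3 := k v0.2
  have d4 := k (fv_mem (α := 2) (β := 0) (γ := 2) (δ := 0) (by decide))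
  have d5 := k (fv_mem (α := 0) (β := 2) (γ := 0) (δ := 2) (by decide))
  generalize dotInt (cf v) (cf lE) = x at h1 d1
  generalize dotInt (cf v) (cf lU) = y at h2 d2
  rw [e, show cf lE = fv 8 0 0 0 by decide +kernel, fv_dot] at d1
  rw [e, show cf lU = fv 4 4 0 0 by decide +kernel, fv_dot] at d2
  clear dv k
  obtain ⟨a, b, c', d, rfl, rfl, rfl, rfl, q | q | q | q⟩ := ar h1 h2 d1 d2 d3 d4 d5
  · exact .inl (c.trans (fv_cg (e.trans (by congr 1 <;> ring)) rfl q))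
  · exact .inr (.inl (c.trans (fv_cg (e.trans (by congr 1 <;> ring)) (show _ = fv 1 3 1 (-1) by decide +kernel) q)))
  · exact .inr (.inr (.inl (c.trans (fv_cg (e.trans (by congr 1 <;> ring)) (show _ = fv 5 (-1) 1 (-1) by decide +kernel) q))))
  · exact .inr (.inr (.inr (c.trans (fv_cg (e.trans (by congr 1 <;> ring)) (show _ = fv 9 3 1 (-1) by decide +kernel) q))))

theorem perf0 : sCo2 ⊓ stabilizer Co0 v0 ≤ ⁅sCo2 ⊓ stabilizer Co0 v0, sCo2 ⊓ stabilizer Co0 v0⁆ := by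
  obtain ⟨g, m, e⟩ := trans4600 v0 v0_mem
  have := H16.U62.simple
  have q := ((conjEq g (sCo2 ⊓ stabilizer Co0 x4600) (sCo2 ⊓ stabilizer Co0 v0) fun a => by
    rw [Subgroup.mem_inf, Subgroup.mem_inf, ← e, conj_stab, mul_mem_cancel_right (inv_mem m),
      mul_mem_cancel_left m]).symm.trans Cfsg.Agent.S1577.iso.some).trans H16.LU62.equiv.some.symm
  exact perfect q.isSimpleGroup (by rw [Nat.card_congr q.toEquiv, H16.U62.card]; norm_num)

theorem big3 : ∃ w, Cg (v0 + lE) w ∧ 953856 ≤ {x | sqNorm (cf x) = 48 ∧ ∃ g ∈ sCo2, g • w = x}.ncard := by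
  have e : sgn hD • lU' = lU := lam_ext fun p => by rw [cf_sgn]; revert p; decide +kernel
  have e' : sgn hD • lV = -(v0 + lE) := lam_ext fun p => by rw [cf_sgn]; revert p; decide +kernel
  refine ⟨_, e' ▸ (Cg.neg _).symm, ?_⟩
  have := card_le_of_orbit sCo2 (sgn hD • lV) {x | sqNorm (cf x) = 48 ∧ ∃ g ∈ sCo2, g • sgn hD • lV = x}
    ((finite_lat 48).subset fun _ h => h.1) fun h m => ⟨by rw [co_norm, co_norm, norm_V], h, m, rfl⟩
  rw [card_sCo2, ← Nat.card_congr (conjEq (sgn hD) sHS _ fun a => by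
    rw [Subgroup.mem_inf, Subgroup.mem_inf, sCo2, ← e, conj_stab, conj_stab, and_comm]).toEquiv, card_sHS] at this
  omega

theorem sh4 (hv : sqNorm (cf v) = 32) (e : cf v i = -4) :
    ∃ j ≠ i, cf v j ≠ 0 ∧ (Cg v (vv i j) ∨ Cg v (vv i j + lE)) := by
  have k : ∀ j, ∀ b : ℤ, b = 4 ∨ b = -4 → cf v = pr i j (-4) b → Cg v (vv i j) ∨ Cg v (vv i j + lE) := fun j b hb q => by
    rcases hb with rfl | rfl
    · refine .inr (Cg.trans ⟨-e8 i 1, lam_ext fun p => ?_⟩ ((Cg.refl _).add (cg_E i)))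
      simp only [two_nsmul, cf_sub, cf_add, cf_neg, cf_vv, cf_e8, q, pr, Pi.add_apply, Pi.single_apply]; split_ifs <;> rfl
    · refine .inl (Cg.trans (w := -vv i j) ⟨0, lam_ext fun p => ?_⟩ (Cg.neg _))
      simp only [two_nsmul, cf_sub, cf_add, cf_neg, cf_vv, q, pr, Pi.add_apply, Pi.single_apply]; split_ifs <;> rfl
  rcases min_shape v.2 hv with ⟨x, y, a, b, n, ha, hb, q⟩ | ⟨o, -, s, -, -, q⟩ | ⟨c, -, j, q⟩
  · have q' : cf v = pr y x b a := q.trans (add_comm _ _)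
    simp only [cf, q, pr, Pi.add_apply, Pi.single_apply] at e
    by_cases c : i = x
    · subst c
      obtain rfl : a = -4 := by grind
      exact ⟨y, n.symm, by simp only [cf, q, pr, Pi.add_apply, Pi.single_apply]; grind, k y b hb q⟩
    · obtain ⟨rfl, rfl⟩ : i = y ∧ b = -4 := by grind
      exact ⟨x, n, by simp only [cf, q, pr, Pi.add_apply, Pi.single_apply]; grind, k x a ha q'⟩
  · simp only [cf, q, oc] at e; grind
  · simp only [cf, q, od] at e; grind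

end H1.RC
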