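import Cfsg.Agent.H1.RC1
import Cfsg.Agent.H1.RC3

/-! The 23-dimensional representation of `Co₂` is determined by its restriction to the monomial subgroup. -/

set_option autoImplicit false
set_option linter.unusedSectionVars false

namespace H1.RC
open Cfsg H15 H19 H0 H0.Mo H1.RB Finset MulAction Module
open Subgroup hiding mem_top
open scoped Classical Pointwise commutatorElement

variable {F V : Type*} [Field F] [NeZero (2 : F)] [AddCommGroup V] [Module F V] [FiniteDimensional F V]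
  {π π' : Co0 → End F V} {T T' : GolayPt → End F V} {φ x : End F V} {i j c d : GolayPt} {C : Finset GolayPt} {g k : Co0}

noncomputable instance fintCo : Fintype Co0 := Fintype.ofFinite _

structure C2 (π : Co0 → End F V) (T : GolayPt → End F V) : Prop where
  rp : Rp sCo2 π
  sum : π 1 = ∑ j ∈ univ.erase pb, T j
  idem : ∀ j, T j * T j = T j
  wl : ∀ j C (hC : C ∈ cw), pa ∉ C → pb ∉ C → π (sgn hC) * T j = (if j ∈ C then -1 else 1 : F) • T j
  wr : ∀ j C (hC : C ∈ cw), pa ∉ C → pb ∉ C → T j * π (sgn hC) = (if j ∈ C then -1 else 1 : F) • T j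
  cj : ∀ σ : M24, (σ.1 pa = pa ∧ σ.1 pb = pb ∨ σ.1 pa = pb ∧ σ.1 pb = pa) → ∀ j, π (prmH σ) * T j = T (σ.1 j) * π (prmH σ)
  ab : T pb = T pa
  r1 : ∀ j, j ≠ pa → j ≠ pb → rk (T j) = 1
  r00 : (∀ i j, i ≠ j → i ≠ pb → j ≠ pb → T i * T j = 0) → rk (T pa) ≤ 1

theorem sgn_U (hC : C ∈ cw) (a : pa ∉ C) (b : pb ∉ C) : sgn hC ∈ sCo2 := (sgn_H0 hC a b).1

namespace C2
variable (h : C2 π T)
include h

theorem kill {hC : C ∈ cw} (a : pa ∉ C) (b : pb ∉ C) (e : π (sgn hC) * x = (if j ∈ C then 1 else -1 : F) • x) :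
    T j * x = 0 := by
  have := congrArg (· * x) (h.wr j C hC a b)
  simp only [mul_assoc, e, mul_smul_comm, smul_mul_assoc] at this
  refine half F ?_
  split_ifs at this <;> simp only [one_smul, neg_smul] at this
  exacts [eq_neg_iff_add_eq_zero.1 this, neg_eq_iff_add_eq_zero.1 this]

theorem orth (n : i ≠ j) (hi : i ≠ pb) (hj : j ≠ pb) : T i * T j = 0 := by
  by_cases e : i = pa
  · obtain ⟨C, hC, m, a⟩ := pat (i := j) [pa, pb] (by simp) (by simp [hj, ← e, n.symm])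
    exact h.kill (a _ (by simp)) (a _ (by simp)) (by rw [h.wl j C hC (a _ (by simp)) (a _ (by simp))]; simp [m, e, a])
  · obtain ⟨C, hC, m, a⟩ := pat (i := i) [pa, pb, j] (by simp) (by simp [hi, e, n])
    exact h.kill (a _ (by simp)) (a _ (by simp)) (by rw [h.wl j C hC (a _ (by simp)) (a _ (by simp))]; simp [m, a])

theorem r0 : rk (T pa) ≤ 1 := h.r00 fun _ _ => h.orth
theorem o (j : GolayPt) : π 1 * T j = T j := by simpa [sgn_empty] using h.wl j ∅ cw_empty (by simp) (by simp)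
theorem o' (j : GolayPt) : T j * π 1 = T j := by simpa [sgn_empty] using h.wr j ∅ cw_empty (by simp) (by simp)

theorem cjH (m : g ∈ Hb) : ∃ σ : M24, (σ.1 pa = pa ∧ σ.1 pb = pb ∨ σ.1 pa = pb ∧ σ.1 pb = pa) ∧
    (∀ j, g • e8 j 1 = e8 (σ.1 j) 1 ∨ g • e8 j 1 = e8 (σ.1 j) (-1)) ∧ ∀ j, π g * T j = T (σ.1 j) * π g := by
  obtain ⟨τ, hτ, C, hC, rfl⟩ := exists_mono (Hb_NN m)
  have e := Hb_e8 m
  simp only [mono_e8] at e
  have e' : (τ pa = pa ∧ τ pb = pb ∨ τ pa = pb ∧ τ pb = pa) ∧ pa ∉ C ∧ pb ∉ C := by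
    have n : ∀ p, ∀ a : ℤ, (if p ∈ C then -1 else 1) = a ∧ a = 1 → p ∉ C := fun p a h m => by simp [m] at h; omega
    rcases e with ⟨a, b⟩ | ⟨a, b⟩ <;> replace a := e8_inj (by split_ifs <;> decide) a <;>
      replace b := e8_inj (by split_ifs <;> decide) b
    · exact ⟨.inl ⟨a.1, b.1⟩, n _ _ ⟨a.1 ▸ a.2, rfl⟩, n _ _ ⟨b.1 ▸ b.2, rfl⟩⟩
    · exact ⟨.inr ⟨a.1, b.1⟩, n _ _ ⟨b.1 ▸ b.2, rfl⟩, n _ _ ⟨a.1 ▸ a.2, rfl⟩⟩
  refine ⟨⟨τ, hτ⟩, e'.1, fun j => by rw [mono_e8]; split_ifs <;> simp, fun j => ?_⟩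
  rw [mono_eq ⟨τ, hτ⟩, h.rp _ (sgn_U hC e'.2.1 e'.2.2) _ (prm_Hb e'.1).1, mul_assoc, h.cj _ e'.1, ← mul_assoc,
    h.wl _ C hC e'.2.1 e'.2.2, ← mul_assoc, h.wr _ C hC e'.2.1 e'.2.2]

theorem cja (m : g ∈ Hb) : π g * T pa = T pa * π g := by
  obtain ⟨σ, e, -, q⟩ := h.cjH m
  rcases e with e | e <;> rw [q, e.1]; rw [h.ab]

variable (n : [pa, pb, c, d].Nodup) (K : K4 pa pb c d k)
include n

theorem sum4 : π 1 = T pa + T c + T d + ∑ j ∈ [pa, pb, c, d].toFinsetᶜ, T j := by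
  simp only [List.nodup_cons, List.mem_cons, not_or, List.not_mem_nil] at n
  rw [h.sum, ← sum_filter_add_sum_filter_not _ (· ∈ [pa, pb, c, d]), show (univ.erase pb).filter (· ∈ [pa, pb, c, d]) =
    {pa, c, d} from by ext; simp; grind, sum_insert (by simp [n]), sum_pair n.2.2.1.1, ← add_assoc,
    show (univ.erase pb).filter (· ∉ [pa, pb, c, d]) = [pa, pb, c, d].toFinsetᶜ from by ext; simp; grind]

include K
omit h n in
theorem kU : k ∈ sCo2 := by have := K.1; rwa [← U_vv] at this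
omit h n in
theorem kinv : K4 pa pb c d k⁻¹ := by
  obtain ⟨a1, a2, a3, a4, a5, a6⟩ := K
  refine ⟨inv_smul_eq_iff.2 a1.symm, inv_smul_eq_iff.2 (by rw [co_neg, a3, neg_neg]),
    inv_smul_eq_iff.2 (by rw [co_neg, a2, neg_neg]), inv_smul_eq_iff.2 a4.symm, fun j m => ?_, a6⟩
  obtain ⟨C, hC, b1, b2, b3⟩ := a5 j m
  exact ⟨C, hC, b1, b2, (Commute.inv_left b3).eq⟩
omit h n in
theorem kH (m : g ∈ sCo2) (e : g • vv c d = vv c d ∨ g • vv c d = -vv c d) : k * g * k⁻¹ ∈ Hb := by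
  refine ⟨mul_mem (mul_mem (kU K) m) (inv_mem (kU K)), ?_⟩
  rw [mul_smul, mul_smul, U'_vw, (kinv K).2.1, co_neg, co_neg]
  rcases e with e | e <;> simp [e, co_neg, K.2.2.1]

theorem k3 (hi : i ∈ [pa, pb, c, d]) (hj : j ∉ [pa, pb, c, d]) : T j * (π k * T i) = 0 ∧ T i * (π k * T j) = 0 := by
  obtain ⟨C, hC, b1, b2, b3⟩ := K.2.2.2.2.1 j hj
  have a := b2 pa (by simp)
  have b := b2 pb (by simp)
  constructor <;> refine h.kill (hC := hC) a b ?_ <;>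
    rw [h.rp.ap (sgn_U hC a b) (kU K), ← b3, ← h.rp.ap (kU K) (sgn_U hC a b), h.wl _ C hC a b, mul_smul_comm] <;>
    simp [b1, b2 i hi]

theorem e3 (hi : i ∈ [pa, pb, c, d]) : π k * T i = T pa * (π k * T i) + T c * (π k * T i) + T d * (π k * T i) := by
  conv_lhs => rw [← h.rp.o (kU K), mul_assoc, h.sum4 n]
  rw [add_mul, add_mul, add_mul, sum_mul, sum_eq_zero fun j m => (h.k3 n K hi (by simpa using m)).1, add_zero]

omit h in
theorem ex' : ∃ C, ∃ hC : C ∈ cw, pa ∉ C ∧ pb ∉ C ∧ c ∈ C ∧ d ∈ C ∧ k * sgn hC * k⁻¹ ∈ Hb ∧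
    (k * sgn hC * k⁻¹) • e8 c 1 = e8 d 1 := by
  simp only [List.nodup_cons, List.mem_cons, not_or, List.not_mem_nil] at n
  obtain ⟨C, hC, m, a⟩ := pat (i := c) [pa, pb, d] (by simp) (by simp [n, eq_comm (a := c)])
  obtain ⟨D, hD, m', b⟩ := pat (i := d) [pa, pb, c] (by simp) (by simp [n, eq_comm (a := d)])
  simp only [List.forall_mem_cons] at a b
  have e : pa ∉ symmDiff C D ∧ pb ∉ symmDiff C D ∧ c ∈ symmDiff C D ∧ d ∈ symmDiff C D := by
    simp [Finset.mem_symmDiff, *]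
  refine ⟨_, cw_symmDiff hC hD, e.1, e.2.1, e.2.2.1, e.2.2.2, kH K (sgn_U _ e.1 e.2.1) (.inr (by simp [sgn_vv', e])), ?_⟩
  have K' := kinv K
  rw [← vv_add (j := d), ← vv_sub (i := c), mul_smul, mul_smul, co_add, K'.2.2.1, K'.2.2.2.1, co_add, co_neg, sgn_vw, sgn_vw]
  simp [e, co_add, co_neg, K.2.1, K.2.2.2.1, sub_eq_add_neg]

theorem key : T c * (π k * T pa) ≠ 0 ∧ T d * (π k * T pa) ≠ 0 ∧ T pa * (π k * T pa) = 0 := by
  obtain ⟨C, hC, a, b, mc, md, m, e⟩ := ex' n K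
  have n' := n
  simp only [List.nodup_cons, List.mem_cons, not_or, List.not_mem_nil] at n'
  have k1 := kU K
  have s1 := sgn_U hC a b
  obtain ⟨σ, -, q1, q2⟩ := h.cjH m
  have sc : σ.1 c = d := by rcases q1 c with q | q <;> exact (e8_inj (by decide) (q.symm.trans e)).1
  have y := h.e3 n (kinv K) (i := c) (by simp)
  have E : π (k * sgn hC * k⁻¹) * T c = (2 : F) • (π k * (T pa * (π k⁻¹ * T c))) - T c := by
    rw [← h.rp.ap (mul_mem k1 s1) (inv_mem k1), ← h.rp.ap k1 s1, ← congrArg (_ - ·) (h.rp.inv' k1 (h.o c)),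
      ← mul_smul_comm, ← mul_sub]
    generalize π k⁻¹ * T c = z at *
    refine congrArg _ ((congrArg (π _ * ·) y).trans (Eq.trans ?_ (congrArg (_ - ·) y.symm)))
    simp only [mul_add, ← mul_assoc (π (sgn hC)), h.wl _ C hC a b, a, mc, md, if_true, if_false, smul_mul_assoc]
    module
  rw [q2, sc] at E
  have E1 := congrArg (T c * ·) E
  have E2 := congrArg (T pa * ·) E
  simp only [← mul_assoc, mul_sub, h.idem, mul_smul_comm, h.orth n'.2.2.1.1 (Ne.symm n'.2.1.1) (Ne.symm n'.2.1.2.1),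
    h.orth n'.1.2.2.1 n'.1.1 (Ne.symm n'.2.1.2.1), h.orth n'.1.2.1 n'.1.1 (Ne.symm n'.2.1.1), zero_mul, sub_zero] at E1 E2
  have c0 := rk_nz (h.r1 c (Ne.symm n'.1.2.1) (Ne.symm n'.2.1.1))
  have n1 : T c * π k * T pa * π k⁻¹ * T c ≠ 0 := fun z => c0 (by simpa [z] using E1)
  have n2 : T c * (π k * T pa) ≠ 0 := fun z => n1 (by rw [mul_assoc (T c), z, zero_mul, zero_mul])
  have r : rk (T pa) = 1 := le_antisymm h.r0 (Nat.pos_of_ne_zero fun z => n2 (by simp [rk_zero z]))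
  refine ⟨n2, ?_, by_contra fun z => ?_⟩
  · have : π (k * sgn hC * k⁻¹) * (π k * T pa) = π k * T pa := by
      rw [h.rp.ap (Hb_le m) k1, inv_mul_cancel_right, ← h.rp.ap k1 s1, h.wl _ C hC a b, if_neg a, one_smul]
    rw [← this, ← mul_assoc, ← sc, ← q2, mul_assoc]
    exact h.rp.nz (Hb_le m) (by rw [← mul_assoc, h.o]) n2
  · refine nz_mul r (a := T pa * π k) (c := π k⁻¹ * T c) (by rwa [mul_assoc]) (fun z => n1 ?_) ?_
    · rw [mul_assoc, mul_assoc, z, mul_zero]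
    · simpa [mul_assoc, two_ne_zero] using E2.symm

omit n K in
theorem r0' : rk (T pa) = 1 := by
  obtain ⟨c, d, k, n, K⟩ := kex
  exact le_antisymm h.r0 (Nat.pos_of_ne_zero fun z => (h.key n K).1 (by simp [rk_zero z]))

end C2

theorem co2u (h : C2 π T) (h' : C2 π' T') (e : φ * π 1 = φ) (e' : π' 1 * φ = φ) (eH : ∀ g ∈ Hb, π' g * φ = φ * π g)
    (e0 : φ * T pa = 0) (nz : ∀ j, j ≠ pa → j ≠ pb → φ * T j ≠ 0) :
    ∃ Φ, Φ * π 1 = Φ ∧ (∀ g ∈ sCo2, π' g * Φ = Φ * π g) ∧ Φ * T pa ≠ 0 ∧ ∀ j, j ≠ pa → j ≠ pb → Φ * T j = φ * T j := by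
  obtain ⟨c, d, k, n, K⟩ := kex
  have n' := n
  simp only [List.nodup_cons, List.mem_cons, not_or, List.not_mem_nil] at n'
  obtain ⟨⟨ab, ac, ad, -⟩, ⟨bc, bd, -⟩, ⟨cd, -⟩, -⟩ := n'
  replace ab : pa ≠ pb := ab
  replace ac : pa ≠ c := ac
  replace ad : pa ≠ d := ad
  replace bc : pb ≠ c := bc
  replace bd : pb ≠ d := bd
  replace cd : c ≠ d := cd
  have k1 := C2.kU K
  obtain ⟨y1, y2, y3⟩ := h.key n K
  have r := h.r0'
  have r' := h'.r0'
  obtain ⟨ψ, eψ⟩ : ∃ ψ, ψ = π' k⁻¹ * φ * π k * T pa := ⟨_, rfl⟩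
  have p1 : ψ * T pa = ψ := by rw [eψ, mul_assoc, h.idem]
  have p2 : π' 1 * ψ = ψ := by rw [eψ, ← mul_assoc, ← mul_assoc, ← mul_assoc, h'.rp.o (inv_mem k1)]
  have p3 : ψ * π 1 = ψ := by rw [← p1, mul_assoc, h.o']
  have q : ∀ g ∈ Hb, g • vv c d = vv c d ∨ g • vv c d = -vv c d → π' g * ψ = ψ * π g := fun g m v => by
    rw [eψ, ← mul_assoc, kk h.rp h'.rp k1 m.1 (eH _ (C2.kH K m.1 v)), mul_assoc, h.cja m, ← mul_assoc]
  have q' : ∀ C (hC : C ∈ cw), pa ∉ C → pb ∉ C → (c ∈ C ↔ d ∈ C) → π' (sgn hC) * ψ = ψ := fun C hC a b v => by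
    rw [q _ (H0_le (sgn_H0 hC a b)) (by rw [sgn_vv']; by_cases c ∈ C <;> simp_all), ← p1, mul_assoc, h.wr _ C hC a b,
      if_neg a, one_smul]
  have p4 : T' pa * ψ = ψ := by
    obtain ⟨C, hC, a, b, mc, md, -⟩ := C2.ex' n K
    conv_rhs => rw [← p2, h'.sum4 n]
    rw [add_mul, add_mul, add_mul, h'.kill a b (j := c) (by rw [q' C hC a b (by simp [mc, md]), if_pos mc, one_smul]),
      h'.kill a b (j := d) (by rw [q' C hC a b (by simp [mc, md]), if_pos md, one_smul]), sum_mul, sum_eq_zero fun j m => ?_]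
    · simp
    obtain ⟨C, hC, b1, b2, -⟩ := K.2.2.2.2.1 j (by simpa using m)
    simp only [List.forall_mem_cons] at b2
    exact h'.kill b2.1 b2.2.1 (by rw [q' C hC b2.1 b2.2.1 (by simp [b2]), if_pos b1, one_smul])
  have wt : ∀ {φ}, (∀ g ∈ Hb, π' g * φ = φ * π g) → π' 1 * φ = φ → ∀ j ≠ pb, T' j * (φ * T j) = φ * T j := fun {φ} H o j m => by
    conv_rhs => rw [← o, h'.sum, mul_assoc, sum_mul]
    rw [sum_eq_single_of_mem j (mem_erase.2 ⟨m, mem_univ _⟩) fun i mi ne => ?_]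
    have mi := (mem_erase.1 mi).1
    by_cases a : i = pa
    · obtain ⟨C, hC, m, b⟩ := pat (i := j) [pa, pb] (by simp) (by simp [m, ← a, ne.symm])
      simp only [List.forall_mem_cons] at b
      exact h'.kill b.1 b.2.1 (by
        rw [← mul_assoc, H _ (H0_le (sgn_H0 hC b.1 b.2.1)), mul_assoc, h.wl _ C hC b.1 b.2.1]; simp [m, a, b])
    · obtain ⟨C, hC, m, b⟩ := pat (i := i) [pa, pb, j] (by simp) (by simp [mi, a, ne])
      simp only [List.forall_mem_cons] at b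
      exact h'.kill b.1 b.2.1 (by
        rw [← mul_assoc, H _ (H0_le (sgn_H0 hC b.1 b.2.1)), mul_assoc, h.wl _ C hC b.1 b.2.1]; simp [m, b])
  have rc := h.r1 c ac.symm bc.symm
  have rd := h.r1 d ad.symm bd.symm
  have w3 := h.e3 n K (i := pa) (by simp)
  rw [y3, zero_add] at w3
  have n0 : ψ ≠ 0 := by
    rw [eψ, mul_assoc, mul_assoc]
    refine h'.rp.nz (inv_mem k1) (by rw [← mul_assoc, e']) fun z => nz_mul rc (nz c ac.symm bc.symm) y1 ?_
    have := congrArg (T' c * ·) z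
    simp only [mul_zero] at this
    rwa [w3, mul_add, mul_add, ← mul_assoc φ, ← mul_assoc φ (T d), ← mul_assoc (T' c), wt eH e' c bc.symm,
      ← wt eH e' d bd.symm, ← mul_assoc (T' c), ← mul_assoc (T' c), h'.orth cd bc.symm bd.symm, zero_mul, zero_mul, add_zero, mul_assoc] at this
  obtain ⟨σ, ms, s1, s2, s3, s4⟩ := m24_trans4 ab ac ad bc bd cd ab.symm bc bd ac ad cd
  have Hψ : Hb ≤ EqS h.rp h'.rp p3 p2 := Hb_gen (σ := ⟨σ, ms⟩) ⟨s1, s2⟩
    ⟨(prm_Hb (.inr ⟨s1, s2⟩)).1, q _ (prm_Hb (.inr ⟨s1, s2⟩)) (.inl (by rw [prm_vv, s3, s4]))⟩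
    (chr h.rp h'.rp p3 p2 Hb_le fun g m => prop1 r r' (by rw [← mul_assoc, ← h'.cja m, mul_assoc, p4])
      (by rw [mul_assoc, p1]) (by rw [← mul_assoc, p4]) (by rw [mul_assoc, h.cja m, ← mul_assoc, p1])
      (h.rp.nz' m.1 p3 n0))
    fun C hC a b => ⟨sgn_U hC a b, by
      rw [← p1, mul_assoc, h.wr _ C hC a b, p1, ← p4, ← mul_assoc, h'.wl _ C hC a b, if_neg a, one_smul, p4, mul_smul_comm, p1,
        one_smul]⟩
  have f1 : (φ + ψ) * π 1 = φ + ψ := by rw [add_mul, e, p3]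
  have f2 : π' 1 * (φ + ψ) = φ + ψ := by rw [mul_add, e', p2]
  have f3 : ∀ g ∈ Hb, π' g * (φ + ψ) = (φ + ψ) * π g := fun g m => by rw [mul_add, add_mul, eH g m, (Hψ m).2]
  have f4 : (φ + ψ) * T pa = ψ := by rw [add_mul, e0, p1, zero_add]
  have f5 : ∀ j, j ≠ pa → j ≠ pb → (φ + ψ) * T j = φ * T j := fun j a b => by
    rw [add_mul, ← p1, mul_assoc, h.orth a.symm ab b, mul_zero, add_zero]
  have f6 : (φ + ψ) * (π k * T pa) = π' k * ((φ + ψ) * T pa) := by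
    rw [f4, add_mul, ← p1, mul_assoc ψ, y3, mul_zero, add_zero, p1, eψ, mul_assoc, mul_assoc,
      h'.rp.inv' k1 (by rw [← mul_assoc, e'])]
  generalize φ + ψ = Φ at *
  refine ⟨Φ, f1, fun g m => (gen2 (K := EqS h.rp h'.rp f1 f2) n K (fun g m => ⟨m.1, f3 g m⟩) ⟨k1, ?_⟩ m).2, f4 ▸ n0, f5⟩
  obtain ⟨B, hB, md, b⟩ := pat (i := d) [pa, pb, c] (by simp) (by simp [ad.symm, bd.symm, cd.symm])
  simp only [List.forall_mem_cons] at b
  obtain ⟨ba, bb, bc', -⟩ := b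
  have b1 := sgn_U hB ba bb
  have b2 := f3 _ (H0_le (sgn_H0 hB ba bb))
  have b3 : k * sgn hB * k * (sgn hB)⁻¹ * k⁻¹ ∈ Hb := by
    refine ⟨mul_mem (mul_mem (mul_mem (mul_mem k1 b1) k1) (inv_mem b1)) (inv_mem k1), .inl ?_⟩
    simp [mul_smul, U'_vw, (C2.kinv K).2.1, inv_eq_of_mul_eq_one_right (sgn_sq hB), co_neg, sgn_vv', sgn_vw, md, bc',
      K.2.2.1, K.2.2.2.1]
  have bw : ∀ j, T j * (π (sgn hB) * T j) = π (sgn hB) * T j := fun j => by rw [h.wl _ B hB ba bb, mul_smul_comm, h.idem]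
  have t3 := typ3 h.rp h'.rp k1 b1 b2 (f3 _ b3) (bw pa) f6
  have t2 : Φ * (π k * (π k * T pa)) = π' k * (Φ * (π k * T pa)) := by
    have : k * k ∈ Hb := ⟨mul_mem k1 k1, .inl (by rw [mul_smul, U'_vw, K.2.1, co_neg, K.2.2.1, neg_neg])⟩
    rw [f6, h.rp.ap k1 k1, h'.rp.ap k1 k1, ← mul_assoc, ← f3 _ this, mul_assoc]
  obtain ⟨D, eD⟩ : ∃ D, D = Φ * π k - π' k * Φ := ⟨_, rfl⟩
  have dD : ∀ {x}, D * x = 0 ↔ Φ * (π k * x) = π' k * (Φ * x) := by simp [eD, sub_mul, mul_assoc, sub_eq_zero]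
  rw [← dD] at t2 t3 f6
  rw [w3] at t2 t3
  simp only [mul_add, ← mul_assoc (π (sgn hB)), h.wl _ B hB ba bb, md, bc', if_true, if_false, one_smul, neg_smul, neg_mul,
    mul_neg] at t2 t3
  have dc : D * T c = 0 := by_contra fun z => nz_mul rc z y1 (half F (by
    have := congrArg₂ (· + ·) t2 t3; simp only [add_zero] at this; rw [← this]; abel))
  have dd : D * T d = 0 := by_contra fun z => nz_mul rd z y2 (by rwa [← mul_assoc D (T c), dc, zero_mul, zero_add] at t2)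
  obtain ⟨j, -, hj⟩ := exists_mem_notMem_of_card_lt_card (s := [pa, pb, c, d].toFinset) (t := univ)
    ((List.toFinset_card_le _).trans_lt (by rw [card_univ, card_pt]; simp))
  rw [List.mem_toFinset] at hj
  have hj' := hj
  simp only [List.mem_cons, not_or, List.not_mem_nil] at hj'
  have nj := f5 j hj'.1 hj'.2.1 ▸ nz j hj'.1 hj'.2.1
  obtain ⟨α, eα⟩ := prop1 (h.r1 j hj'.1 hj'.2.1) (h'.r1 j hj'.1 hj'.2.1) (a := π' k⁻¹ * Φ * π k * T j) (by
      conv_rhs => rw [← h'.rp.o (inv_mem k1), mul_assoc, mul_assoc, mul_assoc, h'.sum, sum_mul]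
      rw [mul_assoc, mul_assoc]
      rw [sum_eq_single_of_mem j (mem_erase.2 ⟨hj'.2.1, mem_univ _⟩) fun i _ ne => ?_]
      obtain ⟨C, hC, b, v⟩ := K.2.2.2.2.2 j hj i ne
      simp only [List.forall_mem_cons] at b
      refine h'.kill (hC := hC) b.1 b.2.1 ?_
      rw [← mul_assoc Φ, ← mul_assoc _ (Φ * _), ← mul_assoc, ← mul_assoc _ Φ, kk h.rp h'.rp k1 (sgn_U hC b.1 b.2.1)
        (f3 _ (C2.kH K (sgn_U hC b.1 b.2.1) (.inl (by simp [sgn_vv', b])))), mul_assoc, h.wl _ C hC b.1 b.2.1, mul_smul_comm]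
      by_cases a : i ∈ C
      · rw [if_pos a, if_neg fun b => v (iff_of_true a b)]
      · rw [if_neg a, if_pos (by_contra fun b => v (iff_of_false a b))])
    (by rw [mul_assoc, h.idem]) (wt f3 f2 j hj'.2.1) (by rw [mul_assoc, h.idem]) nj
  have all : ∀ i, i ∉ [pa, pb, c, d] → π' k⁻¹ * Φ * π k * T i = α • (Φ * T i) := fun i hi => by
    obtain ⟨τ, mt, t⟩ := m24_multi (n := 5) le_rfl ![j, pa, pb, c, d] ![i, pa, pb, c, d]
      (List.nodup_ofFn.1 (List.nodup_cons.2 ⟨hj, n⟩ :)) (List.nodup_ofFn.1 (List.nodup_cons.2 ⟨hi, n⟩ :))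
    have m := prm_Hb (σ := ⟨τ, mt⟩) (.inl ⟨t 1, t 2⟩)
    have := congrArg (fun x => π' (prmH ⟨τ, mt⟩) * x * π (prmH ⟨τ, mt⟩)⁻¹) eα
    have v := h.cj ⟨τ, mt⟩ (.inl ⟨t 1, t 2⟩) j
    rw [show (⟨τ, mt⟩ : M24).1 j = i from t 0] at v
    simp only [mul_smul_comm, smul_mul_assoc] at this
    rwa [← mul_assoc, kk h.rp h'.rp k1 m.1 (f3 _ (C2.kH K m.1 (.inl (by rw [prm_vv]; exact congrArg₂ vv (t 3) (t 4))))),
      ← mul_assoc _ Φ, f3 _ m, mul_assoc _ _ (T j), mul_assoc _ _ (T j), v, ← mul_assoc, ← mul_assoc,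
      h.rp.rinv m.1 (by rw [mul_assoc, h.o']), h.rp.rinv m.1 (by rw [mul_assoc, h.o'])] at this
  have iW : ∀ i, i ∉ [pa, pb, c, d] → (∑ j ∈ [pa, pb, c, d].toFinsetᶜ, T j) * T i = T i := fun i hi => by
    rw [sum_mul, sum_eq_single_of_mem i (by simpa using hi) fun j m ne => h.orth ne (by rintro rfl; simp at m) (by rintro rfl; simp at hi), h.idem]
  have sW := h.sum4 n
  have dW := typ1 h.rp h'.rp k1 b1 b2 (f3 _ b3) (p := ∑ j ∈ [pa, pb, c, d].toFinsetᶜ, T j) (c := α) (by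
      rw [mul_sum, mul_sum]
      exact sum_congr rfl fun i m => by rw [h.wl _ B hB ba bb, mul_smul_comm, iW i (by simpa using m)])
    (by
      rw [mul_sum, mul_sum]
      refine sum_congr rfl fun i m => ?_
      have m : i ∉ [pa, pb, c, d] := by simpa using m
      conv_rhs => rw [← h.rp.o k1, mul_assoc, sW]
      simp [add_mul, (h.k3 n K _ m).2]) f2
    (fun z => nj (by rw [← iW j hj, ← mul_assoc, z, zero_mul]))
    (by rw [mul_sum, mul_sum, smul_sum]; exact sum_congr rfl fun i m => all i (by simpa using m))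
    fun z => nj ?_
  · rw [← dD] at dW
    have := dD (x := π 1)
    rw [h.rp.o' k1, f1, sW] at this
    exact (this.1 (by simp only [mul_add, f6, dc, dd, dW, add_zero])).symm
  · have : π' k⁻¹ * Φ * π k * ∑ j ∈ [pa, pb, c, d].toFinsetᶜ, T j = 0 := by
      rw [mul_sum]; exact sum_eq_zero fun i m => by rw [all i (by simpa using m), z, zero_smul]
    have v : π k⁻¹ * T j = (∑ j ∈ [pa, pb, c, d].toFinsetᶜ, T j) * (π k⁻¹ * T j) := by
      conv_lhs => rw [← h.rp.o (inv_mem k1), mul_assoc, sW]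
      simp [add_mul, (h.k3 n (C2.kinv K) _ hj).2]
    rw [← h.rp.inv' k1 (h.o j), v, ← h'.rp.inv' k1 f2]
    simp only [← mul_assoc] at this ⊢
    rw [mul_assoc (π' k), mul_assoc (π' k), mul_assoc (π' k), this, mul_zero, zero_mul, zero_mul]

end H1.RC
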