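import Cfsg.Agent.H1.RC1
import Cfsg.Agent.H1.RC4
import Cfsg.Agent.H1.RB5
import Cfsg.Agent.H14.Mn24

/-! The centraliser of a `2A`-involution in a group of Monster type: its 2-local geometry. -/

set_option autoImplicit false
set_option linter.unusedSectionVars false

namespace H1.RC
open Cfsg H15 H19 H0 H0.Mo H0.Mo.MT H0.Y H1.RB MulAction
open Subgroup hiding mem_top
open scoped commutatorElement

variable {G : Type*} [Group G] [Fintype G] {Q Q' K : Subgroup G} {z s t u w x y h a : G} {f : C[z] →* Spor.Co1}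
  {R : G → Lam → Prop} {v v' : Lam} {g : Co0} {i j k l : GolayPt} {C : Finset GolayPt}

theorem half_card (E : ES Q z) (hK : K ≤ Q) (hx : x ∈ Q) (ha : a ∈ K) (n : a ∉ C[x]) : 2 * #(K ⊓ C[x]) = #K := by
  rw [← (C[x].subgroupOf K).index_mul_card, index_eq_two_iff.2 ⟨⟨a, ha⟩, fun b => ?_⟩, ← inf_subgroupOf_left,
    Nat.card_congr (subgroupOfEquivOfLe inf_le_left).toEquiv]
  simp only [mem_subgroupOf, mem_cent1, coe_mul, ← comm_eq_one, E.comm_mul (hK b.2) (hK ha) hx,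
    E.comm_eq (hK ha) hx (mt mem_cent1.2 n)]
  rcases E.comm b (hK b.2) x hx with e | e <;> simp [e, E.z1, E.zz]

structure St (Q Q' : Subgroup G) (z s t : G) (f : C[z] →* Spor.Co1) (R : G → Lam → Prop) : Prop where
  M : MT Q z f R
  L : LP Q z Q' s
  r : R s lE
  rt : R t lU

def Gd (z t u : G) : Prop := A2 z u ∧ A2 z (u * t)
theorem Gd.cj (g : Gd z t u) (hh : h ∈ C[t]) : Gd z t (h * u * h⁻¹) :=
  ⟨g.1.cj h, by have := g.2.cj h; rwa [← conj_mul, mem_cent1.1 hh, mul_inv_cancel_right] at this⟩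
theorem Gd.base (g : Gd z t u) (c : IsConj z s) : Gd s t u := ⟨g.1.base c, g.2.base c⟩
theorem vv_self : vv i i = e8 i 1 := lam_ext fun k => by simp only [cf_vv, cf_e8, Pi.single_apply]; split_ifs <;> rfl
theorem cg_vw : Cg (vw i j) (vv i j + lE) :=
  Cg.trans ⟨-e8 j 1, by rw [← vv_sub (i := i) (j := j), two_nsmul]; abel⟩ ((Cg.refl _).add (cg_E j))
theorem dot_E : dotInt (cf v) (cf lE) = 8 * cf v pa := by rw [dotInt_comm, dot_e8]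
abbrev Wc (Q Q' : Subgroup G) (z s t : G) := C(Q ⊓ C[t] ⊓ C[s]) ⊓ C(Q' ⊓ C[t] ⊓ C[z])

namespace St
variable (S : St Q Q' z s t f R)
include S

theorem E : ES Q z := S.M.le.es
theorem E' : ES Q' s := S.L.r.es
theorem zs : IsConj z s := isConj_iff.2 ⟨_, S.L.conj.choose_spec.1⟩
theorem tE : t ∈ Q ⊓ Q' ∧ A2 z t := u_mem S.M S.L S.r (by decide) (U_vv ▸ S.rt)
theorem Ec (hx : x ∈ Q ⊓ Q') (hy : y ∈ Q ⊓ Q') : x * y = y * x := mul_comm_of_comm S.L.abelem_E.1 hx hy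
theorem Et : Q ⊓ Q' ≤ C[t] := fun _ m => mem_cent1.2 (S.Ec m S.tE.1)
theorem zE : z ∈ Q ⊓ Q' := ⟨S.E.zQ, S.L.zQ⟩
theorem sE : s ∈ Q ⊓ Q' := ⟨S.L.tQ, S.E'.zQ⟩
theorem E1 : Q ⊓ Q' ≤ Q ⊓ C[t] ⊓ C[s] := fun _ m => ⟨⟨m.1, S.Et m⟩, S.E'.le_cent m.2⟩
theorem E2 : Q ⊓ Q' ≤ Q' ⊓ C[t] ⊓ C[z] := fun _ m => ⟨⟨m.2, S.Et m⟩, S.E.le_cent m.1⟩
theorem cP : Q ⊓ C(Q ⊓ C[t]) = zpowers z ⊔ zpowers t := S.E.cent_four S.tE.1.1
theorem cE : Q ⊓ C(Q ⊓ Q') = Q ⊓ Q' := le_antisymm (fun _ m => ⟨m.1, ctr' S.M S.L m.1 m.2⟩)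
  fun _ m => ⟨m.1, mem_cent.2 fun _ k => S.Ec k m⟩
theorem zW : z ∈ Wc Q Q' z s t := ⟨mem_cent.2 fun _ m => S.E.cent _ m.1.1, mem_cent.2 fun _ m => mem_cent1.1 m.2⟩
theorem sW : s ∈ Wc Q Q' z s t := ⟨mem_cent.2 fun _ m => mem_cent1.1 m.2, mem_cent.2 fun _ m => S.E'.cent _ m.1.1⟩
theorem tW : t ∈ Wc Q Q' z s t := ⟨mem_cent.2 fun _ m => mem_cent1.1 m.1.2, mem_cent.2 fun _ m => mem_cent1.1 m.1.2⟩
theorem zP : z ∈ C(Q ⊓ C[t]) := mem_cent.2 fun _ m => S.E.cent _ m.1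
theorem tP : t ∈ C(Q ⊓ C[t]) := mem_cent.2 fun _ m => mem_cent1.1 m.2
theorem nP (hh : h ∈ C[z] ⊓ C[t]) : h ∈ N(Q ⊓ C[t]) := by
  rw [mem_norm_iff_cj, cj_inf, cj_of_mem_norm (S.M.le.norm hh.1), cj_cent1, mem_cent1.1 hh.2, mul_inv_cancel_right]
theorem nR (hh : h ∈ C[z] ⊓ C[t]) (hs : h ∈ C[s]) : h ∈ N(Q ⊓ C[t] ⊓ C[s]) := by
  rw [mem_norm_iff_cj, cj_inf, cj_of_mem_norm (S.nP hh), cj_cent1, mem_cent1.1 hs, mul_inv_cancel_right]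

theorem symm : ∃ f' R', St Q' Q s z t f' R' := by
  obtain ⟨M, L, r, rt⟩ := id S
  obtain ⟨g, rfl, rfl⟩ := L.conj
  obtain ⟨f', M'⟩ := cjM M g
  obtain ⟨k, r'⟩ := M'.typ4 L.symm
  have M1 := M'.twist k
  obtain ⟨i, j, n, H⟩ := cls M1 L.symm r' ⟨S.tE.1.2, S.tE.1.1⟩ (S.tE.2.base S.zs)
  obtain ⟨w, a⟩ := M1.sur (vv i j)
  obtain ⟨v, b⟩ := M1.tot t S.tE.1.2
  obtain ⟨σ, m, e1, e2⟩ := m24_trans2 (a := pa) (b := pb) (by decide) n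
  obtain ⟨C, hC, c1, c2⟩ := exists_cw_two n False (¬ Cg v (vv i j))
  refine ⟨_, _, M1.twist (sgn hC * prmH ⟨σ, m⟩), L.symm, M1.cg r' (stab_E.2 (mul_mem (mono_mem _ _) (prmH_mem _))).symm,
    M1.cg b ?_⟩
  rw [mul_smul, U_vv, prm_vv, e1, e2, sgn_vv', if_neg c1.1]
  split_ifs with c
  · refine Cg.trans ?_ cg_vw.symm
    have := (((v4 M1 L.symm r' (M1.mul b a)).1 (H w a)).resolve_left fun e => c2.1 c (Cg.add_zero.1 e)).add (Cg.refl (vv i j))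
    exact Cg.trans ⟨-vv i j, by rw [two_nsmul]; abel⟩ (add_comm lE _ ▸ this)
  · exact not_not.1 (mt c2.2 c)

theorem gd_of (a : R u v) (m : v ∈ Sh lU (-16)) : u ∈ Q ⊓ C[t] ∧ Gd z t u :=
  ⟨⟨S.M.mem a, mem_cent1.2 ((S.M.comm_iff S.L a S.rt).2 (by rw [dotInt_comm, m.2]; decide))⟩, a2_of S.M S.L a m.1,
    a2_of S.M S.L (S.M.mul a S.rt) (by erw [sqNorm_add, m.1, norm_U, dotInt_comm, m.2]; rfl)⟩

theorem of_gd (hu : u ∈ Q) (g : Gd z t u) : ∃ v ∈ Sh lU (-16), R u v := by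
  obtain ⟨v, a, n⟩ := of_a2 S.M S.L hu g.1
  obtain ⟨w, b, n'⟩ := of_a2 S.M S.L (mul_mem hu S.tE.1.1) g.2
  have c := (S.M.uniq (S.M.mul a S.rt) b).2 (.inl rfl)
  have d := c.norm
  have e : sqNorm (cf (v + lU)) = 64 + 2 * dotInt (cf lU) (cf v) := by erw [sqNorm_add, n, norm_U, dotInt_comm]; rfl
  rcases dot_cases norm_U n with k | k | k | (k | k) | k | k
  · exact absurd ((S.M.rk (S.M.mul a S.rt)).2 (Cg.add_zero.2 (k ▸ .refl _))) fun m => (S.E.mem_zp.1 m).elim g.2.2.1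
      fun e => g.2.2.2 (e ▸ .refl _)
  · exact absurd ((S.M.rk (S.M.mul a S.rt)).2 (Cg.add_zero.2 (k ▸ .neg _))) fun m => (S.E.mem_zp.1 m).elim g.2.2.1
      fun e => g.2.2.2 (e ▸ .refl _)
  · exact absurd (b2_of S.M S.L (S.M.mul a S.rt) (by rw [e, k.2]; rfl)).1 g.2.2.2
  · rw [e, k.2, n'] at d; exact absurd d (by decide)
  · have := (H15.dotInt_neg_right (cf lU) (cf v)).symm.trans k.2; rw [e, n'] at d; omega
  exacts [⟨v, k, a⟩, ⟨_, k, S.M.cg a (Cg.neg v).symm⟩]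

theorem gd_mul (hu : u ∈ Q) (g : Gd z t u) (hw : w ∈ zpowers z ⊔ zpowers t) : Gd z t (u * w) := by
  have k : ∀ {u}, u ∈ Q → Gd z t u → Gd z t (u * z) := fun hu g =>
    let ⟨_, m, a⟩ := S.of_gd hu g; (S.gd_of (S.M.mulz a (mem_zpowers z)) m).2
  have k' : Gd z t (u * t) := ⟨g.2, by rw [mul_assoc, S.tE.2.1, mul_one]; exact g.1⟩
  rcases (mem_four S.E.zz S.tE.2.1 (S.Ec S.zE S.tE.1)).1 hw with rfl | rfl | rfl | rfl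
  exacts [(mul_one u).symm ▸ g, k hu g, k', by rw [S.Ec S.zE S.tE.1, ← mul_assoc]; exact k (mul_mem hu S.tE.1.1) k']

theorem p0 : ∃ a, R a v0 ∧ a ∈ Q ⊓ C[t] ∧ a ∉ C[s] ∧ Gd z t a :=
  let ⟨a, r⟩ := S.M.sur v0
  ⟨a, r, (S.gd_of r v0_mem).1, fun c => v0_odd ((S.M.comm_iff S.L r S.r).1 (mem_cent1.1 c)), (S.gd_of r v0_mem).2⟩

theorem lift (m : g ∈ sCo2) : ∃ h ∈ C[z] ⊓ C[t], A f h g :=
  let ⟨k, k1, k2⟩ := mem_img.1 ((S.M.img_cent S.rt nz_U).2 (by rw [mem_stabilizer_iff.1 m]; exact .refl _)); ⟨k, ⟨k2.1, k1⟩, k2⟩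

theorem liftH (m : g ∈ Hb) : ∃ h ∈ C[z] ⊓ C[t], h ∈ C[s] ∧ A f h g := by
  obtain ⟨h, hh, b⟩ := S.lift m.1
  rcases (S.M.uniq S.r (S.M.act b S.r)).1 (stab_E.2 (Hb_NN m)).symm with e | e
  · exact ⟨h, hh, mem_cent1.2 (mul_inv_eq_iff_eq_mul.1 e), b⟩
  obtain ⟨a, -, m, n, -⟩ := S.p0
  refine ⟨a * h, mul_mem ⟨S.E.le_cent m.1, m.2⟩ hh, mem_cent1.2 (mul_inv_eq_iff_eq_mul.1 ?_), one_mul g ▸ (S.M.aQ m.1).mul b⟩
  rw [mul_inv_rev, ← mul_assoc, mul_assoc a, mul_assoc a, e, ← conj_mul, S.E.conj_eq m.1 S.L.tQ (mt mem_cent1.2 n),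
    S.E.cent a m.1, mul_inv_cancel_right, mul_assoc, S.E.zz, mul_one]

theorem tot (hh : h ∈ C[z] ⊓ C[t]) : ∃ g ∈ sCo2, A f h g := by
  obtain ⟨g, b⟩ := A.tot (f := f) hh.1
  obtain ⟨e, e1, e2⟩ := stab_short (by rw [norm_U]; decide) ((S.M.img_cent S.rt nz_U).1 (mem_img.2 ⟨h, hh.2, b⟩))
  exact ⟨_, e2, one_mul h ▸ (A.one e1).mul b⟩

theorem ysg (hC : C ∈ cw) (a : pa ∉ C) (b : pb ∉ C) : ∃ y ∈ Q' ⊓ C[t] ⊓ C[z], A f y (sgn hC) :=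
  let ⟨y, m, e⟩ := mem_img.1 ((S.M.img_EE S.L S.r).ge ⟨_, hC, rfl⟩)
  ⟨y, ⟨⟨m.1, mem_cent1.2 ((sgn_cm S.M S.L S.r (by decide) (U_vv ▸ S.rt) m.1 hC e).2 (iff_of_false a b))⟩, m.2⟩, e⟩

theorem sgy (m : y ∈ Q' ⊓ C[t] ⊓ C[z]) : ∃ C, ∃ hC : C ∈ cw, pa ∉ C ∧ pb ∉ C ∧ A f y (sgn hC) := by
  obtain ⟨g, k, b⟩ := S.tot ⟨m.2, m.1.2⟩
  obtain ⟨C, hC, rfl⟩ := (S.M.img_EE S.L S.r).le (mem_img.2 ⟨y, ⟨m.1.1, m.2⟩, b⟩)
  have e : _ • lU = lU := k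
  have a := congrArg (cf · pa) e
  have a' := congrArg (cf · pb) e
  simp only [cf_sgn, show cf lU pa = 4 ∧ cf lU pb = 4 by decide +kernel] at a a'
  exact ⟨C, hC, fun c => by simp [c] at a, fun c => by simp [c] at a', b⟩

theorem same (a : R x v) (b : R y v') (c : Cg v v' ∨ Cg v (v' + lU) ∨ Cg v (v' + lE) ∨ Cg v (v' + lE + lU)) :
    ∃ c ∈ Wc Q Q' z s t, x = y * c := by
  have k : ∀ c ∈ Wc Q Q' z s t, ∀ w, R (y * c) w → Cg v w → ∃ c ∈ Wc Q Q' z s t, x = y * c := fun c m w b e =>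
    ((S.M.uniq b a).1 e.symm).elim (⟨c, m, ·⟩) fun e => ⟨_, mul_mem m S.zW, by rw [e, mul_assoc]⟩
  rcases c with c | c | c | c
  exacts [k 1 (one_mem _) _ ((mul_one y).symm ▸ b) c, k _ S.tW _ (S.M.mul b S.rt) c, k _ S.sW _ (S.M.mul b S.r) c,
    k _ (mul_mem S.sW S.tW) _ (mul_assoc y s t ▸ S.M.mul (S.M.mul b S.r) S.rt) c]

noncomputable def uu (j : GolayPt) : G := U S.M pa j
theorem ru (j : GolayPt) : R (S.uu j) (vv pa j) := rU _ _ _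
theorem ua : S.uu pa = s ∨ S.uu pa = s * z := (S.M.uniq S.r (S.ru pa)).1 (vv_self ▸ .refl _)
theorem uaW : S.uu pa ∈ Wc Q Q' z s t := S.ua.elim (fun e => by rw [e]; exact S.sW) fun e => by rw [e]; exact mul_mem S.sW S.zW
theorem ubW : S.uu pb ∈ Wc Q Q' z s t := ((S.M.uniq S.rt (S.ru pb)).1 (U_vv ▸ .refl _)).elim (fun e => by rw [e]; exact S.tW) fun e => by rw [e]; exact mul_mem S.tW S.zW
theorem uE (j : GolayPt) : S.uu j ∈ Q ⊓ Q' := by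
  by_cases e : pa = j
  · exact e ▸ S.ua.elim (fun e => by rw [e]; exact S.sE) fun e => by rw [e]; exact mul_mem S.sE S.zE
  · exact (u_mem S.M S.L S.r e (S.ru j)).1
theorem ug (a : j ≠ pa) (b : j ≠ pb) : Gd z t (S.uu j) :=
  (S.gd_of (S.M.cg (S.ru j) (Cg.neg _).symm) ⟨(sqNorm_neg _).trans (vv_norm a.symm), by
    rw [dot_U]; simp [cf_neg, cf_vv, a.symm, b.symm, show pb ≠ pa by decide]⟩).2
theorem uy (m : y ∈ Q' ⊓ C[t] ⊓ C[z]) {hC : C ∈ cw} (b : A f y (sgn hC)) (a : pa ∉ C) : y * S.uu j = S.uu j * y ↔ j ∉ C := by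
  by_cases e : pa = j
  · subst e; exact iff_of_true (mem_cent.1 S.uaW.2 y m) a
  · rw [sgn_cm S.M S.L S.r e (S.ru j) m.1.1 hC b]; simp [a]
theorem xsg (hC : C ∈ cw) (a : pa ∉ C) (b : pb ∉ C) : ∃ x ∈ Q ⊓ C[t] ⊓ C[s], ∀ j, x * S.uu j = S.uu j * x ↔ j ∉ C := by
  obtain ⟨x, r⟩ := S.M.sur ⟨_, (LC_oc hC).mem⟩
  refine ⟨x, ⟨⟨S.M.mem r, mem_cent1.2 ((S.M.comm_iff S.L r S.rt).2 ?_)⟩, mem_cent1.2 ((S.M.comm_iff S.L r S.r).2 ?_)⟩, fun j => ?_⟩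
  · rw [dotInt_comm, dot_U]; simp [cf, oc, a, b]
  · rw [dot_E]; simp [cf, oc, a]
  · rw [S.M.comm_iff S.L r (S.ru j), dotInt_comm, dot_vv]; by_cases c : j ∈ C <;> simp [cf, oc, a, c]

theorem ev (hu : u ∈ Q ⊓ C[s]) (a : R u v) (m : v ∈ Sh lU (-16)) :
    cf v pa = -2 ∧ cf v pb = -2 ∨ ∃ l, l ≠ pb ∧ ∃ c ∈ Wc Q Q' z s t, u = S.uu l * c := by
  have e := (S.M.comm_iff S.L a S.r).1 (mem_cent1.1 hu.2)
  have d := m.2
  rw [dot_E] at e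
  rw [dot_U] at d
  have b := abs_le_of_sqNorm (b := 5) m.1.le (by norm_num) (by norm_num)
  obtain c | c | c : cf v pa = -2 ∧ cf v pb = -2 ∨ cf v pa = -4 ∧ cf v pb = 0 ∨ cf v pa = 0 ∧ cf v pb = -4 := by
    have := b pa; have := b pb; omega
  · exact .inl c
  · obtain ⟨j, -, n, q⟩ := sh4 m.1 c.1
    exact .inr ⟨j, fun e => n (e ▸ c.2), S.same a (S.ru j) (q.imp_right fun q => .inr (.inl q))⟩
  · obtain ⟨j, n, -, q⟩ := sh4 m.1 c.2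
    have k : Cg (vv pb j) (vv pa j + lE + lU) := ⟨-e8 pa 1, lam_ext fun p => by
      simp only [U_vv, two_nsmul, cf_sub, cf_add, cf_neg, cf_vv, cf_e8, Pi.single_apply]; split_ifs <;> rfl⟩
    refine .inr ⟨j, n, S.same a (S.ru j) (.inr (q.symm.imp (fun q => q.trans ((k.add (.refl _)).trans ⟨lE, ?_⟩))
      fun q => .inr (q.trans k)))⟩
    rw [two_nsmul]; abel

theorem clsE (hu : u ∈ Q ⊓ Q') (c : u ∈ Wc Q Q' z s t ∨ Gd z t u) : ∃ l, l ≠ pb ∧ ∃ c ∈ Wc Q Q' z s t, u = S.uu l * c := by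
  rcases c with c | c
  · exact ⟨pa, by decide, _, mul_mem (inv_mem S.uaW) c, (mul_inv_cancel_left _ _).symm⟩
  obtain ⟨v, m, a⟩ := S.of_gd hu.1 c
  refine (S.ev ⟨hu.1, S.E'.le_cent hu.2⟩ a m).resolve_left fun e => ?_
  obtain ⟨y, -, q⟩ := S.E'.exists_conj hu.2 fun k => (S.E'.mem_zp.1 k).elim c.1.2.1 fun k => c.1.2.2 (k ▸ S.zs)
  exact (q ▸ c.1.cj y).2.2 (b2_of S.M S.L (S.M.mul a S.r) (by erw [sqNorm_add, m.1, norm_e8, dot_E, e.1]; rfl)).1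

theorem WQ (hu : u ∈ Q) (c : u ∈ C(Q ⊓ C[t] ⊓ C[s])) : u ∈ Q' := ctr' S.M S.L hu (mem_cent.2 fun x m => mem_cent.1 c x (S.E1 m))

theorem cjz (b : A f h g) (a : R u v) (a' : R w (g • v)) : h * u * h⁻¹ = w ∨ h * u * h⁻¹ = w * z :=
  (S.M.uniq a' (S.M.act b a)).1 (.refl _)

theorem tr2 (hu : u ∈ Q) (hw : w ∈ Q) (a : Gd z t u) (b : Gd z t w) :
    ∃ h ∈ C[z] ⊓ C[t], h * u * h⁻¹ = w ∨ h * u * h⁻¹ = w * z := by
  obtain ⟨v, m, a⟩ := S.of_gd hu a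
  obtain ⟨v', m', b⟩ := S.of_gd hw b
  obtain ⟨g, k, rfl⟩ := co2_trans m m'
  obtain ⟨h, hh, e⟩ := S.lift k
  exact ⟨h, hh, S.cjz e a b⟩

theorem tr8 (hu : u ∈ Q ⊓ C[s]) (hw : w ∈ Q ⊓ C[s]) (a : Gd z t u) (b : Gd z t w) (n : u ∉ Q') (n' : w ∉ Q') :
    ∃ h ∈ C[z] ⊓ C[t], h ∈ C[s] ∧ (h * u * h⁻¹ = w ∨ h * u * h⁻¹ = w * z) := by
  have k : ∀ {u v}, u ∈ Q ⊓ C[s] → R u v → v ∈ Sh lU (-16) → u ∉ Q' → cf v pa = -2 ∧ cf v pb = -2 := fun hu a m n =>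
    (S.ev hu a m).resolve_right fun ⟨l, _, c, m, e⟩ => n (by
      rw [e] at hu ⊢
      exact mul_mem (S.uE l).2 (S.WQ ((Q.mul_mem_cancel_left (S.uE l).1).1 hu.1) m.1))
  obtain ⟨v, m, a⟩ := S.of_gd hu.1 a
  obtain ⟨v', m', b⟩ := S.of_gd hw.1 b
  have k1 := k hu a m n
  have k2 := k hw b m' n'
  obtain ⟨g, k, rfl⟩ := t8 m.1 m'.1 (k1.1.trans k2.1.symm) (k1.2.trans k2.2.symm) ⟨.inr k1.1, .inr k1.2⟩
  obtain ⟨h, hh, hs, e⟩ := S.liftH (H0_le k)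
  exact ⟨h, hh, hs, S.cjz e a b⟩

open Classical in
theorem trE (hu : u ∈ Q ⊓ C[t]) (hw : w ∈ Q ⊓ C[t]) (n : u ∉ C[s]) (n' : w ∉ C[s]) :
    ∃ y ∈ Q' ⊓ C[t] ⊓ C[z], w * (y * u * y⁻¹) ∈ Q ⊓ Q' := by
  have m := mul_mem hw.1 hu.1
  have ms : ∀ {u}, u ∈ Q → u ∉ C[s] → lm ℚ u s = -1 := fun _ n => lm_neg fun e => n (mem_cent1.2 e.symm)
  have io : ∀ {x u : G}, x * u = u * x ↔ lm ℚ u x = 1 := ⟨lm_pos, fun e => by_contra fun n => by rw [lm_neg n] at e; norm_num at e⟩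
  obtain ⟨y, hy, e⟩ := S.E'.exists_rep (A := Q ⊓ Q') S.sE inf_le_right (fun x => if x * (w * u) = w * u * x then 1 else s)
    (fun x _ => by split_ifs <;> simp) (fun x a y b => by
      simp only [io, lm_mul S.E a.1 b.1 m]
      unfold lm; split_ifs <;> simp_all [S.E'.zz])
    (if_pos (by rw [io, lm_mul' S.E hw.1 hu.1 S.L.tQ, ms hw.1 n', ms hu.1 n]; norm_num))
  have yz : y ∈ C[z] := mem_cent1.2 (comm_eq_one.1 ((e z S.zE).trans (if_pos (S.E.cent _ m).symm)))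
  have m' := (S.M.le.norm yz u).1 hu.1
  refine ⟨y, ⟨⟨hy, mem_cent1.2 (comm_eq_one.1 ((e t S.tE.1).trans (if_pos (mem_cent1.1 (mul_mem hw.2 hu.2)).symm)))⟩, yz⟩,
    S.cE.le ⟨mul_mem hw.1 m', mem_cent.2 fun x k => ?_⟩⟩
  have q := e x k
  rw [io, lm_mul' S.E hw.1 m' k.1, ← lm_cj y⁻¹ (y * u * y⁻¹), show y⁻¹ * (y * u * y⁻¹) * y⁻¹⁻¹ = u by group]
  split_ifs at q with c
  · rw [inv_inv, mul_assoc, ← comm_eq_one.1 q, inv_mul_cancel_left, ← lm_mul' S.E hw.1 hu.1 k.1, lm_pos c]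
  · rw [S.E'.conj_eq (inv_mem hy) k.2 (fun e => S.E'.z1 (q.symm.trans (comm_eq_one.2 (Commute.inv_left_iff.1 e)))),
      lm_mul S.E k.1 S.L.tQ hu.1, ms hu.1 n, ← mul_assoc, ← lm_mul' S.E hw.1 hu.1 k.1, lm_neg c]
    norm_num

theorem out (hu : u ∈ Q ⊓ C[t]) (n : u ∉ zpowers z ⊔ zpowers t) : ∃ h ∈ C[z] ⊓ C[t], h * u * h⁻¹ ∉ C[s] := by
  by_contra! H
  obtain ⟨v, a⟩ := S.M.tot u hu.1
  let A : AddSubgroup Lam :=
    { carrier := {w | 16 ∣ dotInt (cf v) (cf w)}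
      add_mem' := fun a b => (dvd_add a b).trans (dvd_of_eq (dotInt_add_right _ _ _).symm)
      zero_mem' := (dvd_zero _).trans (dvd_of_eq (dotInt_zero_right _).symm)
      neg_mem' := fun a => a.neg_right.trans (dvd_of_eq (H15.dotInt_neg_right _ _).symm) }
  have mU : lU ∈ A := (S.M.comm_iff S.L a S.rt).1 (mem_cent1.1 hu.2)
  refine n (S.cP.le ⟨hu.1, mem_cent.2 fun x m => ?_⟩)
  obtain ⟨w, b⟩ := S.M.tot x m.1
  refine ((S.M.comm_iff S.L a b).2 (H14.Mn.perp_gen (S := A) (fun w => ?_) mU (fun w h1 h2 => ?_) ?_)).symm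
  · obtain ⟨c, e⟩ : (8 : ℤ) ∣ dotInt (cf v) (cf w) := leech_dot v.2 w.2
    exact ⟨c, (dotInt_add_right _ _ _).trans (by rw [e]; ring)⟩
  · obtain ⟨g, k, rfl⟩ := trans93150 w ⟨h1, h2⟩
    obtain ⟨h, hh, e⟩ := S.lift (inv_mem k)
    have := (S.M.comm_iff S.L (S.M.act e a) S.r).1 (mem_cent1.1 (H h hh))
    rw [← co_dot g, smul_inv_smul] at this
    rw [eq_sub_of_add_eq' U_add, co_sub, mem_stabilizer_iff.1 k]
    exact sub_mem this mU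
  · exact (S.M.comm_iff S.L S.rt b).1 (mem_cent1.1 m.2).symm

theorem n9200 : 9200 ≤ {x | x ∈ Q ∧ Gd z t x}.ncard := by
  refine le_trans ?_ ((cnt S.M (n := 32) (by decide) fun v => v ∈ Sh lU (-16) ∪ Sh lU 16).trans (Set.ncard_le_ncard
    fun x ⟨v, _, m, a⟩ => ⟨S.M.mem a, m.elim (fun m => (S.gd_of a m).2) fun m =>
      (S.gd_of (S.M.cg a (Cg.neg v).symm) (neg_mem_Sh m)).2⟩))
  rw [show {v | sqNorm (cf v) = 32 ∧ v ∈ Sh lU (-16) ∪ Sh lU 16} = Sh lU (-16) ∪ Sh lU 16 from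
    Set.ext fun v => ⟨(·.2), fun h => ⟨h.elim (·.1) (·.1), h⟩⟩, Set.ncard_union_eq (Set.disjoint_left.2 fun _ a b =>
      absurd (a.2.symm.trans b.2) (by decide)) (Sh_fin _ _) (Sh_fin _ _), n4600,
    show (Sh lU 16).ncard = 4600 from (cen_U 6).trans (by decide +kernel)]

theorem nbig (a : R u (v0 + lE)) :
    953856 ≤ {x | ∃ h ∈ C[z] ⊓ C[t], h * u * h⁻¹ = x ∨ h * u * h⁻¹ = x * z}.ncard := by
  obtain ⟨w, c, n⟩ := big3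
  refine n.trans ((cnt S.M (n := 48) (by decide) _).trans (Set.ncard_le_ncard ?_))
  rintro x ⟨_, -, ⟨g, m, rfl⟩, b⟩
  obtain ⟨h, hh, e⟩ := S.lift m
  exact ⟨h, hh, S.cjz e (S.M.cg a c) b⟩

end St
end H1.RC
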