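import Cfsg.Agent.H1.RC6

/-! Weight multiplicities in a small representation of the centraliser of a `2A`-involution. -/

set_option autoImplicit false
set_option linter.unusedSectionVars false

namespace H1.RC
open Cfsg H15 H19 H0 H0.Mo H0.Mo.MT H0.Y H1.RB MulAction Finset Module
open Subgroup hiding mem_top
open scoped Classical commutatorElement

variable {G F V : Type*} [Group G] [Fintype G] [Field F] [NeZero (2 : F)] [AddCommGroup V] [Module F V]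
  [FiniteDimensional F V] {ρ : G → End F V} {Q Q' K : Subgroup G} {z s t u w x y h a : G} {f : C[z] →* Spor.Co1}
  {R : G → Lam → Prop} {v : Lam} {p q : End F V} {ε η : F}

structure Rr (t : G) (ρ : G → End F V) : Prop where
  rp : Rp C[t] ρ
  one : ρ 1 = 1
  t1 : ρ t = 1

noncomputable abbrev pl (ρ : G → End F V) (K : Subgroup G) (u : G) : End F V := pj ρ K (lm F u)
noncomputable def hs (ρ : G → End F V) (ε : F) (x : G) : End F V := (2 : F)⁻¹ • (1 + ε • ρ x)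
noncomputable def ee (ρ : G → End F V) (z s : G) (ε η : F) : End F V := hs ρ ε z * hs ρ η s

theorem hs_add : hs ρ 1 x + hs ρ (-1) x = 1 := by
  rw [hs, hs, ← smul_add, show 1 + (1 : F) • ρ x + (1 + (-1 : F) • ρ x) = (2 : F) • 1 by module, smul_smul,
    inv_mul_cancel₀ two_ne_zero, one_smul]
theorem hs_abs (e : ε * ε = 1) (k : ρ x * p = ε • p) : hs ρ ε x * p = p := by
  rw [hs, smul_mul_assoc, add_mul, smul_mul_assoc, k, smul_smul ε, e, one_smul, one_mul, ← two_smul F, smul_smul,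
    inv_mul_cancel₀ two_ne_zero, one_smul]
theorem hs_kill (e : ε * ε = 1) (k : ρ x * p = -ε • p) : hs ρ ε x * p = 0 := by
  rw [hs, smul_mul_assoc, add_mul, smul_mul_assoc, k, smul_smul ε, mul_neg, e]; simp
theorem hs_eqv {ρ' : G → End F V} (k : ρ' x * p = p * ρ y) : hs ρ' ε x * p = p * hs ρ ε y := by
  simp [hs, add_mul, mul_add, k]
theorem ee_abs (e : ε * ε = 1) (e' : η * η = 1) (k : ρ z * p = ε • p) (k' : ρ s * p = η • p) : ee ρ z s ε η * p = p := by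
  rw [ee, mul_assoc, hs_abs e' k', hs_abs e k]
theorem ee_add : ee ρ z s ε 1 + ee ρ z s ε (-1) = hs ρ ε z := by rw [ee, ee, ← mul_add, hs_add, mul_one]

namespace Rr
variable (r : Rr t ρ)
include r

theorem o (p : End F V) : ρ 1 * p = p := by rw [r.one, one_mul]
theorem o' (p : End F V) : p * ρ 1 = p := by rw [r.one, mul_one]
theorem cm (hx : x ∈ C[t]) (hy : y ∈ C[t]) (c : x * y = y * x) : ρ x * ρ y = ρ y * ρ x := by
  rw [← r.rp x hx y hy, c, r.rp y hy x hx]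
theorem hl (hx : x ∈ C[t]) (x2 : x * x = 1) (e : ε * ε = 1) : ρ x * hs ρ ε x = ε • hs ρ ε x := by
  rw [hs, mul_smul_comm, smul_comm ε, mul_add, mul_smul_comm, ← r.rp x hx x hx, x2, r.one, smul_add ε, smul_smul, e]
  simp [add_comm]
theorem hcj (hh : h ∈ C[t]) (hx : x ∈ C[t]) : ρ h * hs ρ ε x = hs ρ ε (h * x * h⁻¹) * ρ h := (hs_eqv (by
  rw [← r.rp _ (mul_mem (mul_mem hh hx) (inv_mem hh)) _ hh, inv_mul_cancel_right, r.rp h hh x hx])).symm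
theorem rkc (hh : h ∈ C[t]) (k : ρ h * p = q * ρ h) : rk p ≤ rk q := rk_cj r.rp hh (r.o p) k
theorem nzc (hh : h ∈ C[t]) (k : ρ h * p = q * ρ h) (n : p ≠ 0) : q ≠ 0 := fun e =>
  r.rp.nz hh (r.o p) n (by rw [k, e, zero_mul])
end Rr

structure Sm (ρ : G → End F V) (Q Q' : Subgroup G) (z s t : G) : Prop where
  mE : ∀ u ∈ Q ⊓ C[t], u ∉ C[s] → rk (pl ρ (Q ⊓ Q') u) = 1
  g1 : ∀ u ∈ Q, Gd z t u → rk (pl ρ (Q ⊓ C[t]) u) = 1
  cl : ∀ u ∈ Q, pl ρ (Q ⊓ C[t]) u = 0 ∨ u ∈ zpowers z ⊔ zpowers t ∨ Gd z t u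
  c : rk (pl ρ (Q ⊓ C[t]) 1) + 4348 ≤ finrank F V

namespace St
variable (S : St Q Q' z s t f R) (r : Rr t ρ)
include S

theorem mP (hu : u ∈ Q) : Mu C[t] (Q ⊓ C[t]) (lm F u) := mu_of S.E inf_le_left inf_le_right hu
theorem mE (hu : u ∈ Q) : Mu C[t] (Q ⊓ Q') (lm F u) := mu_of S.E inf_le_left S.Et hu
theorem mR (hu : u ∈ Q) : Mu C[t] (Q ⊓ C[t] ⊓ C[s]) (lm F u) :=
  mu_of S.E (inf_le_left.trans inf_le_left) (inf_le_left.trans inf_le_right) hu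
theorem zt : z ∈ C[t] := S.Et S.zE
theorem st : s ∈ C[t] := S.Et S.sE
theorem c4 : #(zpowers z ⊔ zpowers t : Subgroup G) = 4 :=
  card_four S.E.zz S.tE.2.1 (S.Ec S.zE S.tE.1) S.E.z1 S.tE.2.2.1 fun e => S.tE.2.2.2 (e ▸ .refl _)
theorem v4t (a : R u v) (m : u ∈ zpowers z ⊔ zpowers t) : Cg v 0 ∨ Cg v lU := by
  rcases (mem_four S.E.zz S.tE.2.1 (S.Ec S.zE S.tE.1)).1 m with e | e | e | e
  exacts [.inl ((S.M.rk a).1 (e ▸ one_mem _)), .inl ((S.M.rk a).1 (e ▸ mem_zpowers _)),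
    .inr ((S.M.uniq S.rt a).2 (.inl e)).symm, .inr ((S.M.uniq S.rt a).2 (.inr (e.trans (S.Ec S.zE S.tE.1)))).symm]
theorem plz (e : x = w ∨ x = w * z) (k : K ≤ C[z]) : pl ρ K x = pl ρ K w :=
  e.elim (· ▸ rfl) fun e => by rw [e]; exact pj_mul (le_cent1_iff.1 k)

include r

theorem ez (e : ε * ε = 1) : ρ z * ee ρ z s ε η = ε • ee ρ z s ε η := by
  rw [ee, ← mul_assoc, r.hl S.zt S.E.zz e, smul_mul_assoc]
theorem ecm : ee ρ z s ε η = ee ρ s z η ε := hs_eqv (hs_eqv (r.cm S.st S.zt S.L.comm.symm)).symm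
theorem es (e : η * η = 1) : ρ s * ee ρ z s ε η = η • ee ρ z s ε η := by
  rw [S.ecm r, ee, ← mul_assoc, r.hl S.st S.E'.zz e, smul_mul_assoc]
theorem eid (e : ε * ε = 1) (e' : η * η = 1) : ee ρ z s ε η * ee ρ z s ε η = ee ρ z s ε η := ee_abs e e' (S.ez r e) (S.es r e')
theorem ea (m : a ∈ Q ⊓ C[t]) (n : a ∉ C[s]) (e : ε * ε = 1) : ρ a * ee ρ z s ε η = ee ρ z s ε (ε * η) * ρ a := by
  rw [ee, ← mul_assoc, r.hcj m.2 S.zt, mul_assoc, r.hcj m.2 S.st, S.E.cent a m.1, mul_inv_cancel_right,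
    S.E.conj_eq m.1 S.L.tQ (mt mem_cent1.2 n), ← mul_assoc, ee, ← S.L.comm]
  have := (hs_eqv (ρ' := ρ) (x := z) (p := ρ z) (ε := ε) rfl).trans (r.hl S.zt S.E.zz e)
  generalize hs ρ ε z = w at this
  rw [hs, hs, r.rp z S.zt s S.st]
  simp only [mul_smul_comm, mul_add, ← mul_assoc, this, smul_mul_assoc, smul_smul, mul_comm ε]
theorem eN (hh : h ∈ C[z] ⊓ C[t]) (hs : h ∈ C[s]) : ρ h * ee ρ z s ε η = ee ρ z s ε η * ρ h := by
  rw [ee, ← mul_assoc, r.hcj hh.2 S.zt, mul_assoc, r.hcj hh.2 S.st, mem_cent1.1 hh.1, mem_cent1.1 hs, mul_inv_cancel_right,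
    mul_inv_cancel_right, mul_assoc]
theorem cjP (hh : h ∈ C[z] ⊓ C[t]) (u : G) : ρ h * pl ρ (Q ⊓ C[t]) u = pl ρ (Q ⊓ C[t]) (h * u * h⁻¹) * ρ h :=
  lm_cjn r.rp hh.2 inf_le_right (S.nP hh) u
theorem cjE (hh : h ∈ C[z] ⊓ C[t]) (hs : h ∈ C[s]) (u : G) : ρ h * pl ρ (Q ⊓ Q') u = pl ρ (Q ⊓ Q') (h * u * h⁻¹) * ρ h :=
  lm_cjn r.rp hh.2 S.Et (S.L.cent_norm_E ⟨hh.1, hs⟩) u
theorem kt (hu : u ∈ Q) (k : K ≤ Q ⊓ C[t]) (m : t ∈ K) (n : u ∉ C[t]) : pl ρ K u = 0 := by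
  rw [← mul_one (pl ρ K u)]
  exact (mu_of S.E (k.trans inf_le_left) (k.trans inf_le_right) hu).kill r.rp m (by
    rw [r.t1, lm_neg fun e => n (mem_cent1.2 e.symm)]; simp)
theorem EP (hu : u ∈ Q) (hw : w ∈ Q) (e : u * w ∈ Q ⊓ Q') : pl ρ (Q ⊓ Q') w * pl ρ (Q ⊓ C[t]) u = pl ρ (Q ⊓ C[t]) u := by
  rw [pl, ← pj_eq S.E inf_le_left hu hw (S.cE.ge e).2]
  exact (S.mE hu).sub (S.mP hu) r.rp (S.E1.trans inf_le_left) fun _ _ => rfl
theorem PE (hu : u ∈ Q) (hw : w ∈ Q) (e : u * w ∉ Q ⊓ Q') : pl ρ (Q ⊓ C[t]) u * pl ρ (Q ⊓ Q') w = 0 := by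
  obtain ⟨y, m, k⟩ := lm_ne (F := F) S.E inf_le_left hu hw fun c => e (S.cE.le ⟨mul_mem hu hw, c⟩)
  exact (S.mP hu).kill r.rp (S.E1 m).1 (k ▸ (S.mE hw).l r.rp m)

theorem rkE (hz : ρ z ≠ 1) (hn : finrank F V ≤ 4371) : (∀ u ∈ Q ⊓ C[t], u ∉ C[s] → rk (pl ρ (Q ⊓ Q') u) = 1) ∧
    rk (hs ρ 1 z) + 2048 ≤ finrank F V := by
  obtain ⟨a, -, a1, a2, -⟩ := S.p0
  obtain ⟨f', R', S'⟩ := S.symm
  obtain ⟨b, -, b1, b2, -⟩ := S'.p0
  have k : ∀ {u w}, u ∈ Q ⊓ C[t] → w ∈ Q ⊓ C[t] → u ∉ C[s] → w ∉ C[s] → rk (pl ρ (Q ⊓ Q') u) ≤ rk (pl ρ (Q ⊓ Q') w) :=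
    fun hu hw n n' => by
      obtain ⟨y, m, e⟩ := S.trE hu hw n n'
      refine r.rkc m.1.2 ((S.cjE r ⟨m.2, m.1.2⟩ (S.E'.le_cent m.1.1) _).trans ?_)
      rw [pl, pl, pj_eq S.E inf_le_left hw.1 ((Q.mul_mem_cancel_left hw.1).1 e.1) (S.cE.ge e).2]
  obtain ⟨x, hx, nx⟩ := S.E.exists_not_comm S.tE.1.1 fun m => (S.E.mem_zp.1 m).elim S.tE.2.2.1
    fun e => S.tE.2.2.2 (e ▸ .refl _)
  have cP := half_card S.E le_rfl S.tE.1.1 hx fun c => nx (mem_cent1.1 c).symm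
  have cR := half_card S.E inf_le_left S.L.tQ a1 a2
  rw [S.M.card] at cP
  have b := rk_pj r.rp S.E inf_le_left S.Et (univ.filter (· ∈ Q ⊓ C[t]) \ univ.filter (· ∈ Q ⊓ C[t] ⊓ C[s]))
    (e := ee ρ z s 1 (-1)) (by simp +contextual) fun u hu => by
      simp only [mem_sdiff, mem_filter, mem_univ, true_and] at hu
      refine ee_abs (by simp) (by simp) ?_ ?_
      · rw [(S.mE hu.1.1).l r.rp S.zE, lm_pos (S.E.cent u hu.1.1).symm]
      · rw [(S.mE hu.1.1).l r.rp S.sE, lm_neg fun e => hu.2 ⟨hu.1, mem_cent1.2 e.symm⟩]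
  rw [sum_congr rfl (g := fun _ => rk (pl ρ (Q ⊓ Q') a)) fun u hu => by
    simp only [mem_sdiff, mem_filter, mem_univ, true_and] at hu
    exact le_antisymm (k hu.1 a1 (fun e => hu.2 ⟨hu.1, e⟩) a2) (k a1 hu.1 a2 fun e => hu.2 ⟨hu.1, e⟩), sum_const,
    card_sdiff_of_subset (by intro; simp +contextual), card_fil, card_fil, S.cE, S.M.card_E S.L, smul_eq_mul,
    show #(Q ⊓ C[t]) - #(Q ⊓ C[t] ⊓ C[s]) = 2 ^ 23 by omega] at b
  have i := fun ε η => S.eid r (ε := ε) (η := η)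
  have e1 := fun ε η e => r.rkc b1.2 (S'.ea r b1 b2 (ε := ε) (η := η) e)
  have e2 := fun ε η e => r.rkc a1.2 (S.ea r a1 a2 (ε := ε) (η := η) e)
  simp only [S'.ecm r] at e1
  have h1 := e1 (-1) 1 (by simp)
  have h2 := e1 (-1) (-1) (by simp)
  have h3 := e2 (-1) (-1) (by simp)
  have h4 := e2 (-1) 1 (by simp)
  simp only [mul_one, mul_neg, neg_neg] at h1 h2 h3 h4
  have hz' := fun ε e => r.hl S.zt S.E.zz (ε := ε) e
  have h5 := rk_add (i (-1) 1 (by simp) (by simp)) (c := ee ρ z s (-1) (-1)) (e := hs ρ (-1) z) (by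
    rw [ee, mul_assoc, hs_kill (by simp) (S.es r (by simp)), mul_zero]) (hs_abs (by simp) (S.ez r (by simp)))
    (hs_abs (by simp) (S.ez r (by simp)))
  have h6 := rk_add (hs_abs (by simp) (hz' 1 (by simp))) (hs_kill (by simp) (hz' (-1) (by simp))) (one_mul _) (one_mul _)
  have h7 := rk_le (hs_abs (by simp) (S.ez r (ε := 1) (η := -1) (by simp)))
  rw [rk1] at h6
  have m : rk (pl ρ (Q ⊓ Q') a) ≠ 0 := fun e => hz (by
    have z1 := pj_all (F := F) (ρ := ρ) S.E inf_le_left S.zE (p := ee ρ z s 1 (-1)) (q := 1) (by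
      rw [add_mul, r.o, S.ez r (by simp), one_smul]) fun u hu => by
        rw [one_mul]
        by_cases c : u ∈ C[t]
        · by_cases c' : u ∈ C[s]
          · exact (S.mE hu).kill r.rp S.sE (by rw [S.es r (by simp), lm_pos (mem_cent1.1 c').symm])
          · rw [← pl, rk_zero (Nat.le_zero.1 ((k ⟨hu, c⟩ a1 c' a2).trans e.le)), zero_mul]
        · rw [← pl, S.kt r hu (S.E1.trans inf_le_left) S.tE.1 c, zero_mul]
    rw [one_mul] at z1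
    rw [z1, rk0] at h2
    have := ee_add (ρ := ρ) (z := z) (s := s) (ε := -1)
    rw [rk_zero (e := ee ρ z s (-1) 1) (by omega), rk_zero (e := ee ρ z s (-1) (-1)) (by omega), add_zero, hs, eq_comm,
      smul_eq_zero, neg_one_smul, add_neg_eq_zero] at this
    exact (this.resolve_left (inv_ne_zero two_ne_zero)).symm)
  exact ⟨fun u hu n => le_antisymm ((k hu a1 n a2).trans (by omega)) ((k a1 hu a2 n).trans' (by omega)), by omega⟩

theorem sm (hz : ρ z ≠ 1) (hn : finrank F V ≤ 4371) : Sm ρ Q Q' z s t := by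
  obtain ⟨mE, hp⟩ := S.rkE r hz hn
  obtain ⟨a, ra, a1, a2, ga⟩ := S.p0
  have uq : ∀ {u u' w}, u ∈ Q → u' ∈ Q → w ∈ Q ⊓ C[t] → w ∉ C[s] → u * w ∈ Q ⊓ Q' → u' * w ∈ Q ⊓ Q' →
      pl ρ (Q ⊓ C[t]) u ≠ 0 → pl ρ (Q ⊓ C[t]) u' ≠ 0 → u * u' ∈ zpowers z ⊔ zpowers t := fun hu hu' hw n e e' k k' => by
    by_contra c
    have := rk_add ((S.mP hu).idem r.rp) (pj_orth r.rp S.E inf_le_left inf_le_right hu hu' fun d =>
      c (S.cP.le ⟨mul_mem hu hu', d⟩)) (S.EP r hu hw.1 e) (S.EP r hu' hw.1 e')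
    have := mt rk_zero k; have := mt rk_zero k'; have := mE _ hw n
    unfold pl at *; omega
  have Pz : Q ⊓ C[t] ≤ C[z] := inf_le_left.trans S.E.le_cent
  have na : pl ρ (Q ⊓ C[t]) a ≠ 0 := by
    obtain ⟨u, hu, n⟩ : ∃ u ∈ Q, 1 * (pl ρ (Q ⊓ C[t]) u * pl ρ (Q ⊓ Q') a) ≠ 0 := by
      by_contra! H
      exact rk_nz (mE a a1 a2) ((one_mul _).symm.trans (pj_all S.E inf_le_left ⟨S.E.zQ, S.zt⟩ (by
        rw [add_mul, r.o, (S.mE a1.1).l r.rp S.zE, lm_pos (S.E.cent a a1.1).symm, one_smul]) H))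
    have e : u * a ∈ Q ⊓ Q' := by_contra fun c => n (by rw [S.PE r hu a1.1 c, mul_zero])
    replace n : pl ρ (Q ⊓ C[t]) u ≠ 0 := fun c => n (by rw [c, zero_mul, mul_zero])
    obtain ⟨h, hh, hs, b⟩ := S.liftH β_Hb
    obtain ⟨v, ru⟩ := S.M.tot u hu
    have e' : h * u * h⁻¹ * a ∈ Q ⊓ Q' := by
      have := (S.L.cent_norm_E ⟨hh.1, hs⟩ _).1 e
      rw [← conj_mul] at this
      rcases S.cjz b ra (β_v0.symm ▸ ra) with q | q <;> rw [q] at this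
      exacts [this, (mul_mem_cancel_right S.zE).1 (mul_assoc _ a z ▸ this)]
    have c := S.v4t (S.M.mul (S.M.act b ru) ru) (uq (S.M.mem (S.M.act b ru)) hu a1 a2 e' e (r.nzc hh.2 (S.cjP r hh u) n) n)
    have big : ∀ u, R u (v0 + lE) → pl ρ (Q ⊓ C[t]) u = 0 := fun u k => by
      by_contra n
      have c := S.nbig k
      rw [Set.ncard_eq_toFinset_card'] at c
      have m : ∀ x ∈ {x | ∃ h ∈ C[z] ⊓ C[t], h * u * h⁻¹ = x ∨ h * u * h⁻¹ = x * z}.toFinset, x ∈ Q ∧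
          pl ρ (Q ⊓ C[t]) x ≠ 0 := fun x m => by
        obtain ⟨h, hh, e⟩ := Set.mem_toFinset.1 m
        have := (S.M.le.norm hh.1 u).1 (S.M.mem k)
        exact ⟨e.elim (· ▸ this) fun e => (Q.mul_mem_cancel_right S.E.zQ).1 (e ▸ this),
          S.plz (ρ := ρ) e Pz ▸ r.nzc hh.2 (S.cjP r hh u) n⟩
      have := (card_nsmul_le_sum _ _ 1 fun x k => Nat.pos_of_ne_zero (mt rk_zero (m x k).2)).trans
        (rk_pj r.rp S.E inf_le_left inf_le_right _ (fun x k => (m x k).1) (e := 1) fun _ _ => one_mul _)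
      rw [S.cP, S.c4, rk1, smul_eq_mul] at this
      omega
    have kt : ∀ {w x}, R x w → Cg v w ∨ Cg v (w + lU) → pl ρ (Q ⊓ C[t]) u = pl ρ (Q ⊓ C[t]) x := fun b c => by
      rcases c with c | c
      · exact S.plz ((S.M.uniq b ru).1 c.symm) Pz
      · rw [S.plz ((S.M.uniq (S.M.mul b S.rt) ru).1 c.symm) Pz]; exact pj_mul S.tP
    obtain ⟨x, rx⟩ := S.M.sur (v0 + lE)
    rcases or_assoc.2 (fix11 (c.imp Cg.add_zero.1 fun c => Cg.trans ⟨-v, by rw [two_nsmul]; abel⟩ (add_comm lU v ▸ c.add (.refl v)))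
      (fun c => a2 ((C[s].mul_mem_cancel_left (mem_cent1.2 ((S.M.comm_iff S.L ru S.r).2 c))).1 (S.E1 e).2))
      ((S.M.comm_iff S.L ru S.rt).1 (mem_cent1.1 ((C[t].mul_mem_cancel_right a1.2).1 (S.Et e))))) with c | c
    · exact kt ra c ▸ n
    · exact absurd ((kt rx c).trans (big x rx)) n
  have r1 : rk (pl ρ (Q ⊓ C[t]) a) = 1 := le_antisymm (mE a a1 a2 ▸ rk_le (S.EP r a1.1 a1.1 (ga.1.1 ▸ one_mem _)))
    (Nat.pos_of_ne_zero (mt rk_zero na))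
  have k : ∀ {u w}, u ∈ Q → w ∈ Q → Gd z t u → Gd z t w → rk (pl ρ (Q ⊓ C[t]) u) ≤ rk (pl ρ (Q ⊓ C[t]) w) := fun hu hw a b => by
    obtain ⟨h, hh, e⟩ := S.tr2 hu hw a b
    exact S.plz (ρ := ρ) e Pz ▸ r.rkc hh.2 (S.cjP r hh _)
  have g1 : ∀ u ∈ Q, Gd z t u → rk (pl ρ (Q ⊓ C[t]) u) = 1 := fun u hu g =>
    le_antisymm (r1 ▸ k hu a1.1 g ga) (r1 ▸ k a1.1 hu ga g)
  refine ⟨mE, g1, fun u hu => ?_, ?_⟩
  · refine or_iff_not_imp_left.2 fun n => or_iff_not_imp_left.2 fun n' => ?_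
    have ut : u ∈ Q ⊓ C[t] := ⟨hu, by_contra fun c => n (S.kt r hu le_rfl ⟨S.tE.1.1, mem_cent1_self t⟩ c)⟩
    obtain ⟨h, hh, c⟩ := S.out ut n'
    have m := (S.nP hh u).1 ut
    obtain ⟨y, my, e⟩ := S.trE a1 m a2 c
    have yc : y ∈ C[z] ⊓ C[t] := ⟨my.2, my.1.2⟩
    have m' := (S.nP yc a).1 a1
    have g := ga.cj my.1.2
    have := S.gd_mul m'.1 g (uq m'.1 m.1 m' (fun d => c ((C[s].mul_mem_cancel_right d).1 (S.E1 e).2)) (g.1.1 ▸ one_mem _) e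
      (rk_nz (g1 _ m'.1 g)) (r.nzc hh.2 (S.cjP r hh u) n))
    rw [← mul_assoc, g.1.1, one_mul] at this
    simpa [mul_assoc] using this.cj (inv_mem hh.2)
  · have c := S.n9200
    rw [Set.ncard_eq_toFinset_card'] at c
    have zt := S.cP.ge
    have := rk_pj r.rp S.E inf_le_left inf_le_right (univ.filter (· ∈ zpowers z ⊔ zpowers t) ∪ {x | x ∈ Q ∧ Gd z t x}.toFinset)
      (fun x k => (mem_union.1 k).elim (fun k => (zt (mem_filter.1 k).2).1) fun k => (Set.mem_toFinset.1 k).1) (e := hs ρ 1 z)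
      fun x k => by
        have m := (mem_union.1 k).elim (fun k => (zt (mem_filter.1 k).2).1) fun k => (Set.mem_toFinset.1 k).1
        exact hs_abs (by simp) (by rw [(S.mP m).l r.rp ⟨S.E.zQ, S.zt⟩, lm_pos (S.E.cent x m).symm])
    rw [sum_union (disjoint_left.2 fun x k k' => ?_), sum_congr rfl (g := fun _ => rk (pl ρ (Q ⊓ C[t]) 1)) fun x k => by
      rw [← one_mul x, pj_mul (zt (mem_filter.1 k).2).2], sum_congr rfl (g := fun _ => 1) fun x k =>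
        g1 x (Set.mem_toFinset.1 k).1 (Set.mem_toFinset.1 k).2, sum_const, sum_const, card_fil, S.cP, S.c4] at this
    · simp only [smul_eq_mul] at this; omega
    obtain ⟨v, m, b⟩ := S.of_gd (Set.mem_toFinset.1 k').1 (Set.mem_toFinset.1 k').2
    rcases S.v4t b (mem_filter.1 k).2 with c | c
    · exact Mo.nz_of m.1 (by decide) c
    · have := m.2
      rcases c.short (m.1.trans_le (by decide)) (norm_U.trans_lt (by decide)) with rfl | rfl <;> exact absurd this (by decide +kernel)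

end St
end H1.RC
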