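import Cfsg.Agent.H1.RC5
import Cfsg.Agent.H1.RC7

/-! The fixed space of `E` and the 23-dimensional part. -/

set_option autoImplicit false
set_option linter.unusedSectionVars false

namespace H1.RC
open Cfsg H15 H19 H0 H0.Mo H0.Mo.MT H0.Y H1.RB MulAction Finset Module
open Subgroup hiding mem_top
open scoped Classical commutatorElement

variable {G F V : Type*} [Group G] [Fintype G] [Field F] [NeZero (2 : F)] [AddCommGroup V] [Module F V]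
  [FiniteDimensional F V] {ρ : G → End F V} {Q Q' K : Subgroup G} {z s t u w x y h a b : G} {f : C[z] →* Spor.Co1}
  {f' : C[s] →* Spor.Co1} {R R' : G → Lam → Prop} {v : Lam} {p q D : End F V} {ε η : F} {i j k l : GolayPt} {g : Co0}

theorem cg_ba : Cg (vv pb j) (vv pa j + lE + lU) := ⟨-e8 pa 1, lam_ext fun p => by
  simp only [U_vv, two_nsmul, cf_sub, cf_add, cf_neg, cf_vv, cf_e8, Pi.single_apply]; split_ifs <;> rfl⟩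
theorem lm_if {C : Finset GolayPt} (e : x * u = u * x ↔ j ∉ C) : lm F u x = if j ∈ C then -1 else 1 := by
  unfold lm; simp only [e]; split_ifs <;> rfl
theorem wt_eq {α β : F} (n : p ≠ 0) (e : α • p = β • p) : α = β := smul_left_injective F n e

namespace St
variable (S : St Q Q' z s t f R) (S' : St Q' Q s z t f' R') (r : Rr t ρ) (m : Sm ρ Q Q' z s t) (m' : Sm ρ Q' Q s z t)
include S

noncomputable def T (ρ : G → End F V) (j : GolayPt) : End F V := pl ρ (Q' ⊓ C[t] ⊓ C[z]) (S.uu j) * pl ρ (Q ⊓ C[t]) 1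
noncomputable def lf (g : Co0) : G := if m : g ∈ sCo2 then (S.lift m).choose else 1
noncomputable def pi (ρ : G → End F V) (g : Co0) : End F V := ρ (S.lf g) * pl ρ (Q ⊓ C[t]) 1

theorem ztW : zpowers z ⊔ zpowers t ≤ Wc Q Q' z s t := sup_le (zpowers_le.2 S.zW) (zpowers_le.2 S.tW)
theorem ztE : zpowers z ⊔ zpowers t ≤ Q ⊓ Q' := sup_le (zpowers_le.2 S.zE) (zpowers_le.2 S.tE.1)
theorem sn : s ∉ zpowers z ⊔ zpowers t := fun c => (S.v4t S.r c).elim nz_E fun c => by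
  rcases c.short (norm_e8 _).le (norm_U.trans_lt (by decide)) with e | e <;> exact absurd e (by decide +kernel)
theorem split (hu : u ∈ Q) : pl ρ (Q ⊓ C[t] ⊓ C[s]) u = pl ρ (Q ⊓ C[t]) u + pl ρ (Q ⊓ C[t]) (u * s) :=
  let ⟨_, _, a1, a2, _⟩ := S.p0; pj_split S.E inf_le_left S.L.tQ (half_card S.E inf_le_left S.L.tQ a1 a2) hu
theorem unc (a : j ≠ pa) (b : j ≠ pb) : S.uu j ∉ C(Q ⊓ C[t] ⊓ C[s]) ∧ S.uu j ∉ C(Q' ⊓ C[t] ⊓ C[z]) := by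
  obtain ⟨C, hC, m, k⟩ := pat (i := j) [pa, pb] (by simp) (by simp [a, b])
  obtain ⟨x, mx, e⟩ := S.xsg hC (k _ (by simp)) (k _ (by simp))
  obtain ⟨y, my, e'⟩ := S.ysg hC (k _ (by simp)) (k _ (by simp))
  exact ⟨fun c => (e j).1 (mem_cent.1 c x mx) m, fun c => (S.uy my e' (k _ (by simp))).1 (mem_cent.1 c y my) m⟩
theorem lf1 (m : g ∈ sCo2) : S.lf g ∈ C[z] ⊓ C[t] ∧ A f (S.lf g) g := by rw [lf, dif_pos m]; exact (S.lift m).choose_spec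

include r
theorem c23 (hh : h ∈ C[z] ⊓ C[t]) : ρ h * pl ρ (Q ⊓ C[t]) 1 = pl ρ (Q ⊓ C[t]) 1 * ρ h := by
  rw [S.cjP r hh, mul_one, mul_inv_cancel]
theorem q23 (hx : x ∈ Q ⊓ C[t]) : ρ x * pl ρ (Q ⊓ C[t]) 1 = pl ρ (Q ⊓ C[t]) 1 := by
  rw [(S.mP (one_mem Q)).l r.rp hx, lm_one, one_smul]
theorem i23 : pl ρ (Q ⊓ C[t]) 1 * pl ρ (Q ⊓ C[t]) 1 = pl ρ (Q ⊓ C[t]) 1 := (S.mP (one_mem Q)).idem r.rp
theorem cT : pl ρ (Q' ⊓ C[t] ⊓ C[z]) u * pl ρ (Q ⊓ C[t]) 1 = pl ρ (Q ⊓ C[t]) 1 * pl ρ (Q' ⊓ C[t] ⊓ C[z]) u :=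
  pj_eqv fun _ m => S.c23 r ⟨m.2, m.1.2⟩
theorem T23 : pl ρ (Q ⊓ C[t]) 1 * S.T ρ j = S.T ρ j := by rw [T, S.cT r, ← mul_assoc, S.i23 r]
theorem T23' : S.T ρ j * pl ρ (Q ⊓ C[t]) 1 = S.T ρ j := by rw [T, mul_assoc, S.i23 r]
theorem pi_eq (hh : h ∈ C[z] ⊓ C[t]) (e : A f h g) (m : g ∈ sCo2) : S.pi ρ g = ρ h * pl ρ (Q ⊓ C[t]) 1 := by
  have k := S.lf1 m
  have k' : (S.lf g)⁻¹ * h ∈ C[t] := (mul_mem (inv_mem k.1) hh).2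
  rw [pi, ← mul_inv_cancel_left (S.lf g) h, ← r.rp.ap k.1.2 k', S.q23 r ⟨(S.M.aker (k.2.inv.mul e)).2 (by simp [one_mem]), k'⟩]
theorem cR (hu : u ∈ Q ⊓ Q') (hy : y ∈ Q' ⊓ C[t] ⊓ C[z]) : ρ y * pl ρ (Q ⊓ C[t] ⊓ C[s]) u = pl ρ (Q ⊓ C[t] ⊓ C[s]) u * ρ y := by
  rw [lm_cjn r.rp hy.1.2 (inf_le_left.trans inf_le_right) (S.nR ⟨hy.2, hy.1.2⟩ (S.E'.le_cent hy.1.1))]
  rcases S.E'.conj_cases hy.1.1 hu.2 with e | e <;> rw [e]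
  rw [pj_mul S.sW.1]
theorem fW (hu : u ∈ Q ⊓ C[s]) (n : u ∉ Q') : (ee ρ z s 1 1 - pl ρ (Q ⊓ Q') 1) * pl ρ (Q ⊓ C[t]) u = pl ρ (Q ⊓ C[t]) u := by
  obtain ⟨y, m, k⟩ := lm_ne (F := F) S.E inf_le_left (one_mem Q) hu.1 fun c => n (S.cE.le ⟨hu.1, one_mul u ▸ c⟩).2
  rw [sub_mul, (S.mE (one_mem Q)).kill r.rp m (k ▸ (S.mP hu.1).l r.rp (S.E1 m).1), sub_zero]
  exact ee_abs (by simp) (by simp) (by rw [(S.mP hu.1).l r.rp (S.E1 S.zE).1, lm_pos (S.E.cent u hu.1).symm])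
    (by rw [(S.mP hu.1).l r.rp (S.E1 S.sE).1, lm_pos (mem_cent1.1 hu.2).symm])

include S'
theorem mv (hb : b ∈ Q' ⊓ C[t]) (n : b ∉ C[z]) (hu : u ∈ Q ⊓ Q') (hw : w ∈ Q ⊓ Q') (e1 : pl ρ (Q ⊓ C[t] ⊓ C[s]) w * p = p)
    (e2 : pl ρ (Q' ⊓ C[t] ⊓ C[z]) u * p = p) : pl ρ (Q ⊓ C[t] ⊓ C[s]) (w * u) * (ρ b * p) = ρ b * p ∧
      pl ρ (Q' ⊓ C[t] ⊓ C[z]) u * (ρ b * p) = ρ b * p := by
  have w1 := fun y hy => (S.mR hw.1).l' (y := y) r.rp hy e1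
  have w2 := fun y hy => (S'.mR hu.2).l' (y := y) r.rp hy e2
  obtain ⟨b1, b2⟩ := Subgroup.mem_inf.1 hb
  have k : ∀ y ∈ C[t], ρ y * (ρ b * p) = ρ b * (ρ (b⁻¹ * y * b) * p) := fun y m => by
    rw [r.rp.ap m b2, r.rp.ap b2 (mul_mem (mul_mem (inv_mem b2) m) b2), mul_assoc, mul_inv_cancel_left]
  refine ⟨(S.mR (mul_mem hw.1 hu.1)).pl fun y m => ?_, (S'.mR hu.2).pl fun y m => ?_⟩
  · obtain ⟨y1, y2, y3⟩ : y ∈ Q ∧ y ∈ C[t] ∧ y ∈ C[s] := ⟨m.1.1, m.1.2, m.2⟩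
    have yz := S.E.le_cent y1
    have q := (S.L.r.norm (inv_mem y3) _).1 (inv_mem b1)
    rw [inv_inv] at q
    have n' : b⁻¹ ∉ C[z] := mt inv_mem_iff.1 n
    have c0 : y⁻¹ * b⁻¹ * y * b ∈ C[t] := mul_mem (mul_mem (mul_mem (inv_mem y2) (inv_mem b2)) y2) b2
    have c : y⁻¹ * b⁻¹ * y * b ∈ Q' ⊓ C[t] ⊓ C[z] := ⟨⟨mul_mem q b1, c0⟩,
      by simpa using (S.L.symm.mul_inv_mem (inv_mem b1) q n' fun c =>
        n' ((mul_mem_cancel_left (inv_mem yz)).1 ((mul_mem_cancel_right yz).1 c))).2⟩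
    have o : lm F u b⁻¹ * lm F u b = 1 := by rw [← lm_mul S.E' (inv_mem b1) b1 hu.2, inv_mul_cancel, lm_comm, lm_one]
    rw [k y y2, show b⁻¹ * y * b = y * (y⁻¹ * b⁻¹ * y * b) by group, ← r.rp.ap y2 c.1.2, w2 _ c, mul_smul_comm, w1 y m,
      smul_smul, mul_smul_comm, lm_mul' S.E hw.1 hu.1 y1, mul_comm, lm_mul S.E' q b1 hu.2, ← lm_cj y u,
      show y * (y⁻¹ * b⁻¹ * y) * y⁻¹ = b⁻¹ by group]
    by_cases e : y * u = u * y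
    · rw [lm_pos e, e, mul_inv_cancel_right, o]
    · rw [lm_neg e, S.E.conj_eq y1 hu.1 e, lm_mul' S.E' hu.2 S.L.zQ (inv_mem b1), lm_neg (u := z) (mt mem_cent1.2 n'),
        mul_right_comm, o, one_mul]
  · rw [k y m.1.2, ← inv_inv b, inv_inv b⁻¹]
    rcases S.E'.conj_cases (inv_mem b1) m.1.1 with e | e <;> rw [e]
    · rw [w2 y m, mul_smul_comm]
    · rw [← r.rp.ap m.1.2 S.st, w1 s (S.E1 S.sE), lm_pos (S.Ec S.sE hw), one_smul, w2 y m, mul_smul_comm]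

omit S' in
include m in
theorem g1 : pl ρ (Q ⊓ C[t] ⊓ C[s]) 1 = pl ρ (Q ⊓ C[t]) 1 := by
  rw [S.split (one_mem Q), one_mul, (m.cl s S.L.tQ).resolve_right fun c => c.elim S.sn fun c => c.1.2.2 S.zs, add_zero]
omit S' in
include m in
theorem r1 (hu : u ∈ Q) (g : Gd z t u) (n : u ∉ Q') : pl ρ (Q ⊓ C[t] ⊓ C[s]) u = pl ρ (Q ⊓ C[t]) u := by
  rw [S.split hu, (m.cl _ (mul_mem hu S.L.tQ)).resolve_right fun c => n (c.elim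
    (fun c => (Q'.mul_mem_cancel_right S.E'.zQ).1 (S.ztE c).2) fun c => memQ' S.M S.L hu g.1 c.1), add_zero]
omit S' in
include m in
theorem rk2 (hu : u ∈ Q) (n : u ∉ C(Q ⊓ C[t] ⊓ C[s])) : rk (pl ρ (Q ⊓ C[t] ⊓ C[s]) u) ≤ 2 := by
  have k : ∀ {u}, u ∈ Q → u ∉ C(Q ⊓ C[t] ⊓ C[s]) → rk (pl ρ (Q ⊓ C[t]) u) ≤ 1 := fun {u} hu n => by
    rcases m.cl u hu with c | c | c
    exacts [by rw [c, rk0]; omega, absurd (S.ztW c).1 n, (m.g1 u hu c).le]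
  rw [S.split hu]
  exact rk_add_le.trans (add_le_add (k hu n) (k (mul_mem hu S.L.tQ) fun c => n ((Subgroup.mul_mem_cancel_right _ S.sW.1).1 c)))
omit S' in
include m in
theorem nzg (hu : u ∈ Q) (g : Gd z t u) : pl ρ (Q ⊓ C[t] ⊓ C[s]) u ≠ 0 := fun e => rk_nz (m.g1 u hu g) (by
  have k : pl ρ (Q ⊓ C[t] ⊓ C[s]) u * pl ρ (Q ⊓ C[t]) u = pl ρ (Q ⊓ C[t]) u := (S.mR hu).sub (S.mP hu) r.rp inf_le_left fun _ _ => rfl
  rw [← k, e, zero_mul])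

omit r in
include m in
theorem nzR (hu : u ∈ Q ⊓ Q') (n : pl ρ (Q ⊓ C[t] ⊓ C[s]) u ≠ 0) : u ∈ Wc Q Q' z s t ∨ Gd z t u := by
  rw [S.split hu.1] at n
  rcases m.cl u hu.1 with c | c | c
  rcases m.cl _ (mul_mem hu.1 S.L.tQ) with c' | c' | c'
  · simp [c, c'] at n
  · exact .inl ((mul_mem_cancel_right S.sW).1 (S.ztW c'))
  · by_cases e : u ∈ C(Q' ⊓ C[t])
    · exact .inl (S'.ztW (S'.cP.le ⟨hu.2, e⟩)).symm
    obtain ⟨y, my, e⟩ : ∃ y ∈ Q' ⊓ C[t], y * u ≠ u * y := by by_contra! H; exact e (mem_cent.2 H)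
    rw [← S.E'.conj_eq my.1 hu.2 e] at c'
    exact .inr (by simpa [mul_assoc] using c'.cj (inv_mem (Subgroup.mem_inf.1 my).2))
  exacts [.inl (S.ztW c), .inr c]
omit r in
include m in
theorem cl1 (hu : u ∈ Q ⊓ Q') (n : pl ρ (Q ⊓ C[t] ⊓ C[s]) u ≠ 0) :
    ∃ l, l ≠ pb ∧ pl ρ (Q ⊓ C[t] ⊓ C[s]) u = pl ρ (Q ⊓ C[t] ⊓ C[s]) (S.uu l) :=
  let ⟨l, a, _, c, e⟩ := S.clsE hu (S.nzR S' m hu n); ⟨l, a, e ▸ pj_mul c.1⟩
omit r in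
include m' in
theorem cl2 (hu : u ∈ Q ⊓ Q') (n : pl ρ (Q' ⊓ C[t] ⊓ C[z]) u ≠ 0) :
    ∃ l, l ≠ pb ∧ pl ρ (Q' ⊓ C[t] ⊓ C[z]) u = pl ρ (Q' ⊓ C[t] ⊓ C[z]) (S.uu l) :=
  let ⟨l, a, _, c, e⟩ := S.clsE hu ((S'.nzR S m' hu.symm n).imp And.symm fun g => g.base S'.zs); ⟨l, a, e ▸ pj_mul c.2⟩

theorem Tw (j : GolayPt) : pl ρ (Q' ⊓ C[t] ⊓ C[z]) (S.uu j) * S.T ρ j = S.T ρ j := (S'.mR (S.uE j).2).idem' r.rp _
theorem Ti (j : GolayPt) : S.T ρ j * S.T ρ j = S.T ρ j := by rw [T, mul_assoc, ← T, S.T23 r, S.Tw S' r]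
theorem kE (hu : u ∈ Q) (n : u ∉ Q') (e : ∀ y ∈ Q ⊓ Q', ρ y * p = p) : pl ρ (Q ⊓ C[t] ⊓ C[s]) u * p = 0 := by
  obtain ⟨y, m, k⟩ := lm_ne (F := F) S.E inf_le_left hu (one_mem Q) fun c => n (S.cE.le ⟨hu, mul_one u ▸ c⟩).2
  exact (S.mR hu).kill r.rp (S.E1 m) (by rw [e y m, ← k, lm_one, one_smul])

include m m'
theorem mvT (hb : b ∈ Q' ⊓ C[t]) (n : b ∉ C[z]) (j : GolayPt) : pl ρ (Q ⊓ C[t] ⊓ C[s]) (S.uu j) * (ρ b * S.T ρ j) = ρ b * S.T ρ j ∧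
    pl ρ (Q' ⊓ C[t] ⊓ C[z]) (S.uu j) * (ρ b * S.T ρ j) = ρ b * S.T ρ j := by
  simpa using S.mv S' r hb n (S.uE j) (one_mem _) (by rw [S.g1 r m, S.T23 r]) (S.Tw S' r j)

theorem Tnz (a : j ≠ pa) (b : j ≠ pb) : S.T ρ j ≠ 0 := by
  obtain ⟨y, -, y1, y2, -⟩ := S'.p0
  have q := S'.nzg r m' (S.uE j).2 ((S.ug a b).base S.zs)
  have qE : ∀ y ∈ Q ⊓ Q', ρ y * pl ρ (Q' ⊓ C[t] ⊓ C[z]) (S.uu j) = pl ρ (Q' ⊓ C[t] ⊓ C[z]) (S.uu j) := fun y m => by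
    rw [(S'.mR (S.uE j).2).l r.rp (S.E2 m), lm_pos (S.Ec m (S.uE j)), one_smul]
  obtain ⟨u, hu, n⟩ : ∃ u ∈ Q, 1 * (pl ρ (Q ⊓ C[t] ⊓ C[s]) u * pl ρ (Q' ⊓ C[t] ⊓ C[z]) (S.uu j)) ≠ 0 := by
    by_contra! H
    exact q ((one_mul _).symm.trans (pj_all S.E (inf_le_left.trans inf_le_left) (S.E1 S.zE) (by rw [add_mul, r.o, qE z S.zE]) H))
  rw [one_mul] at n
  have e : u ∈ Q ⊓ Q' := ⟨hu, by_contra fun c => n (S.kE S' r hu c qE)⟩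
  obtain ⟨k, kb, e⟩ := S.cl1 S' m e fun c => n (by rw [c, zero_mul])
  rw [e] at n
  have k0 : ∀ {x}, x ≠ 0 → pl ρ (Q ⊓ C[t] ⊓ C[s]) 1 * x = x → pl ρ (Q' ⊓ C[t] ⊓ C[z]) (S.uu j) * x = x → S.T ρ j ≠ 0 :=
    fun n a b c => n (by rw [← b, ← a, S.g1 r m, ← mul_assoc, ← T, c, zero_mul])
  have e1 := (S.mR (F := F) (S.uE k).1).idem' r.rp (pl ρ (Q' ⊓ C[t] ⊓ C[z]) (S.uu j))
  have e2 : pl ρ (Q' ⊓ C[t] ⊓ C[z]) (S.uu j) * (pl ρ (Q ⊓ C[t] ⊓ C[s]) (S.uu k) * pl ρ (Q' ⊓ C[t] ⊓ C[z]) (S.uu j)) =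
      pl ρ (Q ⊓ C[t] ⊓ C[s]) (S.uu k) * pl ρ (Q' ⊓ C[t] ⊓ C[z]) (S.uu j) := by
    rw [← mul_assoc, pj_eqv fun _ => S.cR r (S.uE k), mul_assoc, (S'.mR (S.uE j).2).idem r.rp]
  by_cases ka : k = pa
  · have k1 : pl ρ (Q ⊓ C[t] ⊓ C[s]) 1 = pl ρ (Q ⊓ C[t] ⊓ C[s]) (S.uu k) := by
      rw [ka, ← one_mul (S.uu pa)]; exact (pj_mul S.uaW.1).symm
    exact k0 n (by rw [k1]; exact e1) e2
  obtain ⟨f1, f2⟩ := S.mv S' r y1 y2 (S.uE j) (S.uE k) e1 e2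
  have n' := r.rp.nz y1.2 (r.o _) n
  by_cases kj : k = j
  · exact k0 n' (by rw [← (S.ug a b).1.1]; nth_rw 1 [← kj]; exact f1) f2
  obtain ⟨l, lb, e'⟩ := S.cl1 S' m (mul_mem (S.uE k) (S.uE j)) fun c => n' (by rw [← f1, c, zero_mul])
  obtain ⟨C, hC, c1, c2, c3⟩ : ∃ C ∈ cw, pa ∉ C ∧ pb ∉ C ∧ ((k ∈ C ↔ j ∈ C) ↔ l ∈ C) := by
    by_cases lk : l = k
    · obtain ⟨C, hC, m, c⟩ := pat (i := j) [pa, pb, k] (by simp) (by simp [a, b, Ne.symm kj])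
      exact ⟨C, hC, by simp_all⟩
    · obtain ⟨C, hC, m, c⟩ := pat (i := k) [pa, pb, j, l] (by simp) (by simp [ka, kb, kj, Ne.symm lk])
      exact ⟨C, hC, by simp_all⟩
  obtain ⟨x, mx, ex⟩ := S.xsg hC c1 c2
  have := wt_eq n' (((S.mR (mul_mem (S.uE k) (S.uE j)).1).l' r.rp mx f1).symm.trans ((S.mR (S.uE l).1).l' r.rp mx (by rw [← pl, ← e']; exact f1)))
  rw [lm_mul' S.E (S.uE k).1 (S.uE j).1 mx.1.1, lm_if (ex k), lm_if (ex j), lm_if (ex l)] at this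
  have o : (1 : F) ≠ -1 := fun e => two_ne_zero (by linear_combination e : (2 : F) = 0)
  by_cases k ∈ C <;> by_cases j ∈ C <;> by_cases l ∈ C <;> simp_all [o.symm]

theorem T0mv (hb : b ∈ Q' ⊓ C[t]) (n : b ∉ C[z]) (a : j ≠ pa) (a' : j ≠ pb) : pl ρ (Q ⊓ C[t]) 1 * (ρ b * S.T ρ j) = 0 := by
  rw [← (S.mvT S' r m m' hb n j).1, ← S.g1 r m, ← mul_assoc, pj_orth r.rp S.E (inf_le_left.trans inf_le_left)
    (inf_le_left.trans inf_le_right) (one_mem Q) (S.uE j).1 (by rw [one_mul]; exact (S.unc a a').1), zero_mul]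

theorem c2 (hn : finrank F V ≤ 4371) : C2 (S.pi ρ) (S.T ρ) := by
  have sg : ∀ {C} (hC : C ∈ cw), pa ∉ C → pb ∉ C → ∃ y ∈ Q' ⊓ C[t] ⊓ C[z], S.pi ρ (sgn hC) = ρ y * pl ρ (Q ⊓ C[t]) 1 ∧
      ∀ j, lm F (S.uu j) y = if j ∈ C then -1 else 1 := fun hC a b =>
    let ⟨y, m, e⟩ := S.ysg hC a b; ⟨y, m, S.pi_eq r ⟨m.2, m.1.2⟩ e (sgn_U hC a b), fun _ => lm_if (S.uy m e a)⟩
  have p1 : S.pi ρ 1 = pl ρ (Q ⊓ C[t]) 1 := by rw [S.pi_eq r (one_mem _) (.one (one_mem _)) (one_mem _), r.o]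
  have ort : ∀ i j, i ≠ j → i ≠ pb → j ≠ pb → pl ρ (Q' ⊓ C[t] ⊓ C[z]) (S.uu i) * S.T ρ j = 0 := fun i j n hi hj => by
    obtain ⟨C, hC, a, b, c⟩ : ∃ C ∈ cw, pa ∉ C ∧ pb ∉ C ∧ ¬ (i ∈ C ↔ j ∈ C) := by
      by_cases e : i = pa
      · obtain ⟨C, hC, m, a⟩ := pat (i := j) [pa, pb] (by simp) (by simp [hj, ← e, n.symm])
        exact ⟨C, hC, by simp_all⟩
      · obtain ⟨C, hC, m, a⟩ := pat (i := i) [pa, pb, j] (by simp) (by simp [hi, e, n])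
        exact ⟨C, hC, by simp_all⟩
    obtain ⟨y, my, -, e⟩ := sg hC a b
    refine (S'.mR (S.uE i).2).kill r.rp my ?_
    rw [(S'.mR (S.uE j).2).l' r.rp my (S.Tw S' r j), e, e]
    by_cases i ∈ C <;> simp_all
  have r1 : ∀ j, j ≠ pa → j ≠ pb → rk (S.T ρ j) = 1 := fun j a b => by
    obtain ⟨y, -, y1, y2, -⟩ := S'.p0
    have := rk_add (S.Ti S' r j) (by
      have := S.T0mv S' r m m' y1 y2 a b
      calc _ = S.T ρ j * pl ρ (Q ⊓ C[t]) 1 * (ρ y * S.T ρ j) := by rw [S.T23' r]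
        _ = 0 := by rw [mul_assoc, this, mul_zero]) (S.Tw S' r j)
      (S.mvT S' r m m' y1 y2 j).2
    have := S'.rk2 r m' (S.uE j).2 (S.unc a b).2
    have := mt rk_zero (S.Tnz S' r m m' a b)
    have := mt rk_zero (r.rp.nz y1.2 (r.o _) (S.Tnz S' r m m' a b))
    omega
  refine ⟨fun g a g' b => ?_, ?_, S.Ti S' r, fun j C hC a b => ?_, fun j C hC a b => ?_, fun σ e j => ?_, ?_, r1, fun o => ?_⟩
  · have k := S.lf1 a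
    have k' := S.lf1 b
    rw [S.pi_eq r (mul_mem k.1 k'.1) (k.2.mul k'.2) (mul_mem a b), pi, pi, mul_assoc, ← mul_assoc _ (ρ _), ← S.c23 r k'.1,
      mul_assoc, S.i23 r, r.rp.ap k.1.2 k'.1.2]
  · have wE : ∀ y ∈ Q ⊓ C[t], ρ y * (pl ρ (Q ⊓ C[t]) 1 - ∑ j ∈ univ.erase pb, S.T ρ j) = _ := fun y m => by
      rw [mul_sub, S.q23 r m, mul_sum, sum_congr rfl fun j _ => by rw [← S.T23 r, ← mul_assoc, S.q23 r m, S.T23 r]]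
    rw [p1, ← sub_eq_zero, ← one_mul (_ - _)]
    refine pj_all (F := F) (ρ := ρ) S.E' (inf_le_left.trans inf_le_left) (S.E2 S.sE) (by rw [add_mul, r.o, wE s (S.E1 S.sE).1])
      fun u hu => ?_
    rw [one_mul]
    by_cases e : u ∈ Q
    · by_cases n : pl ρ (Q' ⊓ C[t] ⊓ C[z]) u = 0
      · rw [← pl, n, zero_mul]
      obtain ⟨l, lb, e⟩ := S.cl2 S' m' ⟨e, hu⟩ n
      rw [← pl, e, mul_sub, mul_sum, sum_eq_single_of_mem l (mem_erase.2 ⟨lb, mem_univ _⟩) fun j mj n =>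
        ort l j n.symm lb (mem_erase.1 mj).1, S.Tw S' r, T, sub_self]
    · exact S'.kE S r hu e fun y m => wE y (S.E1 m.symm).1
  · obtain ⟨y, my, e, e'⟩ := sg hC a b
    rw [e, mul_assoc, S.T23 r, (S'.mR (S.uE j).2).l' r.rp my (S.Tw S' r j), e']
  · obtain ⟨y, my, e, e'⟩ := sg hC a b
    rw [e, S.c23 r ⟨my.2, my.1.2⟩, ← mul_assoc, S.T23' r, T, S.cT r, mul_assoc, (S'.mR (S.uE j).2).r r.rp my, e', mul_smul_comm]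
  · obtain ⟨h, hh, hs, b⟩ := S.liftH (prm_Hb e)
    obtain ⟨c, mc, q⟩ := S.same (S.M.act b (S.ru j)) (S.ru (σ.1 j)) (by
      rw [prm_vv]; exact e.elim (fun e => .inl (by rw [e.1]; exact .refl _)) fun e => .inr (.inr (.inr (by rw [e.1]; exact cg_ba))))
    rw [S.pi_eq r hh b (prm_Hb e).1, mul_assoc, S.T23 r, T, ← mul_assoc, lm_cjn r.rp hh.2 (inf_le_left.trans inf_le_right)
      (S'.nR ⟨hs, hh.2⟩ hh.1), q, pj_mul mc.2, T, mul_assoc, mul_assoc, S.c23 r hh, ← mul_assoc (pl ρ (Q ⊓ C[t]) 1), S.i23 r]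
  · rw [T, T, ← one_mul (S.uu pb), ← one_mul (S.uu pa)]
    exact congrArg (· * _) ((pj_mul S.ubW.2).trans (pj_mul S.uaW.2).symm)
  · have := rk_sum (univ.erase pb) (fun j _ => S.Ti S' r j) (fun i a j b n => o i j n (mem_erase.1 a).1 (mem_erase.1 b).1)
      fun j _ => S.T23 r
    rw [← add_sum_erase _ _ (show pa ∈ _ by decide), sum_congr rfl (g := fun _ => 1) fun j a =>
      r1 j (mem_erase.1 a).1 (mem_erase.1 (mem_erase.1 a).2).1, sum_const, show ((univ.erase pb).erase pa).card = 22 by decide,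
      smul_eq_mul] at this
    have := m.c; omega

theorem low (hn : finrank F V ≤ 4371) : 4371 ≤ finrank F V := by
  have c := S.c2 S' r m m' hn
  have := rk_sum (univ.erase pb) (fun j _ => S.Ti S' r j) (fun i a j b n => c.orth n (mem_erase.1 a).1 (mem_erase.1 b).1)
    fun j _ => S.T23 r
  rw [← add_sum_erase _ _ (show pa ∈ _ by decide), sum_congr rfl (g := fun _ => 1) fun j a =>
    c.r1 j (mem_erase.1 a).1 (mem_erase.1 (mem_erase.1 a).2).1, sum_const, show ((univ.erase pb).erase pa).card = 22 by decide,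
    smul_eq_mul, c.r0'] at this
  have := m.c; omega

theorem kill2 (hb : b ∈ Q' ⊓ C[t]) (n : b ∉ C[z]) (ha : a ∈ Q ⊓ C[t]) (n' : a ∉ C[s]) (c : j ≠ pa) (c' : j ≠ pb)
    (d1 : D * (ρ b * S.T ρ j) = 0) (d2 : D * (ρ a * (ρ b * S.T ρ j)) = 0) : D * pl ρ (Q ⊓ C[t] ⊓ C[s]) (S.uu j) = 0 := by
  obtain ⟨e1, e2⟩ := S.mvT S' r m m' hb n j
  obtain ⟨e3, e4⟩ := S'.mv S r ha n' (S.uE j).symm (S.uE j).symm e2 e1
  have z := r.rp.nz hb.2 (r.o _) (S.Tnz S' r m m' c c')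
  rw [(S.ug c c').1.1] at e3
  exact two_kill (S.rk2 r m (S.uE j).1 (S.unc c c').1) e1 e4 z (r.rp.nz ha.2 (r.o _) z) e2 (by
    rw [← e3, ← mul_assoc, pj_orth r.rp S.E' (inf_le_left.trans inf_le_left) (inf_le_left.trans inf_le_right) (S.uE j).2
      (one_mem Q') (by rw [mul_one]; exact (S.unc c c').2), zero_mul]) d1 d2

omit m' in
theorem kill0 (zp : ρ z * p = p) (sp : ρ s * p = p) (d1 : ∀ u ∈ Q ⊓ Q', D * (pl ρ (Q ⊓ C[t] ⊓ C[s]) u * p) = 0)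
    (d2 : ∀ u ∈ Q ⊓ C[s], Gd z t u → u ∉ Q' → D * pl ρ (Q ⊓ C[t]) u = 0) : D * p = 0 := by
  refine pj_all (F := F) (ρ := ρ) S.E (inf_le_left.trans inf_le_left) (S.E1 S.zE) (by rw [add_mul, r.o, zp]) fun u hu => ?_
  by_cases c : u ∈ C[s]
  · by_cases e : u ∈ Q'
    · exact d1 u ⟨hu, e⟩
    have k : ∀ u ∈ Q ⊓ C[s], u ∉ Q' → D * pl ρ (Q ⊓ C[t]) u = 0 := fun u hu n => by
      rcases m.cl u hu.1 with c | c | c
      exacts [by rw [c, mul_zero], absurd (S.ztE c).2 n, d2 u hu c n]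
    rw [← pl, S.split hu, ← mul_assoc, mul_add, k u ⟨hu, c⟩ e, k _ (mul_mem ⟨hu, c⟩ ⟨S.L.tQ, mem_cent1_self s⟩)
      fun c => e ((Q'.mul_mem_cancel_right S.E'.zQ).1 c), add_zero, zero_mul]
  · rw [(S.mR hu).kill r.rp (S.E1 S.sE) (by rw [sp, lm_neg fun e => c (mem_cent1.2 e.symm)]; simp), mul_zero]

end St
end H1.RC
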