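import Cfsg.Agent.H1.RC8

/-! Equivariant maps on the three constituents of the restriction to `C(z)`. -/

set_option autoImplicit false
set_option linter.unusedSectionVars false

namespace H1.RC
open Cfsg H15 H19 H0 H0.Mo H0.Mo.MT H0.Y H1.RB MulAction Finset Module
open Subgroup hiding mem_top
open scoped Classical commutatorElement

variable {G F V : Type*} [Group G] [Fintype G] [Field F] [NeZero (2 : F)] [AddCommGroup V] [Module F V]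
  [FiniteDimensional F V] {ρ ρ' : G → End F V} {Q Q' K H : Subgroup G} {z s t u w x y h a b k : G} {f : C[z] →* Spor.Co1}
  {f' : C[s] →* Spor.Co1} {R R' : G → Lam → Prop} {v v' : Lam} {p q D φ ψ : End F V} {ε η : F} {i j l : GolayPt} {g : Co0}

def Ev (ρ ρ' : G → End F V) (H : Subgroup G) (φ : End F V) : Prop := ∀ g ∈ H, ρ' g * φ = φ * ρ g
theorem Ev.mono (e : Ev ρ ρ' H φ) (le : K ≤ H) : Ev ρ ρ' K φ := fun g m => e g (le m)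
theorem Ev.add (e : Ev ρ ρ' H φ) (e' : Ev ρ ρ' H ψ) : Ev ρ ρ' H (φ + ψ) := fun g m => by rw [mul_add, add_mul, e g m, e' g m]
theorem Ev.sub (e : Ev ρ ρ' H φ) (e' : Ev ρ ρ' H ψ) (c : F) : Ev ρ ρ' H (φ - c • ψ) := fun g m => by
  rw [mul_sub, sub_mul, mul_smul_comm, smul_mul_assoc, e g m, e' g m]
theorem Ev.mr (e : Ev ρ ρ' H φ) (c : ∀ g ∈ H, ρ g * p = p * ρ g) : Ev ρ ρ' H (φ * p) := fun g m => by
  rw [← mul_assoc, e g m, mul_assoc, c g m, mul_assoc]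
theorem Ev.pl (e : Ev ρ ρ' H φ) (le : K ≤ H) (u : G) : pl ρ' K u * (φ * p) = φ * (pl ρ K u * p) := by
  rw [← mul_assoc, pj_eqv (e.mono le), mul_assoc]
theorem Ev.zr (e : Ev ρ ρ' H D) (m : y ∈ H) (c : D * p = 0) : D * (ρ y * p) = 0 := by
  rw [← mul_assoc, ← e y m, mul_assoc, c, mul_zero]
theorem Rr.mv (r : Rr t ρ) (hh : h ∈ C[t]) (c : ρ h * p = q * ρ h) (e : D * (ρ h * p) = 0) : D * q = 0 := by
  rw [← r.rp.rinv hh (r.o' (D * q)), mul_assoc D, ← c, e, zero_mul]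
theorem Rr.hc (r : Rr t ρ) (hh : h ∈ C[t]) (hx : x ∈ C[t]) (c : h ∈ C[x]) : ρ h * hs ρ ε x = hs ρ ε x * ρ h := by
  rw [r.hcj hh hx, mem_cent1.1 c, mul_inv_cancel_right]
theorem shq (a : v ∈ Sh lU (-16)) (b : v' ∈ Sh lU (-16)) (c : Cg v v') : v = v' :=
  (c.short (a.1.trans_le (by decide)) (b.1.trans_lt (by decide))).resolve_right fun e => by
    have := a.2
    rw [e] at this
    have := (H15.dotInt_neg_right (cf lU) (cf v')).symm.trans this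
    have := b.2; omega

namespace St
variable (S : St Q Q' z s t f R) (S' : St Q' Q s z t f' R') (r : Rr t ρ) (r' : Rr t ρ') (m : Sm ρ Q Q' z s t)
  (m' : Sm ρ Q' Q s z t) (n : Sm ρ' Q Q' z s t) (n' : Sm ρ' Q' Q s z t)
include S

theorem PC : Q ⊓ C[t] ≤ C[z] ⊓ C[t] := inf_le_inf_right _ S.E.le_cent
theorem R1N : Q ⊓ C[t] ⊓ C[s] ≤ C[z] ⊓ C[t] ⊓ C[s] := inf_le_inf_right _ S.PC
theorem R2N : Q' ⊓ C[t] ⊓ C[z] ≤ C[z] ⊓ C[t] ⊓ C[s] := fun _ m => ⟨⟨m.2, m.1.2⟩, S.E'.le_cent m.1.1⟩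
theorem stab (b : A f h g) (ra : R a v) (e : Cg (g • v) v ∨ Cg (g • v) (v + lU)) :
    pl ρ (Q ⊓ C[t]) (h * a * h⁻¹) = pl ρ (Q ⊓ C[t]) a := by
  have Pz : Q ⊓ C[t] ≤ C[z] := S.PC.trans inf_le_left
  rcases e with e | e
  · exact S.plz ((S.M.uniq ra (S.M.act b ra)).1 e.symm) Pz
  · rw [S.plz ((S.M.uniq (S.M.mul ra S.rt) (S.M.act b ra)).1 e.symm) Pz]; exact pj_mul S.tP

include r
theorem k1 (ha : a ∈ Q ⊓ C[t]) (c : a ∉ C[s]) (d : ∀ y ∈ Q' ⊓ C[t] ⊓ C[z], D * (ρ y * pl ρ (Q ⊓ Q') a) = 0) :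
    D * ee ρ z s 1 (-1) = 0 := by
  refine pj_all (F := F) (ρ := ρ) S.E inf_le_left S.zE (by rw [add_mul, r.o, S.ez r (by simp), one_smul]) fun u hu => ?_
  by_cases e : u ∈ C[t]
  · by_cases e' : u ∈ C[s]
    · rw [(S.mE hu).kill r.rp S.sE (by rw [S.es r (by simp), lm_pos (mem_cent1.1 e').symm]), mul_zero]
    obtain ⟨y, my, e⟩ := S.trE ha ⟨hu, e⟩ c e'
    rw [← mul_assoc, pj_eq S.E inf_le_left hu ((Q.mul_mem_cancel_left hu).1 e.1) (S.cE.ge e).2,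
      r.mv my.1.2 (S.cjE r (S.R2N my).1 (S.R2N my).2 a) (d y my), zero_mul]
  · rw [← pl, S.kt r hu (S.E1.trans inf_le_left) S.tE.1 e, zero_mul, mul_zero]
theorem km (ha : a ∈ Q ⊓ C[t]) (c : a ∉ C[s]) (e : ρ' a * D = D * ρ a) (d : D * ee ρ z s (-1) η = 0) :
    D * ee ρ z s (-1) (-η) = 0 := by
  simpa using r.mv ha.2 (S.ea r ha c (ε := -1) (η := η) (by simp)) (by rw [← mul_assoc, ← e, mul_assoc, d, mul_zero])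
theorem eN' : ∀ h ∈ C[z] ⊓ C[t] ⊓ C[s], ρ h * ee ρ z s ε η = ee ρ z s ε η * ρ h := fun _ m => S.eN r m.1 m.2
theorem c24 : ∀ h ∈ C[z] ⊓ C[t], ρ h * (hs ρ 1 z - pl ρ (Q ⊓ C[t]) 1) = (hs ρ 1 z - pl ρ (Q ⊓ C[t]) 1) * ρ h := fun _ m => by
  rw [mul_sub, sub_mul, S.c23 r m, r.hc m.2 S.zt m.1]
theorem zP' (hu : u ∈ Q) : ρ z * pl ρ (Q ⊓ C[t]) u = pl ρ (Q ⊓ C[t]) u := by
  rw [(S.mP hu).l r.rp (S.E1 S.zE).1, lm_pos (S.E.cent u hu).symm, one_smul]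
theorem i24 (e : ρ z * p = p) (e' : pl ρ (Q ⊓ C[t]) 1 * p = 0) : (hs ρ 1 z - pl ρ (Q ⊓ C[t]) 1) * p = p := by
  rw [sub_mul, e', sub_zero, hs_abs (by simp) (by rw [e, one_smul])]

include m in
theorem EeP (hu : u ∈ Q ⊓ C[t]) (g : Gd z t u) (c : u ∉ C[s]) : pl ρ (Q ⊓ Q') u = pl ρ (Q ⊓ C[t]) u := by
  have e := S.EP r hu.1 hu.1 (g.1.1 ▸ one_mem _)
  have e' : pl ρ (Q ⊓ C[t]) u * pl ρ (Q ⊓ Q') u = pl ρ (Q ⊓ C[t]) u := by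
    rw [← pj_eqv (ρ := ρ) (ρ' := ρ) fun y m => ((S.mP hu.1).l r.rp (S.E1 m).1).trans ((S.mP hu.1).r r.rp (S.E1 m).1).symm, e]
  have i := (S.mE (F := F) hu.1).idem r.rp
  obtain ⟨α, c⟩ := prop1 (m.mE u hu c) (m.mE u hu c) i i e e' (rk_nz (m.g1 u hu.1 g))
  rw [← e', show pl ρ (Q ⊓ Q') u = _ from c, mul_smul_comm, (S.mP hu.1).idem r.rp]

include m r' in
theorem inj (e : Ev ρ ρ' (C[z] ⊓ C[t]) φ) (ha : a ∈ Q) (g : Gd z t a) (c : φ * pl ρ (Q ⊓ C[t]) a ≠ 0) (hw : w ∈ Q)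
    (c1 : w ∉ zpowers z ⊔ zpowers t) (c2 : pl ρ (Q ⊓ C[t]) w * p ≠ 0) : φ * p ≠ 0 := fun c3 => by
  have g' := ((m.cl w hw).resolve_left fun e => c2 (by rw [e, zero_mul])).resolve_left c1
  obtain ⟨h, hh, q⟩ := S.tr2 hw ha g' g
  refine nz_mul (m.g1 w hw g') (fun d => c (S.plz (ρ := ρ) q (S.PC.trans inf_le_left) ▸ r.mv hh.2 (S.cjP r hh w) (e.zr hh d))) c2 ?_
  rw [← e.pl S.PC, c3, mul_zero]

include r' in
theorem kN (hk : k ∈ Q' ⊓ C[t]) (e : Ev ρ ρ' (C[z] ⊓ C[t]) φ) : Ev ρ ρ' (C[z] ⊓ C[t] ⊓ C[s]) (ρ' k⁻¹ * φ * ρ k) := fun g m => by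
  obtain ⟨k1, k2⟩ := Subgroup.mem_inf.1 hk
  obtain ⟨g1, g2, g3⟩ : g ∈ C[z] ∧ g ∈ C[t] ∧ g ∈ C[s] := ⟨m.1.1, m.1.2, m.2⟩
  refine kk r.rp r'.rp k2 g2 (e _ (Subgroup.mem_inf.2 ⟨mem_cent1.2 ?_, mul_mem (mul_mem k2 g2) (inv_mem k2)⟩))
  have : g * (k⁻¹ * z * k⁻¹⁻¹) = k⁻¹ * z * k⁻¹⁻¹ * g := by
    rcases S.E'.conj_cases (inv_mem k1) S.L.zQ with e | e <;> rw [e]
    exacts [mem_cent1.1 g1, by rw [← mul_assoc, mem_cent1.1 g1, mul_assoc, mem_cent1.1 g3, mul_assoc]]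
  calc _ = k * (g * (k⁻¹ * z * k⁻¹⁻¹)) * k⁻¹ := by group
    _ = _ := by rw [this]; group

include S' r' m' n' in
theorem fm : ∃ φ, Ev ρ ρ' (C[z] ⊓ C[t]) φ ∧ φ * hs ρ (-1) z = φ ∧ φ ≠ 0 := by
  obtain ⟨a, -, a1, a2, -⟩ := S.p0
  obtain ⟨b, -, b1, b2, -⟩ := S'.p0
  have M := S'.mE (F := F) b1.1
  have bz : lm F b z = -1 := lm_neg fun e => b2 (mem_cent1.2 e.symm)
  obtain ⟨η, η0, η1, η2⟩ := ex1 (m'.mE b b1 b2) (n'.mE b b1 b2) (M.idem r.rp) (M.idem r'.rp)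
  obtain ⟨Φ, e1, e2, -⟩ := orb r.rp r'.rp (H := Q ⊓ C[t]) inf_le_right (r.o' η) (r'.o η) η2 fun d hd => by
    by_cases c : d ∈ Q'
    · right; rw [M.l' r'.rp ⟨c, hd.1⟩ η1, ← η2, mul_assoc, M.r r.rp ⟨c, hd.1⟩, mul_smul_comm]
    obtain ⟨y, my, e⟩ : ∃ y ∈ Q ⊓ Q', y * d ≠ d * y := by
      by_contra! H; exact c (S.cE.le ⟨hd.1, mem_cent.2 H⟩).2
    have q := S.E.conj_eq (inv_mem hd.1) my.1 fun c => e (Commute.inv_left_iff.1 c).symm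
    refine .inl (M.kill r.rp my.symm ?_)
    rw [r.rp.ap (S.Et my) hd.2, show y * d = d * (y * z) by rw [← q]; group, ← r.rp.ap hd.2 (S.Et (mul_mem my S.zE)),
      M.l r.rp (mul_mem my S.zE).symm, lm_mul S'.E my.2 S.L.zQ b1.1, bz, mul_neg_one, mul_smul_comm]
  have hc := fun g (m : g ∈ C[z] ⊓ C[t]) => r.hc (ε := (-1 : F)) m.2 S.zt m.1
  have e3 : Ev ρ ρ' (Q ⊓ C[t]) (Φ * hs ρ (-1) z) := Ev.mr e1 fun g m => hc g (S.PC m)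
  have e4 : Φ * hs ρ (-1) z * pl ρ (Q' ⊓ Q) b = η := by rw [mul_assoc, hs_abs (by simp) (bz ▸ M.l r.rp S'.sE), e2]
  have e5 : Φ * hs ρ (-1) z * hs ρ (-1) z = Φ * hs ρ (-1) z := by
    rw [mul_assoc, hs_abs (by simp) (r.hl S.zt S.E.zz (by simp))]
  generalize Φ * hs ρ (-1) z = φ at *
  refine ⟨φ, fun g m => ?_, e5, fun c => η0 (by rw [← e4, c, zero_mul])⟩
  refine (((perf S.M S.rt).trans (sup_le (chr (F := F) r.rp r'.rp (r.o' φ) (r'.o φ) inf_le_right fun g m => ?_) fun g m =>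
    ⟨m.2, e3 g m⟩)) m).2
  have gi : g⁻¹ ∈ C[z] ⊓ C[t] := inv_mem m
  have e6 : Ev ρ ρ' (Q ⊓ C[t]) (ρ' g⁻¹⁻¹ * φ * ρ g⁻¹) := fun x k => kk r.rp r'.rp gi.2 k.2 (e3 _ ((S.nP gi x).1 k))
  rw [inv_inv] at e6
  obtain ⟨α, e⟩ := prop1 (m'.mE b b1 b2) (n'.mE b b1 b2) (a := ρ' g * φ * ρ g⁻¹ * pl ρ (Q' ⊓ Q) b)
    (by rw [e6.pl (S'.E2.trans inf_le_left), M.idem r.rp]) (by rw [mul_assoc, M.idem r.rp]) η1 η2 η0
  have e7 := e6.sub e3 α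
  have k1 := S'.k1 r b1 b2 fun y k => e7.zr k.1 (by rw [sub_mul, e, smul_mul_assoc, e4, sub_self])
  rw [← S.ecm r] at k1
  have k2 := congrArg (· * ρ g) (show _ * hs ρ (-1) z = 0 by rw [← ee_add, mul_add, k1, S.km r a1 a2 (e7 a a1) k1, add_zero])
  simp only [sub_mul, smul_mul_assoc, e5, mul_assoc, ← hc g m, zero_mul, sub_eq_zero, r.rp.inv m.2 (r.o _)] at k2
  exact ⟨α, k2⟩

include S' r' m n in
theorem f2 (hk : k ∈ Q' ⊓ C[t]) (c : k ∉ C[z]) (ra : R a v0) (ha : a ∈ Q ⊓ C[t]) (a2 : a ∉ C[s]) (ga : Gd z t a)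
    (e : Ev ρ ρ' (C[z] ⊓ C[t]) φ) (e' : φ * hs ρ (-1) z = φ) (e0 : φ ≠ 0) : ∃ ψ, Ev ρ ρ' (C[z] ⊓ C[t]) ψ ∧
    ψ * hs ρ (-1) z = 0 ∧ ψ * pl ρ (Q ⊓ C[t]) 1 = 0 ∧ ψ * ee ρ z s 1 (-1) = ρ' k⁻¹ * φ * ρ k * ee ρ z s 1 (-1) ∧
    ψ * pl ρ (Q ⊓ C[t]) a ≠ 0 := by
  have e1 : Ev ρ ρ' _ (ρ' k⁻¹ * φ * ρ k * ee ρ z s 1 (-1)) := (S.kN r r' hk e).mr (S.eN' r)
  have e2 : ρ' k⁻¹ * φ * ρ k * ee ρ z s 1 (-1) * ee ρ z s 1 (-1) ≠ 0 := fun d => e0 (by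
    rw [mul_assoc, S.eid r (by simp) (by simp), mul_assoc, mul_assoc] at d
    have d1 := r.mv hk.2 (by rw [S.ecm r]; exact S'.ea r hk c (by simp)) (not_not.1 (mt (r'.rp.nz (inv_mem hk.2) (r'.o _)) (not_not.2 d)))
    rw [← S.ecm r, mul_one] at d1
    rw [← e', ← ee_add, mul_add, d1, add_zero]
    simpa using S.km r ha a2 (e a (S.PC ha)) d1)
  have e3 : ρ' k⁻¹ * φ * ρ k * ee ρ z s 1 (-1) * ee ρ z s 1 (-1) = ρ' k⁻¹ * φ * ρ k * ee ρ z s 1 (-1) := by rw [mul_assoc, S.eid r (by simp) (by simp)]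
  generalize ρ' k⁻¹ * φ * ρ k * ee ρ z s 1 (-1) = ψ at *
  have U : ∀ {D}, Ev ρ ρ' (Q' ⊓ C[t] ⊓ C[z]) D → D * pl ρ (Q ⊓ C[t]) a = 0 → D * ee ρ z s 1 (-1) = 0 := fun e d =>
    S.k1 r ha a2 fun y k => e.zr k (by rw [S.EeP r m ha ga a2, d])
  have M := S.mP (F := F) ha.1
  have aq : a ∉ Q' := fun c => a2 (S.E'.le_cent c)
  have η0 : ψ * pl ρ (Q ⊓ C[t]) a ≠ 0 := fun d => e2 (U (e1.mono S.R2N) d)
  have η1 : pl ρ' (Q ⊓ C[t]) a * (ψ * pl ρ (Q ⊓ C[t]) a) = ψ * pl ρ (Q ⊓ C[t]) a := by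
    rw [← S.r1 r' n ha.1 ga aq, e1.pl S.R1N, S.r1 r m ha.1 ga aq, M.idem r.rp]
  have η2 : ψ * pl ρ (Q ⊓ C[t]) a * pl ρ (Q ⊓ C[t]) a = ψ * pl ρ (Q ⊓ C[t]) a := by rw [mul_assoc, M.idem r.rp]
  have η3 : ∀ h ∈ C[z] ⊓ C[t] ⊓ C[s], ρ h * pl ρ (Q ⊓ C[t]) a = pl ρ (Q ⊓ C[t]) a * ρ h →
      ρ' h * (ψ * pl ρ (Q ⊓ C[t]) a) = ψ * pl ρ (Q ⊓ C[t]) a * ρ h := fun h k c => by
    rw [← mul_assoc, e1 h k, mul_assoc, c, mul_assoc]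
  obtain ⟨η, η4⟩ : ∃ η, ψ * pl ρ (Q ⊓ C[t]) a = η := ⟨_, rfl⟩
  rw [η4] at η0 η1 η2 η3
  let J := EqS r.rp r'.rp (r.o' η) (r'.o η)
  let Sa := EqS r.rp r.rp (r.o' (pl ρ (Q ⊓ C[t]) a)) (r.o _) ⊓ EqS r'.rp r'.rp (r'.o' (pl ρ' (Q ⊓ C[t]) a)) (r'.o _)
  have sa : ∀ {h g}, h ∈ C[z] ⊓ C[t] → A f h g → Cg (g • v0) v0 ∨ Cg (g • v0) (v0 + lU) → h ∈ Sa := fun hh b c =>
    ⟨⟨hh.2, by rw [S.cjP r hh, S.stab b ra c]⟩, hh.2, by rw [S.cjP r' hh, S.stab b ra c]⟩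
  have c1 : ⁅Sa, Sa⁆ ≤ J := chr r.rp r'.rp _ _ (fun _ k => k.1.1) fun g k => prop1 (m.g1 a ha.1 ga) (n.g1 a ha.1 ga)
    (by rw [← mul_assoc, ← k.2.2, mul_assoc, η1]) (by rw [mul_assoc, η2]) (by rw [← mul_assoc, η1])
    (by rw [mul_assoc, k.1.2, ← mul_assoc, η2]) (r.rp.nz' k.1.1 (r.o' η) η0)
  have c3 : ∀ h ∈ C[z] ⊓ C[t], ∀ g ∈ sCo2 ⊓ stabilizer Co0 v0, A f h g → h ∈ J := fun h hh g mg b => by
    obtain ⟨k, k1, k2⟩ := mem_img.1 ((commutator_le.2 fun x hx y hy => by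
      obtain ⟨p, p1, p2⟩ := S.lift hx.1
      obtain ⟨q, q1, q2⟩ := S.lift hy.1
      exact mem_img.2 ⟨_, c1 (commutator_mem_commutator (sa p1 p2 (.inl (by rw [mem_stabilizer_iff.1 hx.2]; exact .refl _)))
        (sa q1 q2 (.inl (by rw [mem_stabilizer_iff.1 hy.2]; exact .refl _)))), ((p2.mul q2).mul p2.inv).mul q2.inv⟩ :
        _ ≤ img f J) (perf0 mg))
    have k3 : k⁻¹ * h ∈ Q ⊓ C[t] := ⟨(S.M.aker (k2.inv.mul b)).2 (by simp [one_mem]), C[t].mul_mem (C[t].inv_mem k1.1) hh.2⟩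
    simpa using J.mul_mem k1 (show k⁻¹ * h ∈ J from ⟨k3.2, by rw [M.l' r'.rp k3 η1, ← η2, mul_assoc, M.r r.rp k3, mul_smul_comm]⟩)
  obtain ⟨Φ, f1, f2, -⟩ := orb r.rp r'.rp (H := C[z] ⊓ C[t]) inf_le_right (r.o' η) (r'.o η) η2 fun d hd => by
    obtain ⟨g, mg, b⟩ := S.tot hd
    have q := S.M.mem (S.M.act b ra)
    by_cases c : a * (d * a * d⁻¹) ∈ C(Q ⊓ C[t])
    · right
      have vm := Sh.smul mg v0_mem
      rcases S.v4t (S.M.mul ra (S.M.act b ra)) (S.cP.le ⟨mul_mem ha.1 q, c⟩) with c | c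
      · exact (c3 d hd g ⟨mg, shq vm v0_mem (Cg.add_zero.1 c).symm⟩ b).2
      obtain ⟨h, hh, hs, b'⟩ := S.liftH γ_Hb
      have e : g • v0 = prmH γ • v0 := shq vm (Sh.smul γ_Hb.1 v0_mem) (by
        rw [γ_v0]; obtain ⟨u, c⟩ := c; exact ⟨u + lU, by rw [smul_add, ← c, two_nsmul]; abel⟩)
      have := J.mul_mem (show h ∈ J from ⟨hh.2, η3 h ⟨hh, hs⟩ (sa hh b' (.inr (by
        rw [γ_v0]; exact ⟨-lU - v0, by rw [two_nsmul]; abel⟩))).1.2⟩) (c3 _ (mul_mem (inv_mem hh) hd) _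
        (Subgroup.mem_inf.2 ⟨mul_mem (inv_mem (Hb_le γ_Hb)) mg, by rw [mem_stabilizer_iff, mul_smul, e, inv_smul_smul]⟩) (b'.inv.mul b))
      rw [mul_inv_cancel_left] at this; exact this.2
    · left; rw [S.cjP r hd, ← mul_assoc, pj_orth r.rp S.E inf_le_left inf_le_right ha.1 q c, zero_mul]
  have M1 := S.mP (F := F) (one_mem Q)
  refine ⟨Φ * (hs ρ 1 z - pl ρ (Q ⊓ C[t]) 1), Ev.mr f1 (S.c24 r), ?_, ?_, ?_, ?_⟩ <;> rw [mul_assoc]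
  · have := r.hl (ε := (-1 : F)) S.zt S.E.zz (by simp)
    rw [sub_mul, hs_kill (by simp) this, M1.kill r.rp (S.E1 S.zE).1 (by rw [this, lm_one]), sub_zero, mul_zero]
  · rw [sub_mul, hs_abs (by simp) (by rw [S.zP' r (one_mem Q), one_smul]), S.i23 r, sub_self, mul_zero]
  · rw [S.i24 r (by rw [S.ez r (by simp), one_smul]) (M1.kill r.rp (S.E1 S.sE).1 (by rw [S.es r (by simp), lm_one])), ← e3,
      ← sub_eq_zero, ← sub_mul, ← one_smul F ψ]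
    exact U ((Ev.mono f1 (S.R2N.trans inf_le_left)).sub (e1.mono S.R2N) 1) (by rw [sub_mul, one_smul, f2, η4, sub_self])
  · rwa [S.i24 r (S.zP' r ha.1) (pj_orth r.rp S.E inf_le_left inf_le_right (one_mem Q) ha.1 fun c =>
      aq (S.ztE (S.cP.le ⟨ha.1, one_mul a ▸ c⟩)).2), f2]

end St
end H1.RC
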