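import Cfsg.Agent.H16.Out

/-! Subgroups `L₃(7):2` of the O'Nan group: the abstract argument. -/

namespace H1.SB

open Subgroup

variable {G : Type*} [Group G]

/-- the order of the normaliser of a self-centralising Sylow subgroup of order 19 -/
theorem nrm [Finite G] {x : G} (hx : orderOf x = 19) (hc : ∀ c, c * x = x * c → c ∈ zpowers x)
    {K : Subgroup G} (hK : x ∈ K) {a : ℕ} (h1 : Nat.card K = 19 * a) (h2 : ¬ 19 ∣ a) :
    Nat.card (normalizer (zpowers x : Set G) ⊓ K : Subgroup G) = 19 * (a % 19) := by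
  have hp : Fact (Nat.Prime 19) := ⟨by norm_num⟩
  set M := normalizer (zpowers x : Set G) with hM
  have cX : Nat.card (zpowers x) = 19 := by rw [Nat.card_zpowers, hx]
  have hle : zpowers x ≤ K := zpowers_le.2 hK
  have cX' : Nat.card ((zpowers x).subgroupOf K) = 19 :=
    (Nat.card_congr (subgroupOfEquivOfLe hle).toEquiv).trans cX
  let P : Sylow 19 K := Sylow.ofCard ((zpowers x).subgroupOf K) (by
    rw [cX', h1, Nat.factorization_mul (by norm_num) (by rintro rfl; simp at h2)]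
    simp [Nat.Prime.factorization hp.out, Nat.factorization_eq_zero_of_not_dvd h2])
  have e1 := card_sylow_modEq_one 19 K
  rw [P.card_eq_index_normalizer] at e1
  have e2 : normalizer (P : Set K) = M.subgroupOf K := (subgroupOf_normalizer_eq hle).symm
  rw [e2] at e1
  have e3 : Nat.card (M.subgroupOf K) = Nat.card (M ⊓ K : Subgroup G) := by
    rw [← inf_subgroupOf_right]
    exact Nat.card_congr (subgroupOfEquivOfLe inf_le_right).toEquiv
  have e4 := (M.subgroupOf K).card_mul_index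
  rw [e3, h1] at e4
  have e5 : Nat.card M ∣ 19 * 18 := by
    have f1 := ((zpowers x).normalizerMonoidHom.ker).card_mul_index
    rw [index_ker] at f1
    have f2 := card_subgroup_dvd_card (zpowers x).normalizerMonoidHom.range
    rw [IsCyclic.card_mulAut, cX, Nat.totient_prime hp.out] at f2
    have f3 : Nat.card (zpowers x).normalizerMonoidHom.ker ∣ 19 := by
      rw [normalizerMonoidHom_ker, ← cX, ← inf_subgroupOf_right,
        Nat.card_congr (subgroupOfEquivOfLe inf_le_right).toEquiv]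
      exact card_dvd_of_le fun c hc' => hc c ((mem_centralizer_iff.1 hc'.1) x (mem_zpowers x)).symm
    rw [← f1]
    exact Nat.mul_dvd_mul f3 f2
  have e6 : 19 ∣ Nat.card (M ⊓ K : Subgroup G) := cX ▸ card_dvd_of_le (le_inf le_normalizer hle)
  obtain ⟨j, hj⟩ := e6
  have e7 : 19 * j ∣ 19 * 18 := hj ▸ (card_dvd_of_le inf_le_left).trans e5
  have e8 : j ≤ 18 := Nat.le_of_dvd (by norm_num) (Nat.dvd_of_mul_dvd_mul_left (by norm_num) e7)
  rw [hj] at e4 ⊢
  have e9 : a = j * (M.subgroupOf K).index := by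
    rw [mul_assoc] at e4; omega
  have := (Nat.ModEq.refl j).mul e1
  rw [← e9, mul_one] at this
  rw [show a % 19 = j % 19 from this, Nat.mod_eq_of_lt (by omega)]

/-- the hypotheses on `H = L₃(7):2` and `N = L₃(7)` -/
structure HN (H N : Subgroup G) : Prop where
  le : N ≤ H
  two : ∀ a ∈ H, ∀ b ∈ H, a * b ∈ N ↔ (a ∈ N ↔ b ∈ N)
  cH : Nat.card H = 3753792
  cN : Nat.card N = 1876896
  h3 : ∀ m ∈ N, m ^ 3 = 1 → ∃ t ∈ N, t ≠ 1 ∧ t * t = 1 ∧ t * m = m * t

theorem HN.map {H N : Subgroup G} (h : HN H N) {G' : Type*} [Group G'] (f : G →* G')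
    (hf : Function.Injective f) : HN (H.map f) (N.map f) where
  le := map_mono h.le
  two := by
    rintro _ ⟨a, ha, rfl⟩ _ ⟨b, hb, rfl⟩
    rw [← map_mul, mem_map_iff_mem hf, mem_map_iff_mem hf, mem_map_iff_mem hf]
    exact h.two a ha b hb
  cH := (card_map_of_injective hf).trans h.cH
  cN := (card_map_of_injective hf).trans h.cN
  h3 := by
    rintro _ ⟨m, hm, rfl⟩ e
    obtain ⟨t, h1, h2, h3, h4⟩ := h.h3 m hm (hf (by rw [map_pow, e, map_one]))
    exact ⟨f t, ⟨t, h1, rfl⟩, fun e => h2 (hf (by rw [e, map_one])), by rw [← map_mul, h3, map_one],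
      by rw [← map_mul, h4, map_mul]⟩

/-- an involution commuting with `s` and `m` -/
theorem inv_comm [Finite G] {H N : Subgroup G} (h : HN H N) {s m : G} (hs : s ∈ H) (hsN : s ∉ N)
    (h2 : s * s = 1) (hm : m ∈ N) (h3 : m ^ 3 = 1) (hc : s * m = m * s) :
    ∃ c ∈ H, c ≠ 1 ∧ c ≠ s ∧ c * c = 1 ∧ c * s = s * c ∧ c * m = m * c := by
  obtain ⟨t, t1, t2, t3, t4⟩ := h.h3 m hm h3
  by_cases h0 : t * s = s * t
  · exact ⟨t, h.le t1, t2, fun e => hsN (e ▸ t1), t3, h0, t4⟩
  have y1 : s * t ∈ H := H.mul_mem hs (h.le t1)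
  have y2 : s * t ∉ N := fun e => hsN (((h.two _ hs _ (h.le t1)).1 e).2 t1)
  have y3 : ∀ k : ℕ, (s * t) ^ (2 * k) ∈ N := fun k => by
    rw [pow_mul, sq]; exact N.pow_mem ((h.two _ y1 _ y1).2 Iff.rfl) k
  obtain ⟨k, hk⟩ : ∃ k, orderOf (s * t) = 2 * k := by
    rcases Nat.even_or_odd' (orderOf (s * t)) with ⟨k, hk | hk⟩
    · exact ⟨k, hk⟩
    · have := pow_orderOf_eq_one (s * t)
      rw [hk, pow_succ] at this
      exact absurd ((N.mul_mem_cancel_left (y3 k)).1 (this ▸ N.one_mem)) y2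
  have hz : (s * t) ^ k * (s * t) ^ k = 1 := by rw [← pow_add, ← two_mul, ← hk, pow_orderOf_eq_one]
  have hpos := orderOf_pos (s * t)
  have si : s⁻¹ = s := inv_eq_of_mul_eq_one_right h2
  have ti : t⁻¹ = t := inv_eq_of_mul_eq_one_right t3
  have c1 : (s * t) ^ k * s = s * (s * t) ^ k := by
    have : s * (s * t) ^ k * s⁻¹ = ((s * t) ^ k)⁻¹ := by
      rw [← conj_pow, ← inv_pow, mul_inv_rev, ti, ← mul_assoc, h2, one_mul]
    rw [inv_eq_of_mul_eq_one_right hz] at this
    rw [← this, inv_mul_cancel_right, this]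
  refine ⟨(s * t) ^ k, H.pow_mem y1 k, pow_ne_one_of_lt_orderOf (by omega) (by omega), fun e => h0 ?_,
    hz, c1, ?_⟩
  · have : s * (s * t) = s * t * s := by
      have := (Commute.refl (s * t)).pow_left k
      rwa [e] at this
    rw [← mul_assoc, h2, one_mul] at this
    rw [this, mul_assoc (s * t), h2, mul_one, ← this]
  · exact (Commute.pow_left (Commute.mul_left (show Commute s m from hc) t4) k).eq

/-- the facts about the model -/
structure Mod (x n v v' : G) (H1 : Subgroup G) (τ : MulAut G) : Prop where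
  cG : Nat.card G = 460815505920
  c1 : Nat.card H1 = 3753792
  ox : orderOf x = 19
  nx : n * x = x ^ 12 * n
  n6 : n ^ 6 = 1
  n3 : n ^ 3 ≠ 1
  cx : ∀ c, c * x = x * c → c ∈ zpowers x
  cn : ∀ c, c * n = n * c → c * c = 1 →
    c = 1 ∨ c = n ^ 3 ∨ c = v ∨ c = v * n ^ 3 ∨ c = v' ∨ c = v' * n ^ 3
  gen : ∀ A : Subgroup G, x ∈ A → n ∈ A → v ∈ A → H1 ≤ A
  tx : τ x = x
  tn : τ n = n
  tv : τ v = v'

theorem Mod.main0 [Finite G] {x n v v' : G} {H1 : Subgroup G} {τ : MulAut G}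
    (M : Mod x n v v' H1 τ) {H N : Subgroup G} (h : HN H N) (hx : x ∈ N) :
    ∃ α : MulAut G, ∀ a, a ∈ H ↔ α a ∈ H1 := by
  have a1 := nrm M.ox M.cx (mem_top x) (a := 24253447680) (by rw [card_top, M.cG]) (by norm_num)
  have a2 := nrm M.ox M.cx (h.le hx) (a := 197568) (by rw [h.cH]) (by norm_num)
  have a3 := nrm M.ox M.cx hx (a := 98784) (by rw [h.cN]) (by norm_num)
  rw [inf_top_eq] at a1
  have hn : n ∈ normalizer (zpowers x : Set G) := by
    refine mem_normalizer_fintype ?_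
    rintro _ ⟨k, rfl⟩
    have : n * x * n⁻¹ = x ^ 12 := by rw [M.nx, mul_inv_cancel_right]
    show n * x ^ k * n⁻¹ ∈ zpowers x
    rw [← conj_zpow, this]
    exact zpow_mem (pow_mem (mem_zpowers x) 12) k
  have a4 : normalizer (zpowers x : Set G) ⊓ H = normalizer (zpowers x : Set G) :=
    eq_of_le_of_card_ge inf_le_left (by rw [a1, a2])
  have nH : n ∈ H := (a4.ge hn).2
  have s2 : n ^ 3 * n ^ 3 = 1 := by rw [← pow_add, M.n6]
  have sN : n ^ 3 ∉ N := fun e => by
    have o : orderOf (n ^ 3) = 2 := orderOf_eq_prime (by rw [sq, s2]) M.n3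
    have := orderOf_dvd_natCard (G := (normalizer (zpowers x : Set G) ⊓ N : Subgroup G))
      ⟨n ^ 3, pow_mem hn 3, e⟩
    rw [← orderOf_coe, a3] at this
    simp only [o] at this
    norm_num at this
  obtain ⟨c, c1, c2, c3, c4, c5, c6⟩ := inv_comm h (pow_mem nH 3) sN s2 (m := n ^ 2)
    (by rw [sq]; exact (h.two _ nH _ nH).2 Iff.rfl) (by rw [← pow_mul, M.n6])
    (by rw [← pow_add, ← pow_add])
  have c7 : c * n = n * c := by
    have : Commute c (n ^ 3 * (n ^ 2)⁻¹) :=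
      (show Commute c (n ^ 3) from c5).mul_right (show Commute c (n ^ 2) from c6).inv_right
    rwa [show n ^ 3 * (n ^ 2)⁻¹ = n by group] at this
  have key : v ∈ H ∨ v' ∈ H := by
    rcases M.cn c c7 c4 with e | e | e | e | e | e
    · exact absurd e c2
    · exact absurd e c3
    · exact Or.inl (e ▸ c1)
    · exact Or.inl ((H.mul_mem_cancel_right (pow_mem nH 3)).1 (e ▸ c1))
    · exact Or.inr (e ▸ c1)
    · exact Or.inr ((H.mul_mem_cancel_right (pow_mem nH 3)).1 (e ▸ c1))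
  rcases key with e | e
  · have : H1 = H := eq_of_le_of_card_ge (M.gen H (h.le hx) nH e) (by rw [M.c1, h.cH])
    exact ⟨1, fun a => by rw [this]; rfl⟩
  · have : H1 = H.map τ.symm.toMonoidHom := eq_of_le_of_card_ge (M.gen _
      ⟨x, h.le hx, τ.symm_apply_eq.2 M.tx.symm⟩ ⟨n, nH, τ.symm_apply_eq.2 M.tn.symm⟩
      ⟨v', e, τ.symm_apply_eq.2 M.tv.symm⟩)
      (by rw [M.c1, card_map_of_injective τ.symm.injective, h.cH])
    exact ⟨τ.symm, fun a => by
      rw [this]; exact (mem_map_iff_mem (f := τ.symm.toMonoidHom) τ.symm.injective).symm⟩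

theorem Mod.main [Finite G] {x n v v' : G} {H1 : Subgroup G} {τ : MulAut G}
    (M : Mod x n v v' H1 τ) {H N : Subgroup G} (h : HN H N) :
    ∃ α : MulAut G, ∀ a, a ∈ H ↔ α a ∈ H1 := by
  have hp : Fact (Nat.Prime 19) := ⟨by norm_num⟩
  obtain ⟨y, hy⟩ := exists_prime_orderOf_dvd_card' (G := N) 19 (by rw [h.cN]; norm_num)
  obtain ⟨γ, k, -, -, e⟩ := H16.sylow_cyc hp.out (by rw [M.cG]; norm_num)
    ((orderOf_coe y).trans hy) M.ox
  have h' := h.map (MulAut.conj γ⁻¹).toMonoidHom (MulAut.conj γ⁻¹).injective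
  obtain ⟨α, hα⟩ := M.main0 h' ⟨y ^ k, pow_mem y.2 k, by
    rw [← e]; simp [mul_assoc]⟩
  exact ⟨α * MulAut.conj γ⁻¹, fun a => (mem_map_iff_mem (f := (MulAut.conj γ⁻¹).toMonoidHom)
    (MulAut.conj γ⁻¹).injective).symm.trans (hα _)⟩

end H1.SB
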