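import Cfsg.Agent.H1.SB1
import Cfsg.Agent.H16.L.L37

/-! Every element of order 3 of `PSL₃(7)` commutes with an involution. -/

set_option maxRecDepth 100000

namespace H1.SB

open Subgroup H16

theorem syl9 {G : Type*} [Group G] [Finite G] (hG : ¬ 3 ^ 3 ∣ Nat.card G) {a b : G}
    (ha : a ^ 3 = 1) (hb : b ^ 3 = 1) (hc : Commute a b)
    (hi : Function.Injective fun p : Fin 3 × Fin 3 => b ^ (p.2 : ℕ) * a ^ (p.1 : ℕ)) {m : G}
    (hm : m ^ 3 = 1) : ∃ γ : G, ∃ p : Fin 3 × Fin 3, γ * m * γ⁻¹ = b ^ (p.2 : ℕ) * a ^ (p.1 : ℕ) := by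
  have hp : Fact (Nat.Prime 3) := ⟨by norm_num⟩
  let Q : Subgroup G :=
    { carrier := {y | ∃ i j : ℕ, y = b ^ j * a ^ i}
      one_mem' := ⟨0, 0, by simp⟩
      mul_mem' := by
        rintro _ _ ⟨i, j, rfl⟩ ⟨k, l, rfl⟩
        exact ⟨i + k, j + l, by rw [pow_add, pow_add, (hc.pow_pow i l).mul_mul_mul_comm]⟩
      inv_mem' := by
        rintro _ ⟨i, j, rfl⟩
        refine ⟨2 * i, 2 * j, inv_eq_of_mul_eq_one_right ?_⟩
        rw [(hc.pow_pow i (2 * j)).mul_mul_mul_comm, ← pow_add, ← pow_add,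
          show j + 2 * j = 3 * j by ring, show i + 2 * i = 3 * i by ring, pow_mul, pow_mul, ha, hb]
        simp }
  have hQ : IsPGroup 3 Q := by
    rintro ⟨_, i, j, rfl⟩
    refine ⟨1, Subtype.ext ?_⟩
    show (b ^ j * a ^ i) ^ 3 ^ 1 = 1
    rw [pow_one, (hc.pow_pow i j).symm.mul_pow, ← pow_mul, ← pow_mul, mul_comm j, mul_comm i,
      pow_mul, pow_mul, ha, hb]
    simp
  obtain ⟨S, hS⟩ := hQ.exists_le_sylow
  have hM : IsPGroup 3 (zpowers m) := by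
    rintro ⟨_, k, rfl⟩
    refine ⟨1, Subtype.ext ?_⟩
    show (m ^ k) ^ 3 ^ 1 = 1
    rw [pow_one, ← zpow_natCast, ← zpow_mul, mul_comm, zpow_mul, zpow_natCast, hm, one_zpow]
  obtain ⟨S', hS'⟩ := hM.exists_le_sylow
  obtain ⟨γ, hγ⟩ := MulAction.exists_smul_eq G S' S
  have h1 : γ * m * γ⁻¹ ∈ S := by
    rw [← hγ]
    exact ⟨m, hS' (mem_zpowers m), rfl⟩
  obtain ⟨k, hk⟩ := IsPGroup.iff_card.1 S.isPGroup'
  have h2 : k ≤ 2 := by
    by_contra h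
    exact hG ((pow_dvd_pow 3 (by omega)).trans (hk ▸ card_subgroup_dvd_card _))
  let F : Fin 3 × Fin 3 → S := fun p => ⟨b ^ (p.2 : ℕ) * a ^ (p.1 : ℕ), hS ⟨_, _, rfl⟩⟩
  have hF : Function.Injective F := fun p q e => hi (congrArg Subtype.val e)
  have hF' : Function.Bijective F := hF.bijective_of_nat_card_le (by
    refine hk.le.trans ?_
    calc 3 ^ k ≤ 3 ^ 2 := Nat.pow_le_pow_right (by norm_num) h2
      _ = _ := by simp)
  obtain ⟨p, hp⟩ := hF'.2 ⟨_, h1⟩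
  exact ⟨γ, p, (congrArg Subtype.val hp).symm⟩

/-- the elements of the Sylow 3-subgroup -/
noncomputable def w9 (p : Fin 3 × Fin 3) : List ℕ :=
  (List.replicate p.1 [1, 1]).flatten ++ (List.replicate p.2 [4, 5]).flatten

/-- the commuting involutions -/
noncomputable def t9 (p : Fin 3 × Fin 3) : List ℕ :=
  nth [] [[0], [3, 1, 4, 5, 0, 3, 1, 4, 5, 0, 3, 2, 2, 4, 3], [3, 1, 4, 5, 0, 3, 1, 4, 5, 0, 3, 2, 2, 4, 3],
    [0], [0, 3, 2, 4, 3, 5, 4, 1, 3, 0], [0, 3, 4, 2, 3, 4, 5, 0, 3, 1, 4, 3, 2, 4, 3, 5],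
    [0], [0, 3, 4, 2, 3, 4, 5, 0, 3, 1, 4, 3, 2, 4, 3, 5], [0, 3, 2, 4, 3, 5, 4, 1, 3, 0]]
    (3 * p.1 + p.2)

/-- the checks -/
def C9 (P : ℕ → ℕ → ℕ) (B : List ℕ) : Prop :=
    (∀ p q : Fin 3 × Fin 3, apW P (w9 p) 4 = apW P (w9 q) 4 → p = q) ∧
    (∀ p, fixL P 6 B (t9 p ++ t9 p) = 0 ∧ eqL P 6 B (w9 p ++ t9 p) (t9 p ++ w9 p) = 0 ∧
      ltAll 6 (w9 p) = 0 ∧ ltAll 6 (t9 p) = 0 ∧
      (apW P (t9 p) 0 ≠ 0 ∨ apW P (t9 p) 3 ≠ 3)) ∧
    powL P 6 B [1, 1] 3 = 0 ∧ powL P 6 B [4, 5] 3 = 0 ∧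
    eqL P 6 B ([4, 5] ++ [1, 1]) ([1, 1] ++ [4, 5]) = 0 ∧ ltAll 57 B = 0

theorem c9 : C9 L37.P L37.B := by unfold C9; decide +kernel

theorem l37g {G Ω : Type*} [Group G] [MulAction G Ω] {g : ℕ → G} {pt : ℕ → Ω} {P : ℕ → ℕ → ℕ}
    {B : List ℕ} (act : Act g pt P 57 6) (inj : PtInj pt 57) (hb : IsBase (gen g 6) pt B)
    (card : Nat.card (gen g 6) = 1876896) (c : C9 P B) (m : gen g 6) (hm : m ^ 3 = 1) :
    ∃ t, t ≠ 1 ∧ t * t = 1 ∧ t * m = m * t := by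
  obtain ⟨c1, c2, c3, c4, c5, c6⟩ := c
  have : Finite (gen g 6) := Nat.finite_of_card_ne_zero (by rw [card]; norm_num)
  obtain ⟨a1, a2⟩ := powL_eq_one act c6 hb c3
  obtain ⟨b1, b2⟩ := powL_eq_one act c6 hb c4
  have ab := eqL_sound act c6 hb c5
  rw [evA_append, evA_append] at ab
  have ew : ∀ p, evA g (w9 p) = evA g [4, 5] ^ (p.2 : ℕ) * evA g [1, 1] ^ (p.1 : ℕ) :=
    fun p => by rw [w9, evA_append, evA_replicate_flatten, evA_replicate_flatten]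
  obtain ⟨γ, p, e⟩ := syl9 (G := gen g 6) (by rw [card]; norm_num)
    (a := ⟨_, evA_mem_gen _ a1⟩) (b := ⟨_, evA_mem_gen _ b1⟩) (Subtype.ext a2) (Subtype.ext b2)
    (Subtype.ext ab) (fun p q e => c1 p q (by
      have e' : evA g (w9 p) = evA g (w9 q) := by
        rw [ew, ew]; exact congrArg Subtype.val e
      obtain ⟨p1, p2⟩ := act.apW (ltAll_zero (c2 p).2.2.1) (show 4 < 57 by norm_num)
      obtain ⟨q1, q2⟩ := act.apW (ltAll_zero (c2 q).2.2.1) (show 4 < 57 by norm_num)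
      exact inj _ p1 _ q1 (by rw [← p2, ← q2, e']))) hm
  obtain ⟨d1, d2, d3, d4, d5⟩ := c2 p
  have t1 := fixL_eq_one act c6 hb d1
  have t2 := eqL_sound act c6 hb d2
  rw [evA_append] at t1
  rw [evA_append, evA_append, ew] at t2
  have t3 : evA g (t9 p) ≠ 1 := d5.elim
    (fun h => act.ne_one inj ⟨d4, by norm_num, h⟩) fun h => act.ne_one inj ⟨d4, by norm_num, h⟩
  let t : gen g 6 := ⟨_, evA_mem_gen _ (ltAll_zero d4)⟩
  have t4 : t * (γ * m * γ⁻¹) = γ * m * γ⁻¹ * t := by rw [e]; exact Subtype.ext t2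
  have t5 : t * t = 1 := Subtype.ext t1
  refine ⟨γ⁻¹ * t * γ, fun h => t3 (congrArg Subtype.val (show t = 1 from ?_)), ?_, ?_⟩
  · rw [show t = γ * (γ⁻¹ * t * γ) * γ⁻¹ by group, h]; group
  · rw [show γ⁻¹ * t * γ * (γ⁻¹ * t * γ) = γ⁻¹ * (t * t) * γ by group, t5]; group
  · rw [show γ⁻¹ * t * γ * m = γ⁻¹ * (t * (γ * m * γ⁻¹)) * γ by group, t4]; group

theorem l37 : ∀ m : gen L37.g 6, m ^ 3 = 1 → ∃ t, t ≠ 1 ∧ t * t = 1 ∧ t * m = m * t :=
  l37g L37.act (ptF_inj 57) L37.isBase L37.card c9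

theorem hn_of' {G X : Type*} [Group G] [Group X] (cX : Nat.card X = 1876896)
    (hX : ∀ m : X, m ^ 3 = 1 → ∃ t, t ≠ 1 ∧ t * t = 1 ∧ t * m = m * t)
    (H : Subgroup G) (N : Subgroup H) (hN : N.index = 2) (f : N ≃* X) : HN H (N.map H.subtype) := by
  have cN : Nat.card N = 1876896 := (Nat.card_congr f.toEquiv).trans cX
  refine ⟨map_subtype_le _, fun a ha b hb => ?_, by rw [← N.card_mul_index, cN, hN],
    (card_map_of_injective H.subtype_injective).trans cN, ?_⟩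
  · have := mul_mem_iff_of_index_two hN (a := ⟨a, ha⟩) (b := ⟨b, hb⟩)
    rwa [← mem_map_iff_mem (f := H.subtype) H.subtype_injective,
      ← mem_map_iff_mem (f := H.subtype) H.subtype_injective,
      ← mem_map_iff_mem (f := H.subtype) H.subtype_injective] at this
  · rintro _ ⟨m, hm, rfl⟩ h
    let j : X →* G := H.subtype.comp (N.subtype.comp f.symm.toMonoidHom)
    have hj : Function.Injective j :=
      Subtype.val_injective.comp (Subtype.val_injective.comp f.symm.injective)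
    have e1 : j (f ⟨m, hm⟩) = H.subtype m := by simp [j]
    obtain ⟨t, t1, t2, t3⟩ := hX (f ⟨m, hm⟩) (hj (by rw [map_pow, e1, h, map_one]))
    exact ⟨j t, ⟨_, (f.symm t).2, rfl⟩, fun h => t1 (hj (by rw [h, map_one])),
      by rw [← map_mul, t2, map_one], by rw [← e1, ← map_mul, t3, map_mul]⟩

theorem hn_of {G : Type*} [Group G] (H : Subgroup G) (N : Subgroup H) (hN : N.index = 2)
    (eN : N ≃* Matrix.ProjectiveSpecialLinearGroup (Fin 3) (ZMod 7)) : HN H (N.map H.subtype) :=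
  have ⟨e⟩ := LL37.equiv
  hn_of' L37.card l37 H N hN (eN.trans e.symm)

end H1.SB
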