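import Cfsg.Agent.H1.SB1
import Cfsg.Agent.H16.Tab2

/-! Kernel checks for transporters, fixed points and exact orbits. -/

namespace H1.SB

open Subgroup H16
open H26 (Tab frc full)

section
variable {G Ω : Type*} [Group G] [MulAction G Ω] {g : ℕ → G} {pt : ℕ → Ω} {P : ℕ → ℕ → ℕ}
  {N K : ℕ}

/-- the complete list of the elements conjugating `W` to `W'` -/
theorem cen0 (h : Act g pt P N K) {B : List ℕ} (hB : ltAll N B = 0)
    (hb : IsBase (gen g K) pt B) {L : List Lv} (hL : ExC g pt N K L (gen g K)) {W W' : List ℕ}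
    {b : ℕ} {Acc : List (List ℕ)} {Ap : List ℕ} (hc : cenChk P N K B W W' b L Acc Ap = true)
    (he : ∀ p < N, cenEnt P W' L Ap 0 p = 0) {c : G} (hg : c ∈ gen g K)
    (hcw : c * evA g W = evA g W' * c) : ∃ E ∈ Acc, c = evA g E := by
  have h1 := Nat.eq_of_beq_eq_true hc
  obtain ⟨h1, h5⟩ := Nat.add_eq_zero_iff.1 h1
  obtain ⟨h1, h4⟩ := Nat.add_eq_zero_iff.1 h1
  obtain ⟨h1, h3⟩ := Nat.add_eq_zero_iff.1 h1
  obtain ⟨h1, h2⟩ := Nat.add_eq_zero_iff.1 h1
  obtain ⟨h5, h6⟩ := Nat.add_eq_zero_iff.1 h5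
  have hW := ltAll_zero h1
  have hW' := ltAll_zero h2
  have hbN : b < N := by
    have : b + 1 - N = 0 := h3
    omega
  have pw : ∀ {c : G}, c * evA g W = evA g W' * c → ∀ a : ℕ, c * evA g W ^ a = evA g W' ^ a * c := by
    intro c hc a
    induction a with
    | zero => simp
    | succ a ih => rw [pow_succ, ← mul_assoc, ih, mul_assoc, hc, pow_succ, mul_assoc]
  have img : ∀ {c : G}, c * evA g W = evA g W' * c → ∀ p < N, c • pt b = pt p → ∀ l ∈ L,
      itW P W' l.a p < N ∧ c • pt l.r = pt (itW P W' l.a p) := by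
    intro c hc p hp e l hl
    refine ⟨(h.itW hW' l.a hp).1, ?_⟩
    rw [← xor_zero (sumL_zero h4 l hl), ← (h.itW hW l.a hbN).2, ← mul_smul, pw hc, mul_smul, e,
      (h.itW hW' l.a hp).2]
  obtain ⟨p, hp, e⟩ := h.exists_smul hg hbN
  have h7 : Bool.rec (motive := fun _ => ℕ) (sift P (fun a => itW P W' a p) L fun j => j)
    (nat_lit 0) (Nat.beq (memL p Ap) (nat_lit 0)) = 0 := he p hp
  cases h8 : Nat.beq (memL p Ap) (nat_lit 0) with
  | false =>
    rw [h8] at h7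
    exact absurd h7 (sift_sound h hL tb_one (by rwa [one_mul]) (img hcw p hp e))
  | true =>
    have h9 := memL_zero (Nat.eq_of_beq_eq_true h8)
    rw [← neL_zero h6] at h9
    obtain ⟨E, hE, e2⟩ := List.mem_map.1 h9
    have h10 := sumL_zero h5 E hE
    have hE' : ∀ k ∈ E, k < K := fun k hk => ltAll_zero
      (Nat.add_eq_zero_iff.1 (Nat.add_eq_zero_iff.1 h10).1).1 k (List.mem_append_right _ hk)
    have e3 := eqL_sound h hB hb h10
    rw [evA_append, evA_append] at e3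
    have e4 : evA g E • pt b = pt p := by rw [(h.apW hE' hbN).2, e2]
    refine ⟨E, hE, ?_⟩
    have := hL.base (Subgroup.mul_mem _ (Subgroup.inv_mem _ (evA_mem_gen g hE')) hg)
      fun l hl => by rw [mul_smul, (img hcw p hp e l hl).2, ← (img e3 p hp e4 l hl).2,
        inv_smul_smul]
    exact (inv_mul_eq_one.1 this).symm

/-- the words of the model -/
structure MD where
  X : List ℕ
  Y : List ℕ
  Y' : List ℕ
  V : List ℕ
  V' : List ℕ
  Z : List ℕ
  An : List (List ℕ)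
  Ug : List (List ℕ)
  Ub : List (List ℕ)
  Fn : List ℕ
  Sl : List (ℕ × List ℕ)

/-- the powers of `X` -/
noncomputable def MD.Ax (D : MD) : List (List ℕ) :=
  (List.range 19).map fun j => (List.replicate j D.X).flatten

/-- the checks on the base -/
def MD.Chk (D : MD) (P : ℕ → ℕ → ℕ) (N K : ℕ) (B : List ℕ) (Wb : List (List ℕ)) : Prop :=
  (ltAll K D.X = 0 ∧ ltAll K D.Y = 0 ∧ ltAll K D.V = 0 ∧ ltAll K D.V' = 0 ∧ ltAll K D.Z = 0 ∧
    apW P D.X 0 = 0 ∧ apW P D.Y 0 = 0) ∧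
  (powL P K B D.X 19 = 0 ∧ 12 < N ∧ apW P D.X 12 ≠ 12) ∧
  eqL P K B (D.X ++ D.Y) (D.Y ++ (List.replicate 12 D.X).flatten) = 0 ∧
  (powL P K B D.Y 6 = 0 ∧ ltAll K (List.replicate 3 D.Y).flatten = 0 ∧ 12 < N ∧
    apW P (List.replicate 3 D.Y).flatten 12 ≠ 12) ∧
  (∀ p ∈ D.Fn, (∃ U ∈ D.Ug, apW P U 0 = p) ∨ ∃ U ∈ D.Ub, apW P U 0 = p) ∧
  (∀ U ∈ D.Ug, ltAll K U = 0 ∧ eqL P K B (U ++ D.Y) (D.Y ++ U) = 0) ∧
  (∀ U ∈ D.Ub, ltAll K U = 0 ∧ eqL P K B (U ++ D.Y) (D.Y' ++ U) = 0) ∧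
  (∀ U ∈ D.Ug, ∀ E ∈ D.An, (ltAll K ((E ++ U) ++ (E ++ U)) = 0 ∧ 12 < N ∧
      apW P ((E ++ U) ++ (E ++ U)) 12 ≠ 12) ∨
    ∃ C ∈ [[], (List.replicate 3 D.Y).flatten, D.V, (List.replicate 3 D.Y).flatten ++ D.V, D.V',
      (List.replicate 3 D.Y).flatten ++ D.V'], eqL P K B (E ++ U) C = 0) ∧
  slpX P K B 6 0 3 [D.X, D.Y, D.V] D.Sl = true ∧
  eqL P K B (D.Z ++ flat Wb D.X) (D.X ++ D.Z) = 0 ∧
  eqL P K B (D.Z ++ flat Wb D.Y) (D.Y ++ D.Z) = 0 ∧
  eqL P K B (D.Z ++ flat Wb D.V) (D.V' ++ D.Z) = 0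

theorem MD.mod (D : MD) (h : Act g pt P N K) (hp : PtInj pt N) {B : List ℕ} (hB : ltAll N B = 0)
    (hb : IsBase (gen g K) pt B) (hK : 6 ≤ K) (cG : Nat.card (gen g K) = 460815505920)
    (c1 : Nat.card (gen g 6) = 3753792) (st : ∀ a ∈ gen g K, a • pt 0 = pt 0 → a ∈ gen g 6)
    {Wb : List (List ℕ)} (hc : D.Chk P N K B Wb) (β : MulAut (gen g K))
    (hβ : ∀ k (hk : k < K), (β ⟨g k, mem_gen _ hk⟩ : G) = wds g Wb k)
    (fx : ∀ p < N, evA g D.X • pt p = pt p → p ∈ [0])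
    (fn : ∀ p < N, evA g D.Y • pt p = pt p → p ∈ D.Fn)
    (tx : ∀ c ∈ gen g 6, c * evA g D.X = evA g D.X * c → ∃ E ∈ D.Ax, c = evA g E)
    (tn : ∀ c ∈ gen g 6, c * evA g D.Y = evA g D.Y * c → ∃ E ∈ D.An, c = evA g E)
    (tb : ∀ c ∈ gen g 6, c * evA g D.Y = evA g D.Y' * c → ∃ E ∈ ([] : List (List ℕ)), c = evA g E) :
    ∃ x n v v' τ, Mod x n v v' ((gen g 6).subgroupOf (gen g K)) τ := by
  obtain ⟨⟨l1, l2, l3, l4, l5, l6, l7⟩, ⟨x1, h12, x2⟩, x3, ⟨n1, n2⟩, f1, f2, f3, f4, s1, t1, t2, t3⟩ := hc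
  have h0 : 0 < N := by omega
  let x : gen g K := ⟨_, evA_mem_gen g (ltAll_zero l1)⟩
  let n : gen g K := ⟨_, evA_mem_gen g (ltAll_zero l2)⟩
  let v : gen g K := ⟨_, evA_mem_gen g (ltAll_zero l3)⟩
  let v' : gen g K := ⟨_, evA_mem_gen g (ltAll_zero l4)⟩
  let z : gen g K := ⟨_, evA_mem_gen g (ltAll_zero l5)⟩
  have hτ : ∀ {W W' : List ℕ} (l : ltAll K W = 0) (l' : ltAll K W' = 0),
      eqL P K B (D.Z ++ flat Wb W) (W' ++ D.Z) = 0 →
      (MulAut.conj z⁻¹ * β) ⟨_, evA_mem_gen g (ltAll_zero l)⟩ = ⟨_, evA_mem_gen g (ltAll_zero l')⟩ := by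
    intro W W' l l' e
    have e1 := eqL_sound h hB hb e
    rw [evA_append, evA_append, evA_flat] at e1
    have e2 := hom_evA (f := (gen g K).subtype.comp β.toMonoidHom) hβ (ltAll_zero l)
    apply Subtype.ext
    show (evA g D.Z)⁻¹ * (β ⟨_, evA_mem_gen g (ltAll_zero l)⟩ : G) * (evA g D.Z)⁻¹⁻¹ = evA g W'
    rw [show (β ⟨_, evA_mem_gen g (ltAll_zero l)⟩ : G) = _ from e2, inv_inv, mul_assoc, e1,
      inv_mul_cancel_left]
  have hp19 : Fact (Nat.Prime 19) := ⟨by norm_num⟩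
  refine ⟨x, n, v, v', MulAut.conj z⁻¹ * β, cG,
    (Nat.card_congr (subgroupOfEquivOfLe (gen_mono g hK)).toEquiv).trans c1, ?_, ?_, ?_, ?_, ?_, ?_,
    ?_, hτ l1 l1 t1, hτ l2 l2 t2, hτ l3 l4 t3⟩
  · exact orderOf_eq_prime (Subtype.ext (powL_eq_one h hB hb x1).2)
      fun e => h.ne_one hp ⟨l1, h12, x2⟩ (congrArg Subtype.val e)
  · have := eqL_sound h hB hb x3
    rw [evA_append, evA_append, evA_replicate_flatten] at this
    exact Subtype.ext this
  · exact Subtype.ext (powL_eq_one h hB hb n1).2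
  · intro e
    have := h.ne_one hp n2
    rw [evA_replicate_flatten] at this
    exact this (congrArg Subtype.val e)
  · intro c e
    have e' : (c : G) * evA g D.X = evA g D.X * c := congrArg Subtype.val e
    obtain ⟨p, hp', e1⟩ := h.exists_smul c.2 h0
    have e2 : evA g D.X • pt 0 = pt 0 := by rw [(h.apW (ltAll_zero l1) h0).2, l6]
    have e3 := List.mem_singleton.1 (fx p hp' (by rw [← e1, ← mul_smul, ← e', mul_smul, e2]))
    obtain ⟨E, hE, e4⟩ := tx c (st c c.2 (by rw [e1, e3])) e'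
    obtain ⟨j, -, rfl⟩ := List.mem_map.1 hE
    rw [evA_replicate_flatten] at e4
    exact ⟨j, Subtype.ext (by simp [x, e4])⟩
  · intro c e hc2
    have e' : (c : G) * evA g D.Y = evA g D.Y * c := congrArg Subtype.val e
    obtain ⟨p, hp', e1⟩ := h.exists_smul c.2 h0
    have e2 : evA g D.Y • pt 0 = pt 0 := by rw [(h.apW (ltAll_zero l2) h0).2, l7]
    have e3 := fn p hp' (by rw [← e1, ← mul_smul, ← e', mul_smul, e2])
    have key : ∀ U W', ltAll K U = 0 → apW P U 0 = p → eqL P K B (U ++ D.Y) (W' ++ U) = 0 →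
        (evA g U)⁻¹ * c ∈ gen g 6 ∧
          (evA g U)⁻¹ * c * evA g D.Y = evA g W' * ((evA g U)⁻¹ * c) := fun U W' u1 u2 u3 => by
      have u4 := eqL_sound h hB hb u3
      rw [evA_append, evA_append] at u4
      refine ⟨st _ (mul_mem (inv_mem (evA_mem_gen g (ltAll_zero u1))) c.2) ?_, ?_⟩
      · rw [mul_smul, e1, ← u2, ← (h.apW (ltAll_zero u1) h0).2, inv_smul_smul]
      · rw [mul_assoc, e', show evA g W' = (evA g U)⁻¹ * (evA g U * evA g W') by group, ← u4]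
        group
    rcases f1 p e3 with ⟨U, hU, u2⟩ | ⟨U, hU, u2⟩
    · obtain ⟨k1, k2⟩ := key U _ (f2 U hU).1 u2 (f2 U hU).2
      obtain ⟨E, hE, e4⟩ := tn _ k1 k2
      have e5 : (c : G) = evA g (E ++ U) := by rw [evA_append, ← e4, mul_inv_cancel_left]
      rcases f4 U hU E hE with u | ⟨C, hC, u⟩
      · have := h.ne_one hp u
        rw [evA_append, ← e5] at this
        exact absurd (congrArg Subtype.val hc2) this
      · have e6 := e5.trans (eqL_sound h hB hb u)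
        simp only [List.mem_cons, List.not_mem_nil, or_false] at hC
        rcases hC with rfl | rfl | rfl | rfl | rfl | rfl <;>
          try simp only [evA_append, evA_replicate_flatten] at e6
        · exact Or.inl (Subtype.ext e6)
        · exact Or.inr (Or.inl (Subtype.ext e6))
        · exact Or.inr (Or.inr (Or.inl (Subtype.ext e6)))
        · exact Or.inr (Or.inr (Or.inr (Or.inl (Subtype.ext e6))))
        · exact Or.inr (Or.inr (Or.inr (Or.inr (Or.inl (Subtype.ext e6)))))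
        · exact Or.inr (Or.inr (Or.inr (Or.inr (Or.inr (Subtype.ext e6)))))
    · obtain ⟨k1, k2⟩ := key U _ (f3 U hU).1 u2 (f3 U hU).2
      obtain ⟨E, hE, -⟩ := tb _ k1 k2
      simp at hE
  · intro A a1 a2 a3 y hy
    have := slpX_sound h hB hb s1 hK (Nat.zero_le _) (A := A.map (gen g K).subtype)
      (by rw [gen_zero]; exact bot_le) (fun i hi => by
        obtain rfl | rfl | rfl : i = 0 ∨ i = 1 ∨ i = 2 := by omega
        exacts [⟨x, a1, rfl⟩, ⟨n, a2, rfl⟩, ⟨v, a3, rfl⟩]) hy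
    exact (mem_map_iff_mem (f := (gen g K).subtype) Subtype.val_injective).1 this

end

/-- the points moved by `W`, seen on the planes `Xs` -/
noncomputable def moved (T : Tab) (W : List ℕ) (Xs : List ℕ) : ℕ :=
  List.rec (motive := fun _ => ℕ) (nat_lit 0)
    (fun X _ ih => frc X fun X => frc (Nat.xor X (T.pullW W X)) fun a => Nat.lor a ih) Xs

theorem moved_bit {T : Tab} (h : T.WF) {W Xs : List ℕ} {p : ℕ} (hp : evA T.π W p = p) :
    (moved T W Xs).testBit p = false := by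
  induction Xs with
  | nil => exact Nat.zero_testBit p
  | cons X Xs ih =>
    show ((X ^^^ T.pullW W X) ||| moved T W Xs).testBit p = false
    rw [Nat.testBit_or, Nat.testBit_xor, pull_bit h, hp, ih]
    simp

theorem fix_list {T : Tab} (h : T.WF) {W0 : List (List ℕ)} {W Xs F : List ℕ}
    (hc : Nat.beq (Nat.lor (moved T (flat W0 W) Xs) (maskL F)) (full T.n) = true) :
    ∀ p < T.n, evA (wds T.π W0) W • id p = id p → p ∈ F := fun p hp e => by
  have h1 := congrArg (fun y => Nat.testBit y p) (Nat.eq_of_beq_eq_true hc)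
  change (moved T (flat W0 W) Xs ||| maskL F).testBit p = _ at h1
  rw [Nat.testBit_or, moved_bit h (by rw [evA_flat]; exact e), H26.testBit_full] at h1
  exact (maskL_bit F p).1 (by simpa [hp] using h1)

/-- the exact orbit of `r` -/
noncomputable def orbX (T : Tab) (Ws : List (List ℕ)) (L : List ℕ) (d r m : ℕ) : Bool :=
  frc (reachW T Ws L (maskL [r])) fun X => invS T Ws [X] && Nat.beq (popM d X) m && X.testBit r

theorem orbX_sound {T : Tab} (h : T.WF) {Ws : List (List ℕ)} {L : List ℕ} {d r m : ℕ}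
    (hs : Supp (genW T.π Ws) T.n) (hd : d < 1048575 ∧ T.n ≤ 20 * d ∧ r < T.n)
    (hc : orbX T Ws L d r m = true) : (orb (genW T.π Ws) r).ncard = m := by
  unfold orbX at hc
  simp only [H26.frc_eq, Bool.and_eq_true, Nat.beq_eq] at hc
  obtain ⟨⟨h1, h2⟩, h3⟩ := hc
  rw [← h2, popM_eq hd.1]
  refine ncard_mask fun q => ⟨?_, fun hq => ?_⟩
  · rintro ⟨a, ha, rfl⟩
    exact ⟨(hs.lt ha hd.2.2).trans_le hd.2.1,
      (inv_genW h h1 _ (List.mem_singleton_self _) a ha r).trans h3⟩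
  · obtain ⟨b, hb, a, ha, e⟩ := reach_orb h (mem_genW T.π Ws) L [r] q hq.2
    exact ⟨a, ha, List.mem_singleton.1 hb ▸ e⟩

/-- orbits on cosets are orbits on points -/
theorem orbit_eq {G : Type*} [Group G] (φ : G →* Equiv.Perm ℕ) {H : Subgroup G}
    (hH : ∀ a, a ∈ H ↔ φ a 0 = 0) (a : G) :
    (MulAction.orbit H (a : G ⧸ H)).ncard = (orb (H.map φ) (φ a 0)).ncard := by
  have key : ∀ b c : G, (b : G ⧸ H) = c ↔ φ b 0 = φ c 0 := fun b c => by
    rw [QuotientGroup.eq, hH, map_mul, map_inv, Equiv.Perm.mul_apply, Equiv.Perm.inv_eq_iff_eq,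
      eq_comm]
  let F : G ⧸ H → ℕ := Quotient.lift (fun b => φ b 0) fun b c e => (key b c).1 (Quotient.sound e)
  have hF : Function.Injective F := by
    rintro ⟨b⟩ ⟨c⟩ e
    exact (key b c).2 e
  rw [← Set.ncard_image_of_injective _ hF]
  congr 1
  ext q
  constructor
  · rintro ⟨_, ⟨b, rfl⟩, rfl⟩
    exact ⟨φ b, ⟨b, b.2, rfl⟩, by
      show _ = φ (b * a) 0
      rw [map_mul, Equiv.Perm.mul_apply]⟩
  · rintro ⟨_, ⟨b, hb, rfl⟩, rfl⟩
    exact ⟨_, ⟨⟨b, hb⟩, rfl⟩, by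
      show φ (b * a) 0 = _
      rw [map_mul, Equiv.Perm.mul_apply]⟩

end H1.SB
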