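import Cfsg.Agent.H1.SB4

/-! Transporter scans. -/

set_option maxRecDepth 100000
set_option maxHeartbeats 0

namespace H1.SB

open H16 H16.TON

theorem cex_0 : allZ (cenEnt P D.X Lx Apx (nat_lit 0)) (nat_lit 0) (nat_lit 18772) = true := by decide +kernel
theorem cex_1 : allZ (cenEnt P D.X Lx Apx (nat_lit 0)) (nat_lit 18772) (nat_lit 18868) = true := by decide +kernel
theorem cex_2 : allZ (cenEnt P D.X Lx Apx (nat_lit 0)) (nat_lit 37640) (nat_lit 21215) = true := by decide +kernel
theorem cex_3 : allZ (cenEnt P D.X Lx Apx (nat_lit 0)) (nat_lit 58855) (nat_lit 20725) = true := by decide +kernel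
theorem cex_4 : allZ (cenEnt P D.X Lx Apx (nat_lit 0)) (nat_lit 79580) (nat_lit 20894) = true := by decide +kernel
theorem cex_5 : allZ (cenEnt P D.X Lx Apx (nat_lit 0)) (nat_lit 100474) (nat_lit 22286) = true := by decide +kernel
theorem cex : ∀ i < 122760, cenEnt P D.X Lx Apx 0 i = 0 := range_glue (a := 100474) (range_glue (a := 79580) (range_glue (a := 58855) (range_glue (a := 37640) (range_glue (a := 18772) (allZ_sound0 cex_0) cex_1) cex_2) cex_3) cex_4) cex_5

end H1.SB
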