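import Cfsg.Agent.H1.SB2
import Cfsg.Agent.H1.SB5
import Cfsg.Agent.H1.SB6
import Cfsg.Agent.H1.SB7
import Cfsg.Agent.H16.P.ONL

/-! The subgroups `L₃(7):2` of the O'Nan group are point stabilisers up to automorphisms. -/

set_option maxRecDepth 100000

namespace H1.SB

open H16 H16.TON Subgroup

theorem c0 : Nat.card (stab (gen H16.PON.T.π 8) [0]) = 3753792 :=
  H16.PON.exact.2.1 ▸ H16.PON.exact.2.2.1

theorem fix6 : fixLetters P 6 0 = true := by decide +kernel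

theorem le6 : gen g 6 ≤ stab (gen H16.PON.T.π 8) [0] := fun a ha =>
  ⟨gen_eq ▸ gen_mono g (by norm_num) ha, fun _ hb => List.mem_singleton.1 hb ▸
    fixLetters_sound (act.mono (by norm_num)) (by norm_num) fix6 a ha⟩

theorem oX : ∀ l ∈ Lx, l.Orb g id 122760 := all_cons (o1 _) (all_cons o3 (all_cons ox all_nil))
theorem oN : ∀ l ∈ Ln, l.Orb g id 122760 := all_cons (o1 _) (all_cons o3 (all_cons on all_nil))

theorem act6 : Act g id P 122760 6 := act.mono (by norm_num)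
theorem s6 : gen g 6 = stab (gen H16.PON.T.π 8) [0] := (exC_sub act6 inj le6 c0 oX lcx).1
theorem c6 : Nat.card (gen g 6) = 3753792 := (exC_sub act6 inj le6 c0 oX lcx).2.1
theorem b6 : IsBase (gen g 6) id B := isBase.mono (gen_mono g (by norm_num))

theorem st (a) (ha : a ∈ gen g 10) : a ∈ gen g 6 ↔ a 0 = 0 := by
  rw [s6, mem_stab, ← gen_eq]
  simp [ha]

theorem model : ∃ x n v v' τ, Mod x n v v' ((gen g 6).subgroupOf (gen g 10)) τ :=
  have ⟨β, h⟩ := aut_of_rels act Blt isBase gen_eq H16.PON.card H16.PON.rels H16.PON.bound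
    H16.PON.simple bc3 bc2 ⟨by decide, act.ne_one inj bc4⟩
  D.mod act inj Blt isBase (by norm_num) card c6 (fun a ha e => (st a ha).2 e) chk β h
    (fix_list H16.PON.wf fxc) (fix_list H16.PON.wf fnc)
    (fun _ => cen0 act6 Blt b6 (exC_of act6 inj c6 oX lcx) ccx cex)
    (fun _ => cen0 act6 Blt b6 (exC_of act6 inj c6 oN lcn) ccn cen)
    (fun _ => cen0 act6 Blt b6 (exC_of act6 inj c6 oN lcn) ccb ceb)

theorem fin {G : Type*} [Group G] {A U : Subgroup (Equiv.Perm ℕ)} {n : ℕ} [Finite A] (e : G ≃* A)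
    (hU : U ≤ A) (st : ∀ a ∈ A, a ∈ U ↔ a 0 = 0) (tr : Trans A n)
    (M : ∃ x n v v' τ, Mod x n v v' (U.subgroupOf A) τ) {H N : Subgroup G} (h : HN H N) :
    H.index = 122760 ∧ ∀ r < n, ∃ q : G ⧸ H, (MulAction.orbit H q).ncard = (orb U r).ncard := by
  obtain ⟨x, y, v, v', τ, M⟩ := M
  obtain ⟨α, hα⟩ := M.main (h.map e.toMonoidHom e.injective)
  let f : G ≃* A := e.trans α
  let φ : G →* Equiv.Perm ℕ := A.subtype.comp f.toMonoidHom
  have h1 : ∀ a, a ∈ H ↔ φ a ∈ U := fun a =>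
    (mem_map_iff_mem (f := e.toMonoidHom) e.injective).symm.trans (hα _)
  have h2 : H.map φ = U := by
    ext u
    refine ⟨?_, fun hu => ?_⟩
    · rintro ⟨a, ha, rfl⟩; exact (h1 a).1 ha
    · have : φ (f.symm ⟨u, hU hu⟩) = u := by simp [φ]
      exact ⟨_, (h1 _).2 (this.symm ▸ hu), this⟩
  refine ⟨card_of_index' h.cH ((Nat.card_congr e.toEquiv).trans M.cG), fun r hr => ?_⟩
  obtain ⟨u, hu, e1⟩ := tr r hr
  refine ⟨(f.symm ⟨u, hu⟩ : G), ?_⟩
  rw [orbit_eq φ fun a => (h1 a).trans (st _ (f a).2), h2, show φ (f.symm ⟨u, hu⟩) = u by simp [φ], e1]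
where
  card_of_index' {G : Type _} [Group G] {H : Subgroup G} (h1 : Nat.card H = 3753792)
      (h2 : Nat.card G = 460815505920) : H.index = 122760 := by
    have := H.card_mul_index
    rw [h1, h2] at this
    omega

theorem main {G : Type*} [Group G] (e : G ≃* Cfsg.Spor.ON) (H : Subgroup G) (N : Subgroup H)
    (hN : N.index = 2) (eN : N ≃* Matrix.ProjectiveSpecialLinearGroup (Fin 3) (ZMod 7)) :
    H.index = 122760 ∧ ∃ q₁ q₂ q₃ q₄ : G ⧸ H, (MulAction.orbit H q₁).ncard = 6384 ∧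
      (MulAction.orbit H q₂).ncard = 5586 ∧ (MulAction.orbit H q₃).ncard = 58653 ∧
      (MulAction.orbit H q₄).ncard = 52136 := by
  have : Finite (gen g 10) := Nat.finite_of_card_ne_zero (by rw [card]; norm_num)
  obtain ⟨h1, h2⟩ := fin ((e.trans H16.PON.equiv).trans (MulEquiv.subgroupCongr gen_eq.symm))
    (gen_mono g (by norm_num)) st (gen_eq ▸ H16.PON.trans) model (hn_of H N hN eN)
  have hs : Supp (genW H16.PON.T.π H16.PON.W1) H16.PON.T.n :=
    (supp_gen H16.PON.wf 8).mono (H16.PON.w1le.trans (stab_le _ _))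
  rw [s6, H16.PON.exact.2.1] at h2
  have hn : H16.PON.T.n = 122760 := rfl
  obtain ⟨q1, e1⟩ := h2 32 (by rw [hn]; norm_num)
  obtain ⟨q2, e2⟩ := h2 9 (by rw [hn]; norm_num)
  obtain ⟨q3, e3⟩ := h2 1 (by rw [hn]; norm_num)
  obtain ⟨q4, e4⟩ := h2 16 (by rw [hn]; norm_num)
  exact ⟨h1, q1, q2, q3, q4,
    e1.trans (orbX_sound H16.PON.wf hs (by rw [hn]; norm_num) ob32),
    e2.trans (orbX_sound H16.PON.wf hs (by rw [hn]; norm_num) ob9),
    e3.trans (orbX_sound H16.PON.wf hs (by rw [hn]; norm_num) ob1),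
    e4.trans (orbX_sound H16.PON.wf hs (by rw [hn]; norm_num) ob16)⟩

end H1.SB
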