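import Cfsg.Agent.H1.Sak2

/-!
Sakuma's theorem, part 3: assembling the relations.
-/

set_option autoImplicit false

namespace H1.Sak
open Cfsg.Axial H10.Maj

variable {V : Type*} [AddCommGroup V] [Module ℝ V] {mul : V →ₗ[ℝ] V →ₗ[ℝ] V}
  {B : LinearMap.BilinForm ℝ V} {μ ν : V ≃ₗ[ℝ] V}

theorem nus (hV : IsMajoranaAmbient mul B) {a0 a1 : V} (h0 : IsMajoranaPair mul B μ a0)
    (h1 : IsMajoranaPair mul B ν a1) (n0 : B a0 a0 = 1) (n1 : B a1 a1 = 1) :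
    B a0 a1 = 1 ∨ B a0 (ν a0) = 1 ∨ B a0 (ν (μ a1)) = 1 ∨ B (ν a0) (μ (ν a0)) = 1 ∨
      B (ν (μ a1)) (μ (ν a0)) = 1 ∨ B (ν (μ a1)) (μ (ν (μ a1))) = 1 := by
  have hc := hV.1
  have hs := hV.2.1
  have has := hV.2.2.2.1
  have i0 := h0.2.2.1.1.2.1
  have i1 := h1.2.2.1.1.2.1
  obtain ⟨am1, t1⟩ : ∃ x, μ a1 = x := ⟨_, rfl⟩
  obtain ⟨a2, u0⟩ : ∃ x, ν a0 = x := ⟨_, rfl⟩
  obtain ⟨am2, t2⟩ : ∃ x, μ a2 = x := ⟨_, rfl⟩
  obtain ⟨a3, um1⟩ : ∃ x, ν am1 = x := ⟨_, rfl⟩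
  obtain ⟨am3, t3⟩ : ∃ x, μ a3 = x := ⟨_, rfl⟩
  rw [t1, u0, t2, um1, t3]
  have t0 := fixa h0
  have u1 := fixa h1
  have tm1 : μ am1 = a1 := by rw [← t1, invol h0]
  have tm2 : μ am2 = a2 := by rw [← t2, invol h0]
  have u2 : ν a2 = a0 := by rw [← u0, invol h1]
  have u3 : ν a3 = am1 := by rw [← um1, invol h1]
  obtain ⟨s1, h01⟩ : ∃ s, mul a0 a1 = s + (1 / 32 : ℝ) • (a0 + a1) := ⟨_, (sub_add_cancel _ _).symm⟩
  obtain ⟨s20, h02⟩ : ∃ s, mul a0 a2 = s + (1 / 32 : ℝ) • (a0 + a2) :=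
    ⟨_, (sub_add_cancel _ _).symm⟩
  obtain ⟨s21, h1m⟩ : ∃ s, mul a1 am1 = s + (1 / 32 : ℝ) • (a1 + am1) :=
    ⟨_, (sub_add_cancel _ _).symm⟩
  have h10 : mul a1 a0 = s1 + (1 / 32 : ℝ) • (a1 + a0) := by rw [hc a1 a0, h01, add_comm a0]
  obtain ⟨ts, h0m, p0⟩ := eig hV h0 n0 a1 s1 h01
  obtain ⟨us, h12, p1⟩ := eig hV h1 n1 a0 s1 h10
  obtain ⟨ts0, h0m2, q0⟩ := eig hV h0 n0 a2 s20 h02
  obtain ⟨us1, h13, q1⟩ := eig hV h1 n1 am1 s21 h1m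
  rw [t1] at h0m p0
  rw [u0] at h12 p1
  rw [t2] at h0m2 q0
  rw [um1] at h13 q1
  obtain ⟨l, hl⟩ : ∃ x, B a0 a1 = x := ⟨_, rfl⟩
  obtain ⟨m, hm⟩ : ∃ x, B a0 a2 = x := ⟨_, rfl⟩
  rw [hs a1 a0] at p1
  rw [hl] at p0 p1 ⊢
  rw [hm] at q0 ⊢
  have us0 : ν s20 = s20 := by
    have := congrArg ν h02
    rw [h1.1, u0, u2, hc a2 a0, h02] at this
    simp only [map_add, map_smul, u0, u2] at this
    linear_combination (norm := module) -this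
  have ts1 : μ s21 = s21 := by
    have := congrArg μ h1m
    rw [h0.1, t1, tm1, hc am1 a1, h1m] at this
    simp only [map_add, map_smul, t1, tm1] at this
    linear_combination (norm := module) -this
  have pm1 := congrArg μ p1
  have p2 := congrArg ν p0
  simp only [h0.1, map_add, map_smul, t1, ts, t0, t2] at pm1
  simp only [h1.1, map_add, map_smul, u0, us, u1, um1] at p2
  -- inner products
  have iμ := h0.2.1
  have iν := h1.2.1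
  have n2 : B a2 a2 = 1 := by rw [← u0, iν, n0]
  have nm1 : B am1 am1 = 1 := by rw [← t1, iμ, n1]
  have n3' : B a3 a3 = 1 := by rw [← um1, iν, nm1]
  have b0m1 : B a0 am1 = l := by rw [← t1, ← t0, iμ, hl]
  have b12 : B a1 a2 = l := by rw [← u0, ← u1, iν, hs, hl]
  have b23 : B a2 a3 = l := by rw [← u0, ← um1, iν, b0m1]
  have bm12 : B am1 am2 = l := by rw [← t1, ← t2, iμ, b12]
  have b0m2 : B a0 am2 = m := by rw [← t2, ← t0, iμ, hm]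
  have e1 : s1 = mul a0 a1 - (1 / 32 : ℝ) • (a0 + a1) := by rw [h01]; abel
  have e20 : s20 = mul a0 a2 - (1 / 32 : ℝ) • (a0 + a2) := by rw [h02]; abel
  have e21 : s21 = mul a1 am1 - (1 / 32 : ℝ) • (a1 + am1) := by rw [h1m]; abel
  obtain ⟨sa, hsa⟩ : ∃ x, x = l - (1 + l) / 32 := ⟨_, rfl⟩
  have b0s : B a0 s1 = sa := by
    rw [hsa, e1, map_sub, has, i0]; simp [n0, hl]; ring
  have b1s : B a1 s1 = sa := by
    rw [hsa, e1, map_sub, hc a0 a1, has, i1]; simp [n1, hs a1 a0, hl]; ring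
  have b2s : B a2 s1 = sa := by rw [← u0, ← us, iν, b0s]
  have bm1s : B am1 s1 = sa := by rw [← t1, ← ts, iμ, b1s]
  have b3s : B a3 s1 = sa := by rw [← um1, ← us, iν, bm1s]
  have b1m1 : B a1 am1 = m := by
    have k1 := has a1 a0 s1
    have k2 := has a0 a1 s1
    rw [hc a1 a0, ← k2, p0, p1] at k1
    simp only [map_add, map_smul, smul_eq_mul, b0s, b1s, hs a1 a0, hl, n0, n1, hm] at k1
    linarith
  rw [b1m1] at q1
  have b13 : B a1 a3 = m := by rw [← um1, ← u1, iν, b1m1]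
  obtain ⟨n3, b03⟩ : ∃ x, B a0 a3 = x := ⟨_, rfl⟩
  obtain ⟨n4, b2m2⟩ : ∃ x, B a2 am2 = x := ⟨_, rfl⟩
  obtain ⟨n4', b3m1⟩ : ∃ x, B a3 am1 = x := ⟨_, rfl⟩
  obtain ⟨n5, b3m2⟩ : ∃ x, B a3 am2 = x := ⟨_, rfl⟩
  obtain ⟨n6, b3m3⟩ : ∃ x, B a3 am3 = x := ⟨_, rfl⟩
  rw [b03, b2m2, b3m2, b3m3]
  have b2m1 : B a2 am1 = n3 := by rw [← u0, ← u3, iν, b03]
  obtain ⟨se, hse⟩ : ∃ x, x = m - (1 + m) / 32 := ⟨_, rfl⟩
  obtain ⟨so, hso⟩ : ∃ x, x = sa + (m + l) / 32 - l / 16 := ⟨_, rfl⟩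
  have b0e : B a0 s20 = se := by
    rw [hse, e20, map_sub, has, i0]; simp [n0, hm]; ring
  have b2e : B a2 s20 = se := by rw [← u0, ← us0, iν, b0e]
  have bm2e : B am2 s20 = se := by rw [← t2, ← ts0, iμ, b2e]
  have b1e : B a1 s21 = se := by
    rw [hse, e21, map_sub, has, i1]; simp [n1, b1m1]; ring
  have bm1e : B am1 s21 = se := by rw [← t1, ← ts1, iμ, b1e]
  have b3e : B a3 s21 = se := by rw [← um1, ← us1, iν, bm1e]
  have b0o : B a0 s21 = so := by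
    rw [hso, e21, map_sub, has, h01]
    simp [hs s1 am1, bm1s, b0m1, b1m1, hl]; ring
  have b2o : B a2 s21 = so := by rw [← u0, ← us1, iν, b0o]
  have b1o : B a1 s20 = so := by
    rw [hso, e20, map_sub, has, h10]
    simp [hs s1 a2, b2s, b12, hm, hs a1 a0, hl]; ring
  have bm1o : B am1 s20 = so := by rw [← t1, ← ts0, iμ, b1o]
  have b3o : B a3 s20 = so := by rw [← um1, ← us0, iν, bm1o]
  obtain ⟨P4, S0⟩ := loc hV h0 n0 t1 h01 h02 h0m2 i1 h1m p1 pm1 hl b1m1 n1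
  obtain ⟨-, S1⟩ := loc hV h1 n1 u0 h10 h1m h13 i0 h02 p0 p2 ((hs _ _).trans hl) hm n0
  obtain ⟨c, hc'⟩ : ∃ x, x = 256 * l - 6 := ⟨_, rfl⟩
  obtain ⟨C, hC⟩ : ∃ x, x = (32768 * l ^ 2 - 2304 * l + 128 * m + 33) / 7 := ⟨_, rfl⟩
  have R : a3 - am2 + c • (a2 - am1) + C • (a1 - a0) + (32 : ℝ) • (s20 - s21) = 0 := by
    rw [hc', hC]
    linear_combination (norm := module) (196608 / 49 : ℝ) • (S0 - S1)
  have R' := congrArg μ R
  simp only [map_add, map_sub, map_smul, map_zero, t3, tm2, t2, tm1, t1, t0, ts0, ts1] at R'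
  have E0 := congrArg (B a0) R
  have E2 := congrArg (B a2) R
  have E1 := congrArg (B am1) R
  have E3 := congrArg (B a3) R
  have E6 := congrArg (B a3) R'
  have Ep := congrArg (B s20) R
  have Eq := congrArg (fun v => B a3 (mul a0 v)) R
  have k3 : B a3 (mul a0 a3) = n3 := by
    rw [hc a0 a3, has, ← um1, ← h1.1, ← t1, ← h0.1, i1, t1, um1, hs, b03]
  have hb0 : B s20 s20 = B a2 (mul a0 s20) - se / 16 := by
    rw [has, hc a2 a0, h02]; simp [b0e, b2e]; ring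
  have hb1 : B s20 s21 = B a2 (mul a0 s21) - so / 16 := by
    rw [has, hc a2 a0, h02]; simp [b0o, b2o]; ring
  rw [q0] at hb0
  rw [P4] at hb1
  simp only [map_add, map_sub, map_smul, map_zero, smul_eq_mul, k3, h0m2, h02, h0m, h01, i0, q0, P4,
    hs a2 a0, hs a2 a1, hs a3 a0, hs a3 a1, hs a3 a2, hs am1 a3, hs am1 a2, hs am1 a1, hs am1 a0,
    hs s20 a3, hs s20 am2, hs s20 a2, hs s20 am1, hs s20 a1, hs s20 a0,
    n0, n2, nm1, n3', hl, hm, b0m1, b12, b23, bm12, b0m2, b1m1, b13, b03, b2m2, b3m1, b3m2, b3m3,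
    b2m1, b0e, b2e, bm2e, bm1e, b3e, b0o, b2o, b1o, bm1o, b3o, b2s, b3s]
    at E0 E2 E1 E3 E6 Ep Eq hb0 hb1
  exact alg (b0 := B s20 s20) (b1 := B s20 s21) (n4' := n4') hc' hC hsa hse hso
    (by linarith) (by linarith) (by linarith) (by linarith) (by linarith)
    (by linarith) (by linarith) (by linarith) (by linarith)

theorem same (hV : IsMajoranaAmbient mul B) {x y : V} (h0 : IsMajoranaPair mul B μ x)
    (h1 : IsMajoranaPair mul B ν y) (n0 : B x x = 1) (n1 : B y y = 1) (h : B x y = 1) :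
    μ * ν = 1 := by
  have e : x = y := by
    by_contra hne
    have := hV.2.2.1 _ (sub_ne_zero.2 hne)
    simp only [map_sub, LinearMap.sub_apply, n0, n1, hV.2.1 y x, h] at this
    linarith
  subst e
  rw [← uniq h0 h1]
  ext v
  exact invol h0 v

theorem sakuma (hV : IsMajoranaAmbient mul B) {a0 a1 : V} (h0 : IsMajoranaPair mul B μ a0)
    (h1 : IsMajoranaPair mul B ν a1) (n0 : B a0 a0 = 1) (n1 : B a1 a1 = 1) :
    ∃ n : ℕ, 1 ≤ n ∧ n ≤ 6 ∧ (μ * ν) ^ n = 1 := by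
  have iμ : μ⁻¹ = μ := inv_eq_of_mul_eq_one_right (same hV h0 h0 n0 n0 n0)
  have iν : ν⁻¹ = ν := inv_eq_of_mul_eq_one_right (same hV h1 h1 n1 n1 n1)
  have h2 := conj' h0 h1.1 h1.2.1
  have hm1 := conj' h1 h0.1 h0.2.1
  have hm2 := conj' h2 h0.1 h0.2.1
  have h3 := conj' hm1 h1.1 h1.2.1
  have hm3 := conj' h3 h0.1 h0.2.1
  have n2 : B (ν a0) (ν a0) = 1 := by rw [h1.2.1, n0]
  have nm2 : B (μ (ν a0)) (μ (ν a0)) = 1 := by rw [h0.2.1, n2]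
  have n3 : B (ν (μ a1)) (ν (μ a1)) = 1 := by rw [h1.2.1, h0.2.1, n1]
  have nm3 : B (μ (ν (μ a1))) (μ (ν (μ a1))) = 1 := by rw [h0.2.1, n3]
  have hs := hV.2.1
  rw [iμ] at hm1 hm2 h3 hm3
  rw [iν] at h2 hm2 h3 hm3
  rcases nus hV h0 h1 n0 n1 with h | h | h | h | h | h
  · exact ⟨1, by omega, by omega, by rw [pow_one]; exact same hV h0 h1 n0 n1 h⟩
  · refine ⟨2, by omega, by omega, ?_⟩
    rw [← same hV h0 h2 n0 n2 h]
    simp only [pow_succ, pow_zero, one_mul, mul_assoc]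
  · refine ⟨3, by omega, by omega, ?_⟩
    rw [← same hV h0 h3 n0 n3 h]
    simp only [pow_succ, pow_zero, one_mul, mul_assoc]
  · refine ⟨4, by omega, by omega, ?_⟩
    rw [← same hV hm2 h2 nm2 n2 ((hs _ _).trans h)]
    simp only [pow_succ, pow_zero, one_mul, mul_assoc]
  · refine ⟨5, by omega, by omega, ?_⟩
    rw [← same hV hm2 h3 nm2 n3 ((hs _ _).trans h)]
    simp only [pow_succ, pow_zero, one_mul, mul_assoc]
  · refine ⟨6, by omega, by omega, ?_⟩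
    rw [← same hV hm3 h3 nm3 n3 ((hs _ _).trans h)]
    simp only [pow_succ, pow_zero, one_mul, mul_assoc]

end H1.Sak
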