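import Mathlib

/-!
Gaussian sums over `ℤ^n`: summability.
-/

set_option autoImplicit false

namespace H1.Th
open Complex Real

/-- real quadratic form of a matrix -/
noncomputable def qr {n : ℕ} (A : Matrix (Fin n) (Fin n) ℝ) (x : Fin n → ℝ) : ℝ :=
  ∑ i, ∑ j, A i j * x i * x j

/-- complex quadratic form of a real matrix -/
noncomputable def qc {n : ℕ} (A : Matrix (Fin n) (Fin n) ℝ) (x : Fin n → ℂ) : ℂ :=
  ∑ i, ∑ j, (A i j : ℂ) * x i * x j

/-- positive definite -/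
def PD {n : ℕ} (A : Matrix (Fin n) (Fin n) ℝ) : Prop := ∀ x, x ≠ 0 → 0 < qr A x

theorem qc_real {n : ℕ} (A : Matrix (Fin n) (Fin n) ℝ) (x : Fin n → ℝ) :
    qc A (fun i => (x i : ℂ)) = (qr A x : ℂ) := by
  simp [qc, qr]

theorem qr_smul {n : ℕ} (A : Matrix (Fin n) (Fin n) ℝ) (c : ℝ) (x : Fin n → ℝ) :
    qr A (c • x) = c ^ 2 * qr A x := by
  simp only [qr, Finset.mul_sum, Pi.smul_apply, smul_eq_mul]
  refine Finset.sum_congr rfl fun i _ => Finset.sum_congr rfl fun j _ => by ring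

theorem qr_cont {n : ℕ} (A : Matrix (Fin n) (Fin n) ℝ) : Continuous (qr A) := by
  unfold qr; fun_prop

theorem PD.lower {n : ℕ} {A : Matrix (Fin n) (Fin n) ℝ} (h : PD A) :
    ∃ c : ℝ, 0 < c ∧ ∀ x, c * ∑ i, x i ^ 2 ≤ qr A x := by
  by_cases hs : (Metric.sphere (0 : Fin n → ℝ) 1).Nonempty
  · obtain ⟨u, hu, hmin⟩ := (isCompact_sphere (0 : Fin n → ℝ) 1).exists_isMinOn hs
      (qr_cont A).continuousOn
    have hu1 : ‖u‖ = 1 := by simpa using hu
    have hu0 : u ≠ 0 := by rintro rfl; simp at hu1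
    have hc := h u hu0
    refine ⟨qr A u / (n + 1), by positivity, fun x => ?_⟩
    by_cases hx : x = 0
    · subst hx; simp [qr]
    have hn : 0 < ‖x‖ := norm_pos_iff.2 hx
    have h1 : qr A u ≤ qr A (‖x‖⁻¹ • x) := hmin (by simp [norm_smul, hn.ne'])
    rw [qr_smul] at h1
    have h2 : ∑ i, x i ^ 2 ≤ (n + 1) * ‖x‖ ^ 2 := by
      have : ∑ i, x i ^ 2 ≤ ∑ _i : Fin n, ‖x‖ ^ 2 := Finset.sum_le_sum fun i _ => by
        have := norm_le_pi_norm x i
        rw [Real.norm_eq_abs] at this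
        rw [← sq_abs]; gcongr
      simp only [Finset.sum_const, Finset.card_univ, Fintype.card_fin, nsmul_eq_mul] at this
      nlinarith [sq_nonneg ‖x‖]
    have h3 : qr A u * ‖x‖ ^ 2 ≤ qr A x := by
      have := mul_le_mul_of_nonneg_right h1 (sq_nonneg ‖x‖)
      calc _ ≤ _ := this
        _ = qr A x := by field_simp
    calc qr A u / (n + 1) * ∑ i, x i ^ 2 ≤ qr A u / (n + 1) * ((n + 1) * ‖x‖ ^ 2) := by gcongr
      _ = qr A u * ‖x‖ ^ 2 := by field_simp
      _ ≤ _ := h3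
  · refine ⟨1, one_pos, fun x => ?_⟩
    by_cases hx : x = 0
    · subst hx; simp [qr]
    have hn : 0 < ‖x‖ := norm_pos_iff.2 hx
    exact absurd ⟨‖x‖⁻¹ • x, by simp [norm_smul, hn.ne']⟩ hs

theorem summ_pi : ∀ {n : ℕ} (f : Fin n → ℤ → ℝ), (∀ i, Summable (f i)) → (∀ i m, 0 ≤ f i m) →
    Summable fun x : Fin n → ℤ => ∏ i, f i (x i)
  | 0, _, _, _ => Summable.of_finite
  | n + 1, f, hf, h0 => by
    rw [← (Fin.consEquiv fun _ => ℤ).summable_iff]
    have := (hf 0).mul_of_nonneg (summ_pi (fun i => f i.succ) (fun i => hf _) fun i => h0 _)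
      (h0 0) fun x => Finset.prod_nonneg fun i _ => h0 _ _
    convert this using 2 with x
    simp [Fin.prod_univ_succ, Fin.consEquiv]

theorem summ_one {c : ℝ} (hc : 0 < c) (l : ℝ) :
    Summable fun m : ℤ => Real.exp (-c * (m : ℝ) ^ 2 + l * m) := by
  have := summable_pow_mul_jacobiTheta₂_term_bound (|l| / (2 * π)) (T := c / π) (by positivity) 0
  refine Summable.of_nonneg_of_le (fun _ => (Real.exp_pos _).le) (fun m => ?_) this
  rw [pow_zero, one_mul]
  apply Real.exp_le_exp.2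
  have h1 : l * m ≤ |l| * |(m : ℝ)| := by rw [← abs_mul]; exact le_abs_self _
  have : -π * (c / π * (m : ℝ) ^ 2 - 2 * (|l| / (2 * π)) * |(m : ℝ)|) =
      -c * (m : ℝ) ^ 2 + |l| * |(m : ℝ)| := by field_simp; ring
  rw [Int.cast_abs, this]
  linarith

theorem PD.summ_real {n : ℕ} {A : Matrix (Fin n) (Fin n) ℝ} (h : PD A) {t : ℝ} (ht : 0 < t)
    (l : Fin n → ℝ) :
    Summable fun x : Fin n → ℤ => Real.exp (-t * qr A (fun i => x i) + ∑ i, l i * x i) := by
  obtain ⟨c, hc, hl⟩ := h.lower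
  refine Summable.of_nonneg_of_le (fun _ => (Real.exp_pos _).le) (fun x => ?_)
    (summ_pi (fun i m => Real.exp (-(t * c) * (m : ℝ) ^ 2 + l i * m))
      (fun i => summ_one (by positivity) _) fun _ _ => (Real.exp_pos _).le)
  rw [← Real.exp_sum]
  apply Real.exp_le_exp.2
  rw [Finset.sum_add_distrib, ← Finset.mul_sum]
  have := hl fun i => x i
  nlinarith

/-- summability in norm of a complex Gaussian -/
theorem PD.summ {n : ℕ} {A : Matrix (Fin n) (Fin n) ℝ} (h : PD A) {s : ℂ} (hs : 0 < s.re)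
    (b : Fin n → ℂ) :
    Summable fun x : Fin n → ℤ => ‖cexp (-s * qc A (fun i => x i) + ∑ i, b i * x i)‖ := by
  convert h.summ_real hs (fun i => (b i).re) using 2 with x
  rw [Complex.norm_exp]
  have := qc_real A (fun i => (x i : ℝ))
  simp only [ofReal_intCast] at this
  rw [this]
  simp

/-- shifted version -/
theorem PD.summ' {n : ℕ} {A : Matrix (Fin n) (Fin n) ℝ} (h : PD A) {s : ℂ} (hs : 0 < s.re)
    (b : Fin n → ℂ) :
    Summable fun x : Fin n → ℤ => ‖cexp (-s * qc A (fun i => x i + b i))‖ := by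
  have := (h.summ hs fun i => -s * ∑ j, ((A i j : ℂ) + A j i) * b j).mul_left
    ‖cexp (-s * qc A b)‖
  refine this.congr fun x => ?_
  symm
  rw [← norm_mul, ← Complex.exp_add]
  congr 2
  have e : ∑ i, ∑ j, (A j i : ℂ) * b j * x i = ∑ i, ∑ j, (A i j : ℂ) * b i * x j :=
    Finset.sum_comm
  have e2 : ∑ i, (-s * ∑ j, ((A i j : ℂ) + A j i) * b j) * x i =
      -s * (∑ i, ∑ j, (A i j : ℂ) * b j * x i + ∑ i, ∑ j, (A j i : ℂ) * b j * x i) := by
    rw [← Finset.sum_add_distrib, Finset.mul_sum]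
    refine Finset.sum_congr rfl fun i _ => ?_
    rw [← Finset.sum_add_distrib, mul_assoc, Finset.sum_mul]
    congr 1
    refine Finset.sum_congr rfl fun j _ => by ring
  rw [e2, e, ← mul_add, ← mul_add]
  congr 1
  simp only [qc, ← Finset.sum_add_distrib]
  refine Finset.sum_congr rfl fun i _ => Finset.sum_congr rfl fun j _ => by ring

end H1.Th
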