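import Cfsg.Agent.H1.Th1

/-!
Schur complements and Poisson summation for Gaussians on `ℤ^n`.
-/

set_option autoImplicit false

namespace H1.Th
open Complex Real

variable {n : ℕ}

/-- Schur complement -/
noncomputable def schur (A : Matrix (Fin (n + 1)) (Fin (n + 1)) ℝ) : Matrix (Fin n) (Fin n) ℝ :=
  fun i j => A i.succ j.succ - A 0 i.succ * A 0 j.succ / A 0 0

/-- lower right block -/
def low (C : Matrix (Fin (n + 1)) (Fin (n + 1)) ℝ) : Matrix (Fin n) (Fin n) ℝ :=
  fun i j => C i.succ j.succ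

theorem qc_cons {A : Matrix (Fin (n + 1)) (Fin (n + 1)) ℝ} (hs : ∀ i j, A i j = A j i)
    (x0 : ℂ) (x : Fin n → ℂ) :
    qc A (Fin.cons x0 x) = A 0 0 * x0 ^ 2 + 2 * x0 * (∑ j : Fin n, (A 0 j.succ : ℂ) * x j) +
      (qc (schur A) x + (∑ j : Fin n, (A 0 j.succ : ℂ) * x j) ^ 2 / A 0 0) := by
  have e : qc (schur A) x + (∑ j : Fin n, (A 0 j.succ : ℂ) * x j) ^ 2 / A 0 0 =
      ∑ i : Fin n, ∑ j : Fin n, (A i.succ j.succ : ℂ) * x i * x j := by
    rw [sq, Finset.sum_mul_sum, Finset.sum_div, qc, ← Finset.sum_add_distrib]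
    refine Finset.sum_congr rfl fun i _ => ?_
    rw [Finset.sum_div, ← Finset.sum_add_distrib]
    refine Finset.sum_congr rfl fun j _ => ?_
    simp only [schur]; push_cast; ring
  rw [e]
  simp only [qc, Fin.sum_univ_succ, Fin.cons_zero, Fin.cons_succ, Finset.sum_add_distrib,
    Finset.mul_sum, hs _ 0]
  have : ∑ j : Fin n, 2 * x0 * ((A 0 j.succ : ℂ) * x j) =
      ∑ j : Fin n, (A 0 j.succ : ℂ) * x0 * x j + ∑ j : Fin n, (A 0 j.succ : ℂ) * x j * x0 := by
    rw [← Finset.sum_add_distrib]; exact Finset.sum_congr rfl fun j _ => by ring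
  rw [this]; ring

theorem PD.pos00 {A : Matrix (Fin (n + 1)) (Fin (n + 1)) ℝ} (h : PD A) : 0 < A 0 0 := by
  have := h (Fin.cons 1 0) (fun e => by simpa using congrFun e 0)
  simpa [qr, Fin.sum_univ_succ] using this

theorem PD.schur {A : Matrix (Fin (n + 1)) (Fin (n + 1)) ℝ} (hs : ∀ i j, A i j = A j i)
    (h : PD A) : PD (schur A) := by
  intro x hx
  have ha := h.pos00
  have := h (Fin.cons (-(∑ j : Fin n, A 0 j.succ * x j) / A 0 0) x) (fun e => hx (by
    ext i; simpa using congrFun e i.succ))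
  convert this using 1
  apply Complex.ofReal_injective
  rw [← qc_real, ← qc_real]
  have e : (fun i => (((Fin.cons (-(∑ j : Fin n, A 0 j.succ * x j) / A 0 0) x : Fin (n + 1) → ℝ) i : ℝ) :
      ℂ)) = Fin.cons (((-(∑ j : Fin n, A 0 j.succ * x j) / A 0 0 : ℝ)) : ℂ) fun i => (x i : ℂ) := by
    ext i; refine Fin.cases ?_ (fun i => ?_) i <;> simp
  rw [e, qc_cons hs]
  have : (A 0 0 : ℂ) ≠ 0 := by exact_mod_cast ha.ne'
  push_cast
  field_simp
  ring

theorem schur_low {A C : Matrix (Fin (n + 1)) (Fin (n + 1)) ℝ} (hs : ∀ i j, A i j = A j i)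
    (ha : A 0 0 ≠ 0) (h : A * C = 1) : schur A * low C = 1 := by
  ext i j
  have h1 := congrFun (congrFun h i.succ) j.succ
  have h2 := congrFun (congrFun h 0) j.succ
  simp only [Matrix.mul_apply, Fin.sum_univ_succ, Matrix.one_apply, Fin.succ_inj,
    (Fin.succ_ne_zero j).symm, if_false] at h1 h2
  simp only [Matrix.mul_apply, schur, low, Matrix.one_apply, sub_mul, Finset.sum_sub_distrib]
  have : ∑ k : Fin n, A 0 i.succ * A 0 k.succ / A 0 0 * C k.succ j.succ =
      A 0 i.succ / A 0 0 * ∑ k : Fin n, A 0 k.succ * C k.succ j.succ := by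
    rw [Finset.mul_sum]; exact Finset.sum_congr rfl fun k _ => by ring
  rw [this, ← h1, hs i.succ 0, eq_neg_of_add_eq_zero_right h2]
  field_simp
  ring

theorem qc_cons_inv {A C : Matrix (Fin (n + 1)) (Fin (n + 1)) ℝ} (hs : ∀ i j, A i j = A j i)
    (ha : A 0 0 ≠ 0) (h : A * C = 1) (w0 : ℂ) (w : Fin n → ℂ) :
    qc C (Fin.cons w0 w) = w0 ^ 2 / A 0 0 +
      qc (low C) fun i => w i - w0 / A 0 0 * A 0 i.succ := by
  have h' : C * A = 1 := mul_eq_one_comm.1 h
  have ha' : (A 0 0 : ℂ) ≠ 0 := by exact_mod_cast ha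
  have h1 : ∀ j : Fin n, (C 0 j.succ : ℂ) = -(∑ k : Fin n, (A 0 k.succ : ℂ) * C k.succ j.succ) / A 0 0 := by
    intro j
    have h2 := congrFun (congrFun h 0) j.succ
    simp only [Matrix.mul_apply, Fin.sum_univ_succ, Matrix.one_apply,
      (Fin.succ_ne_zero j).symm, if_false] at h2
    have h3 := congrArg (fun r : ℝ => (r : ℂ)) h2
    push_cast at h3
    field_simp
    linear_combination h3
  have h2 : ∀ j : Fin n, (C j.succ 0 : ℂ) = -(∑ k : Fin n, (C j.succ k.succ : ℂ) * A 0 k.succ) / A 0 0 := by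
    intro j
    have h2 := congrFun (congrFun h' j.succ) 0
    simp only [Matrix.mul_apply, Fin.sum_univ_succ, Matrix.one_apply,
      (Fin.succ_ne_zero j), if_false, hs _ 0] at h2
    have h3 := congrArg (fun r : ℝ => (r : ℂ)) h2
    push_cast at h3
    field_simp
    linear_combination h3
  have h3 : (C 0 0 : ℂ) = (1 - ∑ k : Fin n, (A 0 k.succ : ℂ) * C k.succ 0) / A 0 0 := by
    have h2 := congrFun (congrFun h 0) 0
    simp only [Matrix.mul_apply, Fin.sum_univ_succ, Matrix.one_apply, if_true] at h2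
    have h3 := congrArg (fun r : ℝ => (r : ℂ)) h2
    push_cast at h3
    field_simp
    linear_combination h3
  obtain ⟨t, ht⟩ : ∃ t, t = w0 / A 0 0 := ⟨_, rfl⟩
  have e0 : qc (low C) (fun i => w i - t * A 0 i.succ) =
      ∑ i : Fin n, ∑ j : Fin n, (C i.succ j.succ : ℂ) * w i * w j
      - t * ∑ j : Fin n, (∑ k : Fin n, (A 0 k.succ : ℂ) * C k.succ j.succ) * w j
      - t * ∑ j : Fin n, (∑ k : Fin n, (C j.succ k.succ : ℂ) * A 0 k.succ) * w j
      + t ^ 2 * ∑ j : Fin n, (A 0 j.succ : ℂ) * ∑ k : Fin n, (C j.succ k.succ : ℂ) * A 0 k.succ := by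
    simp only [Finset.mul_sum, Finset.sum_mul]
    rw [Finset.sum_comm (f := fun (j k : Fin n) => t * ((A 0 k.succ : ℂ) * C k.succ j.succ * w j))]
    simp only [qc, low, ← Finset.sum_add_distrib, ← Finset.sum_sub_distrib]
    exact Finset.sum_congr rfl fun i _ => Finset.sum_congr rfl fun j _ => by ring
  have e1 : ∑ j : Fin n, (C 0 j.succ : ℂ) * w0 * w j =
      -t * ∑ j : Fin n, (∑ k : Fin n, (A 0 k.succ : ℂ) * C k.succ j.succ) * w j := by
    rw [Finset.mul_sum]; exact Finset.sum_congr rfl fun j _ => by rw [h1, ht]; ring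
  have e2 : ∑ j : Fin n, (C j.succ 0 : ℂ) * w j * w0 =
      -t * ∑ j : Fin n, (∑ k : Fin n, (C j.succ k.succ : ℂ) * A 0 k.succ) * w j := by
    rw [Finset.mul_sum]; exact Finset.sum_congr rfl fun j _ => by rw [h2, ht]; ring
  have e3 : ∑ k : Fin n, (A 0 k.succ : ℂ) * C k.succ 0 =
      -(∑ j : Fin n, (A 0 j.succ : ℂ) * ∑ k : Fin n, (C j.succ k.succ : ℂ) * A 0 k.succ) / A 0 0 := by
    rw [neg_div, Finset.sum_div, ← Finset.sum_neg_distrib]
    exact Finset.sum_congr rfl fun j _ => by rw [h2]; ring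
  rw [← ht, e0]
  simp only [qc, Fin.sum_univ_succ, Fin.cons_zero, Fin.cons_succ, Finset.sum_add_distrib]
  rw [e1, e2, h3, e3, ht]
  field_simp
  ring

theorem PD.inv {A C : Matrix (Fin n) (Fin n) ℝ} (hA : PD A) (h : A * C = 1) : PD C := by
  intro w hw
  have e : A.mulVec (C.mulVec w) = w := by rw [Matrix.mulVec_mulVec, h, Matrix.one_mulVec]
  have := hA (C.mulVec w) (fun e0 => hw (by rw [← e, e0, Matrix.mulVec_zero]))
  convert this using 1
  have k1 : ∀ (M : Matrix (Fin n) (Fin n) ℝ) x, qr M x = ∑ i : Fin n, x i * M.mulVec x i := by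
    intro M x
    simp only [qr, Matrix.mulVec, dotProduct, Finset.mul_sum]
    exact Finset.sum_congr rfl fun i _ => Finset.sum_congr rfl fun j _ => by ring
  rw [k1, k1, e]
  exact Finset.sum_congr rfl fun i _ => mul_comm _ _

theorem cpow_mul_pos {s : ℂ} (hs : 0 < s.re) {a : ℝ} (ha : 0 < a) :
    (s * a) ^ (1 / 2 : ℂ) = s ^ (1 / 2 : ℂ) * (a : ℂ) ^ (1 / 2 : ℂ) := by
  have h0 : s ≠ 0 := by rintro rfl; simp at hs
  have ha' : (a : ℂ) ≠ 0 := by exact_mod_cast ha.ne'
  rw [Complex.cpow_def_of_ne_zero (mul_ne_zero h0 ha'), Complex.cpow_def_of_ne_zero h0,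
    Complex.cpow_def_of_ne_zero ha', mul_comm s, Complex.log_ofReal_mul ha h0, ← Complex.exp_add,
    ← Complex.ofReal_log ha.le]
  congr 1; ring

theorem tsum_cons {f : (Fin (n + 1) → ℤ) → ℂ} (hf : Summable f) :
    ∑' x, f x = ∑' y : Fin n → ℤ, ∑' m : ℤ, f (Fin.cons m y) ∧
    ∑' x, f x = ∑' m : ℤ, ∑' y : Fin n → ℤ, f (Fin.cons m y) := by
  have h := (Fin.consEquiv fun _ => ℤ).summable_iff.2 hf
  have e := ((Fin.consEquiv fun _ : Fin (n + 1) => ℤ).tsum_eq f).symm
  have e2 : ∑' x, f x = ∑' m : ℤ, ∑' y : Fin n → ℤ, f (Fin.cons m y) := e.trans h.tsum_prod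
  exact ⟨e2.trans (Summable.tsum_comm (f := fun m y => f (Fin.cons m y)) h).symm, e2⟩

theorem cast_cons (m : ℤ) (y : Fin n → ℤ) :
    (fun i => (((Fin.cons m y : Fin (n + 1) → ℤ) i : ℤ) : ℂ)) = Fin.cons (m : ℂ) fun i => (y i : ℂ) := by
  ext i; refine Fin.cases ?_ (fun i => ?_) i <;> simp

theorem poisson : ∀ (n : ℕ) (A C : Matrix (Fin n) (Fin n) ℝ), (∀ i j, A i j = A j i) → PD A →
    A * C = 1 → ∃ k : ℂ, ∀ s : ℂ, 0 < s.re → ∀ b : Fin n → ℂ,
      ∑' x : Fin n → ℤ, cexp (-(π * s) * qc A (fun i => x i) + ∑ i, (2 * π * b i) * x i) =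
        k / (s ^ (1 / 2 : ℂ)) ^ n *
          ∑' y : Fin n → ℤ, cexp (-(π / s) * qc C fun i => y i + I * b i)
  | 0, A, C, _, _, _ => ⟨1, fun s _ b => by simp [qc]⟩
  | n + 1, A, C, hs, hA, h => by
    have ha := hA.pos00
    have ha' : (A 0 0 : ℂ) ≠ 0 := by exact_mod_cast ha.ne'
    have hS := hA.schur hs
    obtain ⟨k, hk⟩ := poisson n (schur A) (low C)
      (fun i j => by simp only [schur, hs i.succ j.succ, mul_comm]) hS (schur_low hs ha.ne' h)
    refine ⟨k / (A 0 0 : ℂ) ^ (1 / 2 : ℂ), fun s hs0 b => ?_⟩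
    have h0 : s ≠ 0 := by rintro rfl; simp at hs0
    have hp : 0 < ((π : ℂ) * s).re := by simpa using mul_pos Real.pi_pos hs0
    have hsi : 0 < s⁻¹.re := by rw [Complex.inv_re]; exact div_pos hs0 (normSq_pos.2 h0)
    have hp' : 0 < ((π : ℂ) / s).re := by
      rw [div_eq_mul_inv]; simpa only [re_ofReal_mul] using mul_pos Real.pi_pos hsi
    have hsa : 0 < (s * A 0 0).re := by simpa using mul_pos hs0 ha
    rw [(tsum_cons (hA.summ hp _).of_norm).1, (tsum_cons ((hA.inv h).summ' hp' _).of_norm).2]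
    -- the mixed term
    set g : ℤ → ℂ := fun m => cexp (-(π / s) * ((m + I * b 0) ^ 2 / A 0 0)) with hg
    set F : ℤ → (Fin n → ℤ) → ℂ := fun m y => g m * cexp (-(π * s) * qc (schur A) (fun i => y i) +
      ∑ i, (2 * π * (b i.succ + I * ((m + I * b 0) / A 0 0 * A 0 i.succ))) * y i) with hF
    have e1 : ∀ y : Fin n → ℤ, ∑' m : ℤ, cexp (-(π * s) *
        qc A (fun i => ((Fin.cons m y : Fin (n + 1) → ℤ) i : ℂ)) +
        ∑ i, (2 * π * b i) * ((Fin.cons m y : Fin (n + 1) → ℤ) i : ℂ)) =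
        1 / (s * A 0 0) ^ (1 / 2 : ℂ) * ∑' m : ℤ, F m y := by
      intro y
      obtain ⟨V, hV⟩ : ∃ V, V = ∑ j : Fin n, (A 0 j.succ : ℂ) * y j := ⟨_, rfl⟩
      obtain ⟨W, hW⟩ : ∃ W, W = ∑ j : Fin n, (2 * π * b j.succ) * y j := ⟨_, rfl⟩
      have k1 := Complex.tsum_exp_neg_quadratic hsa (b 0 - s * V)
      have k2 := congrArg (· * cexp (-(π * s) * (qc (schur A) (fun i => y i) + V ^ 2 / A 0 0) + W)) k1
      simp only [mul_assoc _ (tsum _), ← tsum_mul_right, ← Complex.exp_add] at k2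
      refine (tsum_congr fun m => ?_).trans (k2.trans (congrArg _ (tsum_congr fun m => ?_)))
      · congr 1
        rw [cast_cons, qc_cons hs, Fin.sum_univ_succ, ← hV]
        simp only [Fin.cons_zero, Fin.cons_succ, ← hW]
        ring
      · simp only [hF, hg, ← Complex.exp_add]
        congr 1
        have : ∑ i : Fin n, (2 * π * (b i.succ + I * ((m + I * b 0) / A 0 0 * A 0 i.succ))) * y i =
            W + 2 * π * I * ((m + I * b 0) / A 0 0) * V := by
          rw [hW, hV, Finset.mul_sum, ← Finset.sum_add_distrib]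
          exact Finset.sum_congr rfl fun j _ => by ring
        rw [this]
        field_simp
        linear_combination (-(s ^ 2 * V ^ 2 * π)) * I_mul_I
    have e2 : ∀ m : ℤ, ∑' y : Fin n → ℤ, F m y = k / (s ^ (1 / 2 : ℂ)) ^ n *
        ∑' y : Fin n → ℤ, cexp (-(π / s) *
          qc C fun i => ((Fin.cons m y : Fin (n + 1) → ℤ) i : ℂ) + I * b i) := by
      intro m
      simp only [hF]
      rw [tsum_mul_left, hk s hs0, mul_left_comm, ← tsum_mul_left]
      congr 1
      refine tsum_congr fun y => ?_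
      have : (fun i => ((Fin.cons m y : Fin (n + 1) → ℤ) i : ℂ) + I * b i) =
          Fin.cons (m + I * b 0) fun i => (y i : ℂ) + I * b i.succ := by
        ext i; refine Fin.cases ?_ (fun i => ?_) i <;> simp
      rw [this, qc_cons_inv hs ha.ne' h, hg, ← Complex.exp_add, ← mul_add]
      congr 4
      ext i
      linear_combination ((m + I * b 0) / A 0 0 * A 0 i.succ) * I_mul_I
    have sm : Summable (Function.uncurry F) := by
      have s1 : Summable fun m : ℤ => ‖g m‖ := by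
        have hd : PD (n := 1) (fun _ _ => (A 0 0)⁻¹) := fun x hx => by
          have : x 0 ≠ 0 := fun e => hx (by ext i; rw [Subsingleton.elim i 0]; exact e)
          simp only [qr, Fin.sum_univ_succ, Fin.sum_univ_zero, add_zero, mul_assoc]
          exact mul_pos (inv_pos.2 ha) (mul_self_pos.2 this)
        have := (Equiv.funUnique (Fin 1) ℤ).symm.summable_iff.2 (hd.summ' hp' fun _ => I * b 0)
        refine this.congr fun m => ?_
        simp only [hg, Function.comp, qc, Fin.sum_univ_succ, Fin.sum_univ_zero, add_zero]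
        congr 3
        simp; ring
      have s2 := hS.summ hp fun i => 2 * π * (b i.succ - b 0 / A 0 0 * A 0 i.succ)
      refine Summable.of_norm ((s1.mul_of_nonneg s2 (fun _ => norm_nonneg _)
        fun _ => norm_nonneg _).congr fun x => ?_)
      obtain ⟨m, y⟩ := x
      simp only [hF, Function.uncurry, norm_mul, Complex.norm_exp, add_re, re_sum]
      congr 3
      refine Finset.sum_congr rfl fun i _ => ?_
      have : (2 * π * (b i.succ + I * ((m + I * b 0) / A 0 0 * A 0 i.succ))) * (y i : ℂ) =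
          2 * π * (b i.succ - b 0 / A 0 0 * A 0 i.succ) * y i +
            ((2 * π * m / A 0 0 * A 0 i.succ * y i : ℝ) : ℂ) * I := by
        push_cast
        linear_combination (2 * π * b 0 / A 0 0 * A 0 i.succ * y i) * I_mul_I
      rw [this, add_re, re_ofReal_mul, I_re, mul_zero, add_zero]
    simp only [e1]
    rw [tsum_mul_left, sm.tsum_comm]
    simp only [e2]
    rw [tsum_mul_left, cpow_mul_pos hs0 ha, ← mul_assoc]
    congr 1
    rw [pow_succ]
    ring

end H1.Th
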