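import Cfsg.Agent.H1.Th2

/-!
The theta series of an even unimodular lattice of rank 24 is a modular form of weight 12.
-/

set_option autoImplicit false

namespace H1.Th
open Complex Real Matrix

variable {n : ℕ} {B : Matrix (Fin n) (Fin n) ℤ}

/-- real version of an integer matrix -/
def re (B : Matrix (Fin n) (Fin n) ℤ) : Matrix (Fin n) (Fin n) ℝ := B.map (Int.castRingHom ℝ)

theorem qr_int (B : Matrix (Fin n) (Fin n) ℤ) (x : Fin n → ℤ) :
    qr (re B) (fun i => x i) = ((x ⬝ᵥ (B *ᵥ x) : ℤ) : ℝ) := by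
  simp only [qr, re, dotProduct, mulVec, Finset.mul_sum, map_apply, eq_intCast]
  push_cast
  exact Finset.sum_congr rfl fun i _ => Finset.sum_congr rfl fun j _ => by ring

theorem qc_int (B : Matrix (Fin n) (Fin n) ℤ) (x : Fin n → ℤ) :
    qc (re B) (fun i => x i) = ((x ⬝ᵥ (B *ᵥ x) : ℤ) : ℂ) := by
  have := qc_real (re B) (fun i => (x i : ℝ))
  simp only [ofReal_intCast] at this
  rw [this, qr_int, ofReal_intCast]

theorem pd_re (hsymm : B.IsSymm) (hpos : ∀ x : Fin n → ℤ, x ≠ 0 → 0 < x ⬝ᵥ (B *ᵥ x))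
    (hdet : B.det = 1) : PD (re B) := by
  have h0 : ∀ x : Fin n → ℤ, 0 ≤ x ⬝ᵥ (B *ᵥ x) := fun x => by
    by_cases hx : x = 0
    · simp [hx]
    · exact (hpos x hx).le
  have h1 : ∀ x, 0 ≤ qr (re B) x := by
    intro x
    refine (DenseRange.piMap (fun _ : Fin n => Rat.denseRange_cast (𝕜 := ℝ))).induction_on x
      (isClosed_le continuous_const (qr_cont _)) fun q => ?_
    have hd : ∀ i, ∃ z : ℤ, (z : ℚ) = (∏ j, ((q j).den : ℚ)) * q i := fun i => by
      refine ⟨(∏ j ∈ Finset.univ.erase i, ((q j).den : ℤ)) * (q i).num, ?_⟩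
      rw [← Finset.mul_prod_erase _ _ (Finset.mem_univ i)]
      push_cast
      rw [← Rat.mul_den_eq_num]; ring
    choose z hz using hd
    have hp : (0 : ℝ) < ∏ j, ((q j).den : ℝ) :=
      Finset.prod_pos fun j _ => by exact_mod_cast (q j).den_pos
    have e : (fun i => (z i : ℝ)) = (∏ j, ((q j).den : ℝ)) •
        Pi.map (fun (_ : Fin n) => (Rat.cast : ℚ → ℝ)) q := by
      ext i
      have := congrArg (Rat.cast : ℚ → ℝ) (hz i)
      push_cast at this
      simpa using this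
    have := qr_int B z
    rw [e, qr_smul] at this
    have h2 : (0 : ℝ) ≤ ((z ⬝ᵥ (B *ᵥ z) : ℤ) : ℝ) := by exact_mod_cast h0 z
    rw [← this] at h2
    exact nonneg_of_mul_nonneg_right h2 (by positivity) |> fun h => h
  have k1 : ∀ x, qr (re B) x = x ⬝ᵥ (re B *ᵥ x) := by
    intro x
    simp only [qr, mulVec, dotProduct, Finset.mul_sum]
    exact Finset.sum_congr rfl fun i _ => Finset.sum_congr rfl fun j _ => by ring
  have hpsd : (re B).PosSemidef := by
    refine Matrix.PosSemidef.of_dotProduct_mulVec_nonneg ?_ fun x => ?_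
    · ext i j
      simp [re, hsymm.apply]
    · rw [star_trivial, ← k1]; exact h1 x
  have hu : IsUnit (re B) := by
    rw [Matrix.isUnit_iff_isUnit_det, re, ← RingHom.mapMatrix_apply, ← RingHom.map_det, hdet]
    simp
  have hpd := hpsd.posDef_iff_isUnit.2 hu
  intro x hx
  have := hpd.dotProduct_mulVec_pos hx
  rwa [star_trivial, ← k1] at this

/-- the theta function in the variable `s = -i τ` -/
noncomputable def T (B : Matrix (Fin n) (Fin n) ℤ) (s : ℂ) : ℂ :=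
  ∑' x : Fin n → ℤ, cexp (-(π * s) * ((x ⬝ᵥ (B *ᵥ x) : ℤ) : ℂ))

theorem T_summ (h : PD (re B)) {s : ℂ} (hs : 0 < s.re) :
    Summable fun x : Fin n → ℤ => ‖cexp (-(π * s) * ((x ⬝ᵥ (B *ᵥ x) : ℤ) : ℂ))‖ := by
  have hp : 0 < ((π : ℂ) * s).re := by simpa using mul_pos Real.pi_pos hs
  simpa only [qc_int, zero_mul, Finset.sum_const_zero, add_zero] using h.summ hp fun _ => 0

theorem T_inv (hsymm : B.IsSymm) (h : PD (re B)) (hdet : B.det = 1) {s : ℂ} (hs : 0 < s.re) :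
    T B s = 1 / (s ^ (1 / 2 : ℂ)) ^ n * T B s⁻¹ := by
  have hu : IsUnit B.det := by simp [hdet]
  have h1 : B * B⁻¹ = 1 := Matrix.mul_nonsing_inv _ hu
  have h2 : B⁻¹ * B = 1 := Matrix.nonsing_inv_mul _ hu
  obtain ⟨k, hk⟩ := poisson n (re B) (re B⁻¹) (fun i j => by simp [re, hsymm.apply]) h
    (by rw [re, re, ← Matrix.map_mul, h1]; simp)
  let e : (Fin n → ℤ) ≃ (Fin n → ℤ) := ⟨fun x => B *ᵥ x, fun x => B⁻¹ *ᵥ x,
    fun x => by simp [Matrix.mulVec_mulVec, h2], fun x => by simp [Matrix.mulVec_mulVec, h1]⟩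
  have key : ∀ s : ℂ, 0 < s.re → T B s = k / (s ^ (1 / 2 : ℂ)) ^ n * T B s⁻¹ := by
    intro s hs
    have := hk s hs 0
    simp only [Pi.zero_apply, mul_zero, zero_mul, Finset.sum_const_zero, add_zero, qc_int] at this
    rw [T, this, ← e.tsum_eq]
    congr 1
    refine tsum_congr fun x => ?_
    have : e x ⬝ᵥ (B⁻¹ *ᵥ e x) = x ⬝ᵥ (B *ᵥ x) := by
      show (B *ᵥ x) ⬝ᵥ (B⁻¹ *ᵥ (B *ᵥ x)) = _
      rw [Matrix.mulVec_mulVec, h2, Matrix.one_mulVec, dotProduct_comm]
    rw [this, div_eq_mul_inv]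
  have k1 := key 1 (by simp)
  have t1 : T B 1 ≠ 0 := by
    have s1 := T_summ h (s := 1) (by simp)
    have : T B 1 = ((∑' x : Fin n → ℤ, ‖cexp (-(π * 1) * ((x ⬝ᵥ (B *ᵥ x) : ℤ) : ℂ))‖ : ℝ) : ℂ) := by
      rw [ofReal_tsum]
      refine tsum_congr fun x => ?_
      rw [Complex.norm_exp, ofReal_exp]
      congr 1
      simp
    rw [this]
    exact_mod_cast (s1.tsum_pos (fun _ => norm_nonneg _) 0 (by simp)).ne'
  simp only [inv_one, one_cpow, one_pow, div_one] at k1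
  have : k = 1 := by
    apply mul_right_cancel₀ t1
    rw [← k1, one_mul]
  rw [key s hs, this]

end H1.Th
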