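import Cfsg.Agent.H1.Th3

/-!
The theta series of a rootless even unimodular lattice of rank 24.
-/

set_option autoImplicit false

namespace H1.Th
open Complex Real Matrix
open UpperHalfPlane ModularForm MatrixGroups EisensteinSeries
open scoped Manifold

variable {n : ℕ} {B : Matrix (Fin n) (Fin n) ℤ}

/-- theta series -/
noncomputable def theta (B : Matrix (Fin n) (Fin n) ℤ) (τ : ℍ) : ℂ := T B (-Complex.I * τ)

theorem theta_q (h : PD (re B)) (hpos : ∀ x : Fin n → ℤ, x ≠ 0 → 0 < x ⬝ᵥ (B *ᵥ x))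
    (heven : ∀ x : Fin n → ℤ, (2 : ℤ) ∣ x ⬝ᵥ (B *ᵥ x)) (τ : ℍ) :
    HasSum (fun m : ℕ => (({x : Fin n → ℤ | x ⬝ᵥ (B *ᵥ x) = 2 * m}.ncard : ℕ) : ℂ) •
      Function.Periodic.qParam 1 (τ : ℂ) ^ m) (theta B τ) := by
  have h0 : ∀ x : Fin n → ℤ, 0 ≤ x ⬝ᵥ (B *ᵥ x) := fun x => by
    by_cases hx : x = 0
    · simp [hx]
    · exact (hpos x hx).le
  have hs : 0 < (-Complex.I * τ).re := by simpa using τ.im_pos
  have := (T_summ h hs).of_norm.hasSum.tsum_fiberwise fun x => (x ⬝ᵥ (B *ᵥ x) / 2).toNat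
  refine this.congr_fun fun m => ?_
  have e : (fun x : Fin n → ℤ => (x ⬝ᵥ (B *ᵥ x) / 2).toNat) ⁻¹' {m} =
      {x : Fin n → ℤ | x ⬝ᵥ (B *ᵥ x) = 2 * m} := by
    ext x
    have := h0 x
    have := heven x
    simp only [Set.mem_preimage, Set.mem_singleton_iff, Set.mem_ofPred_eq]
    omega
  rw [e, tsum_congr (g := fun _ => Function.Periodic.qParam 1 (τ : ℂ) ^ m), tsum_const]
  · simp
  · rintro ⟨x, hx⟩
    simp only [Set.mem_ofPred_eq] at hx
    simp only [hx, Function.Periodic.qParam, ← Complex.exp_nat_mul]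
    congr 1
    push_cast
    ring

theorem theta_holo (h : PD (re B)) : MDifferentiable 𝓘(ℂ) 𝓘(ℂ) (theta B) := by
  rw [UpperHalfPlane.mdifferentiable_iff]
  have : DifferentiableOn ℂ (fun z => T B (-Complex.I * z)) {z | 0 < z.im} := by
    intro z hz
    have hz' : 0 < z.im := hz
    have hU : IsOpen {w : ℂ | z.im / 2 < w.im} := isOpen_lt continuous_const continuous_im
    have := differentiableOn_tsum_of_summable_norm (U := {w : ℂ | z.im / 2 < w.im})
      (F := fun (x : Fin n → ℤ) w => cexp (-(π * (-Complex.I * w)) * ((x ⬝ᵥ (B *ᵥ x) : ℤ) : ℂ)))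
      (T_summ h (s := ((z.im / 2 : ℝ) : ℂ)) (by simpa using hz')) (fun x => by fun_prop) hU
      fun x w hw => by
        have hw' : z.im / 2 < w.im := hw
        have h0 : (0 : ℝ) ≤ ((x ⬝ᵥ (B *ᵥ x) : ℤ) : ℝ) := by
          rw [← qr_int]
          by_cases hx : (fun i => (x i : ℝ)) = 0
          · rw [hx]; simp [qr]
          · exact (h _ hx).le
        rw [Complex.norm_exp, Complex.norm_exp]
        apply Real.exp_le_exp.2
        simp only [neg_mul, mul_neg, neg_neg, mul_re, neg_re, ofReal_re, ofReal_im, Complex.I_re, Complex.I_im,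
          mul_im, intCast_re, intCast_im, zero_mul, mul_zero, sub_zero, one_mul, zero_sub,
          zero_add, add_zero, neg_le_neg_iff]
        gcongr
    exact (this.differentiableAt (hU.mem_nhds (show z.im / 2 < z.im by linarith))).differentiableWithinAt
  refine this.congr fun z hz => ?_
  simp [theta, ofComplex_apply_of_im_pos hz]

/-- theta as a modular form -/
noncomputable def thetaMF {B : Matrix (Fin 24) (Fin 24) ℤ} (hsymm : B.IsSymm)
    (hpos : ∀ x : Fin 24 → ℤ, x ≠ 0 → 0 < x ⬝ᵥ (B *ᵥ x))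
    (heven : ∀ x : Fin 24 → ℤ, (2 : ℤ) ∣ x ⬝ᵥ (B *ᵥ x)) (hdet : B.det = 1) :
    ModularForm 𝒮ℒ 12 :=
  have h := pd_re hsymm hpos hdet
  have hS : theta B ∣[(12 : ℤ)] ModularGroup.S = theta B := by
    ext z
    have hs : 0 < (-Complex.I * z).re := by simpa using z.im_pos
    have hz : (z : ℂ) ≠ 0 := ne_zero z
    have k := T_inv hsymm h hdet hs
    have e : ((-Complex.I * z) ^ (1 / 2 : ℂ)) ^ 24 = (z : ℂ) ^ 12 := by
      rw [show 24 = 2 * 12 by rfl, pow_mul, ← Complex.cpow_nat_mul]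
      norm_num
      rw [mul_pow, show 12 = 4 * 3 by rfl, pow_mul, I_pow_four]
      simp
    suffices T B (-Complex.I * -(z : ℂ)⁻¹) * ((z : ℂ) ^ 12)⁻¹ = T B (-Complex.I * z) by
      rw [SL_slash_apply, UpperHalfPlane.modular_S_smul, ModularGroup.denom_S]
      simpa [theta]
    rw [k, e, show (-Complex.I * z)⁻¹ = -Complex.I * -(z : ℂ)⁻¹ by
      rw [mul_inv, inv_neg, Complex.inv_I]; ring]
    ring
  have hT : theta B ∣[(12 : ℤ)] ModularGroup.T = theta B := by
    ext z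
    have k1 := theta_q h hpos heven z
    have k2 := theta_q h hpos heven ((1 : ℝ) +ᵥ z)
    have : Function.Periodic.qParam 1 (((1 : ℝ) +ᵥ z : ℍ) : ℂ) = Function.Periodic.qParam 1 z := by
      simp only [Function.Periodic.qParam, coe_vadd, ← exp_periodic (2 * π * Complex.I * z / (1 : ℝ))]
      congr 1
      push_cast
      ring
    rw [this] at k2
    rw [SL_slash_apply, ModularGroup.denom_apply, modular_T_smul, k2.unique k1, ModularGroup.coe_T]
    simp
  { toFun := theta B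
    slash_action_eq' := fun A hA => by
      obtain ⟨A, rfl⟩ := hA
      exact SlashInvariantForm.slash_action_generators_SL2Z hS hT A
    holo' := theta_holo h
    bdd_at_cusps' := fun hc => by
      rw [Subgroup.IsArithmetic.isCusp_iff_isCusp_SL2Z] at hc
      rw [OnePoint.isBoundedAt_iff_forall_SL2Z hc]
      intro γ _
      rw [SlashInvariantForm.slash_action_generators_SL2Z hS hT]
      exact isBoundedAtImInfty_of_hasSum_qExpansion one_pos (theta_q h hpos heven) }

open ArithmeticFunction in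
theorem counts {B : Matrix (Fin 24) (Fin 24) ℤ} (hsymm : B.IsSymm)
    (hpos : ∀ x : Fin 24 → ℤ, x ≠ 0 → 0 < x ⬝ᵥ (B *ᵥ x))
    (heven : ∀ x : Fin 24 → ℤ, (2 : ℤ) ∣ x ⬝ᵥ (B *ᵥ x)) (hdet : B.det = 1)
    (h2 : ∀ x : Fin 24 → ℤ, x ⬝ᵥ (B *ᵥ x) ≠ 2) :
    {x : Fin 24 → ℤ | x ⬝ᵥ (B *ᵥ x) = 4}.ncard = 196560 ∧
      {x : Fin 24 → ℤ | x ⬝ᵥ (B *ᵥ x) = 6}.ncard = 16773120 ∧
      {x : Fin 24 → ℤ | x ⬝ᵥ (B *ᵥ x) = 8}.ncard = 398034000 := by
  have h := pd_re hsymm hpos hdet
  have hc := ModularFormClass.qExpansion_coeff_unique one_pos one_mem_strictPeriods_SL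
    (f := thetaMF hsymm hpos heven hdet) (theta_q h hpos heven)
  let G : ModularForm 𝒮ℒ 12 := (7 / 12 : ℂ) • ModularForm.mcast (by decide) (E₄.pow 3) +
    (5 / 12 : ℂ) • ModularForm.mcast (by decide) (E₆.pow 2)
  have hG : qExpansion 1 G = (7 / 12 : ℂ) • (qExpansion 1 E₄ * qExpansion 1 E₄ * qExpansion 1 E₄) +
      (5 / 12 : ℂ) • (qExpansion 1 E₆ * qExpansion 1 E₆) := by
    simp only [G]
    rw [FunLike.coe_add, ModularForm.qExpansion_add one_pos one_mem_strictPeriods_SL,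
      FunLike.coe_smul, FunLike.coe_smul,
      ModularForm.qExpansion_smul one_pos one_mem_strictPeriods_SL,
      ModularForm.qExpansion_smul one_pos one_mem_strictPeriods_SL]
    simp only [coe_mcast, ModularForm.qExpansion_pow one_pos one_mem_strictPeriods_SL]
    rw [pow_three', pow_two]
  have b4 : ((bernoulli 4 : ℚ) : ℂ) = -1 / 30 := by
    rw [show bernoulli 4 = -1 / 30 by decide +kernel]; push_cast; ring
  have b6 : ((bernoulli 6 : ℚ) : ℂ) = 1 / 42 := by
    rw [show bernoulli 6 = 1 / 42 by decide +kernel]; push_cast; ring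
  have e4 : ∀ m, (qExpansion 1 E₄).coeff m = if m = 0 then 1 else 240 * (sigma 3 m : ℂ) := by
    intro m
    rw [E_qExpansion_coeff _ ⟨2, rfl⟩, b4]; norm_num
  have e6 : ∀ m, (qExpansion 1 E₆).coeff m = if m = 0 then 1 else -504 * (sigma 5 m : ℂ) := by
    intro m
    rw [E_qExpansion_coeff _ ⟨3, rfl⟩, b6]; norm_num
  have s3 : sigma 3 1 = 1 ∧ sigma 3 2 = 9 ∧ sigma 3 3 = 28 ∧ sigma 3 4 = 73 := by
    simp only [sigma_apply]; decide +kernel
  have s5 : sigma 5 1 = 1 ∧ sigma 5 2 = 33 ∧ sigma 5 3 = 244 ∧ sigma 5 4 = 1057 := by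
    simp only [sigma_apply]; decide +kernel
  have cG : (qExpansion 1 G).coeff 0 = 1 ∧ (qExpansion 1 G).coeff 1 = 0 ∧
      (qExpansion 1 G).coeff 2 = 196560 ∧ (qExpansion 1 G).coeff 3 = 16773120 ∧
      (qExpansion 1 G).coeff 4 = 398034000 := by
    rw [hG]
    simp only [map_add, PowerSeries.coeff_smul, PowerSeries.coeff_mul,
      Finset.Nat.sum_antidiagonal_eq_sum_range_succ_mk, Finset.sum_range_succ,
      Finset.sum_range_zero, e4, e6]
    norm_num [s3, s5]
  have e : thetaMF hsymm hpos heven hdet - G = 0 := by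
    apply ModularForm.sturm_bound_levelOne
    rw [FunLike.coe_sub, ModularForm.qExpansion_sub one_pos one_mem_strictPeriods_SL]
    refine lt_of_lt_of_le (show _ < ((2 : ℕ) : ℕ∞) by norm_num; decide) (PowerSeries.nat_le_order _ _ ?_)
    intro i hi
    rw [map_sub, ← hc]
    interval_cases i
    · rw [cG.1, show {x : Fin 24 → ℤ | x ⬝ᵥ (B *ᵥ x) = 2 * ((0 : ℕ) : ℤ)} = {0} from ?_]
      · simp
      · ext x
        simp only [Set.mem_ofPred_eq, Set.mem_singleton_iff]
        refine ⟨fun hx => by_contra fun h0 => ?_, fun hx => by simp [hx]⟩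
        have := hpos x h0
        omega
    · rw [cG.2.1, show {x : Fin 24 → ℤ | x ⬝ᵥ (B *ᵥ x) = 2 * ((1 : ℕ) : ℤ)} = ∅ from ?_]
      · simp
      · ext x
        simpa using h2 x
  rw [sub_eq_zero.1 e] at hc
  have c2 := (hc 2).trans cG.2.2.1
  have c3 := (hc 3).trans cG.2.2.2.1
  have c4 := (hc 4).trans cG.2.2.2.2
  exact ⟨by exact_mod_cast c2, by exact_mod_cast c3, by exact_mod_cast c4⟩

end H1.Th
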